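/- Classes of elements of order three: a covering certificate along a normal series of a Sylow subgroup. -/
import Cfsg.Agent.GS.Mk1
import Cfsg.Agent.H6.Mat2

namespace Cfsg.Agent.St.Cv
open H6 MulAction
open scoped Pointwise
variable {G : Type*} [Group G] {g : ℕ → G}

inductive T
  | leaf (c : List ℕ) (r : ℕ)
  | nz (p : ℕ)
  | split (a b c : T)
  | inert (c1 w1 c2 w2 : List ℕ) (a : T)

noncomputable def T.chk (e : List ℕ → List ℕ → Bool) (ne : List ℕ → ℕ → Bool) (al : List ℕ) (R : List (List ℕ)) (t : T) :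
    List ℕ → List ℕ → Bool :=
  T.rec (motive := fun _ => List ℕ → List ℕ → Bool)
    (fun c r ks u => band (isNil ks) (e (lapp c (lk [] R r)) (lapp u c)))
    (fun p ks u => band (isNil ks) (ne (lpow u 3) p))
    (fun _ _ _ a b c ks u => List.rec (motive := fun _ => Bool) false
      (fun k ks _ => band (a ks u) (band (b ks (lapp u [k])) (c ks (lapp u [k, k])))) ks)
    (fun c1 w1 c2 w2 _ a ks u => List.rec (motive := fun _ => Bool) false
      (fun k ks _ => band (a ks u) (band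
        (band (band (wok (tb (mkM al)) c1) (wok (tb (mkM ks)) w1)) (e (lapp c1 u) (lapp (lapp (lapp u [k]) w1) c1)))
        (band (band (wok (tb (mkM al)) c2) (wok (tb (mkM ks)) w2)) (e (lapp c2 u) (lapp (lapp (lapp u [k, k]) w2) c2))))) ks) t

def Ser (g : ℕ → G) (P : Subgroup G) : List ℕ → Prop
  | [] => True
  | k :: ks => P ≤ Subgroup.normalizer (cl g (lw ks) : Set G) ∧ g k ^ 3 = 1 ∧ g k ∈ P ∧ Ser g P ks

def Good (g : ℕ → G) (R : List (List ℕ)) (x : G) : Prop := x ^ 3 = 1 → ∃ r, IsConj (wp g (lk [] R r)) x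

theorem Good.conj {R : List (List ℕ)} {x : G} (h : Good g R x) (c : G) : Good g R (c * x * c⁻¹) := fun e => by
  rw [conj_pow, mul_inv_eq_one, mul_eq_left] at e
  obtain ⟨r, hr⟩ := h e
  exact ⟨r, hr.trans (isConj_iff.2 ⟨c, rfl⟩)⟩

theorem Ser.dec {P : Subgroup G} {k : ℕ} {ks : List ℕ} (s : Ser g P (k :: ks)) {h : G} (hh : h ∈ cl g (lw (k :: ks))) :
    ∃ j : Fin 3, ∃ n ∈ cl g (lw ks), h = g k ^ j.1 * n := by
  have h1 : cl g (lw (k :: ks)) ≤ Subgroup.zpowers (g k) ⊔ cl g (lw ks) := cl_lw_le.2 fun l hl => by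
    rcases List.mem_cons.1 hl with rfl | hl
    · exact Subgroup.mem_sup_left (Subgroup.mem_zpowers _)
    · exact Subgroup.mem_sup_right (gen_mem_lw hl)
  have h2 : h ∈ ((Subgroup.zpowers (g k) ⊔ cl g (lw ks) : Subgroup G) : Set G) := h1 hh
  rw [Subgroup.coe_mul_of_left_le_normalizer_right _ _ (Subgroup.zpowers_le.2 (s.1 s.2.2.1))] at h2
  obtain ⟨_, ⟨z, rfl⟩, n, hn, rfl⟩ := h2
  refine ⟨⟨(z % 3).toNat, by omega⟩, n, hn, ?_⟩
  show g k ^ z * n = g k ^ (z % 3).toNat * n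
  rw [zpow_eq_zpow_emod' z s.2.1, ← zpow_natCast, Int.toNat_of_nonneg (by omega)]; rfl

theorem Ser.card [Finite G] {P : Subgroup G} {ks : List ℕ} (s : Ser g P ks) : Nat.card (cl g (lw ks)) ≤ 3 ^ ks.length := by
  induction ks with
  | nil => rw [(eq_bot_iff.2 (cl_lw_le.2 (by simp)) : cl g (lw []) = ⊥)]; simp
  | cons k ks ih =>
    have hl : cl g (lw ks) ≤ cl g (lw (k :: ks)) := cl_lw_le.2 fun l hl => gen_mem_lw (List.mem_cons_of_mem _ hl)
    have := Nat.card_le_card_of_surjective (fun p : Fin 3 × cl g (lw ks) => (⟨g k ^ p.1.1 * p.2,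
      mul_mem (pow_mem (gen_mem_lw List.mem_cons_self) _) (hl p.2.2)⟩ : cl g (lw (k :: ks)))) fun h => by
        obtain ⟨j, n, hn, e⟩ := s.dec h.2
        exact ⟨(j, ⟨n, hn⟩), Subtype.ext e.symm⟩
    rw [Nat.card_prod, Nat.card_fin] at this
    have := ih s.2.2.2
    rw [List.length_cons, pow_succ]; omega

theorem T.sound {e : List ℕ → List ℕ → Bool} {ne : List ℕ → ℕ → Bool} (he : ∀ u w, e u w = true → wp g u = wp g w)
    (hne : ∀ u p, ne u p = true → wp g u ≠ 1) {al : List ℕ} {R : List (List ℕ)} (t : T) :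
    ∀ ks u, Ser g (cl g (lw al)) ks → t.chk e ne al R ks u = true → ∀ h ∈ cl g (lw ks), Good g R (wp g u * h) := by
  have b0 : ∀ h ∈ cl g (lw []), h = 1 := fun h hh => (cl_lw_le (K := ⊥)).2 (by simp) hh
  induction t with
  | leaf c r =>
    intro ks u _ hc h hh _
    obtain ⟨h1, h2⟩ := (band_eq _ _).1 hc
    obtain rfl := isNil_eq h1
    have := he _ _ h2
    rw [wp_lapp, wp_lapp] at this
    exact ⟨r, isConj_iff.2 ⟨wp g c, by rw [b0 h hh, this, mul_one, mul_inv_cancel_right]⟩⟩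
  | nz p =>
    intro ks u _ hc h hh e3
    obtain ⟨h1, h2⟩ := (band_eq _ _).1 hc
    obtain rfl := isNil_eq h1
    rw [b0 h hh, mul_one, ← wp_lpow] at e3
    exact absurd e3 (hne _ _ h2)
  | split a b c ia ib ic =>
    rintro (_ | ⟨k, ks⟩) u s hc h hh
    · exact absurd hc Bool.false_ne_true
    obtain ⟨h1, h2⟩ := (band_eq _ _).1 hc
    obtain ⟨h2, h3⟩ := (band_eq _ _).1 h2
    obtain ⟨j, n, hn, rfl⟩ := s.dec hh
    fin_cases j
    · simpa using ia _ _ s.2.2.2 h1 n hn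
    · simpa [wp_lapp, mul_assoc] using ib _ _ s.2.2.2 h2 n hn
    · simpa [wp_lapp, mul_assoc, sq] using ic _ _ s.2.2.2 h3 n hn
  | inert c1 w1 c2 w2 a ia =>
    rintro (_ | ⟨k, ks⟩) u s hc h hh
    · exact absurd hc Bool.false_ne_true
    obtain ⟨h1, h2⟩ := (band_eq _ _).1 hc
    obtain ⟨h2, h3⟩ := (band_eq _ _).1 h2
    obtain ⟨j, n, hn, rfl⟩ := s.dec hh
    have key : ∀ c w v, band (band (wok (tb (mkM al)) c) (wok (tb (mkM ks)) w)) (e (lapp c u) (lapp (lapp v w) c)) = true →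
        Good g R (wp g v * n) := fun c w v hc => by
      rw [band_eq, band_eq] at hc
      have e1 := he _ _ hc.2
      rw [wp_lapp, wp_lapp, wp_lapp] at e1
      have := (ia _ _ s.2.2.2 h1 _ ((Subgroup.mem_normalizer_iff''.1 (s.1 (wp_mem_lw hc.1.1)) _).1
        (mul_mem (inv_mem (wp_mem_lw hc.1.2)) hn))).conj (wp g c)
      rwa [← mul_assoc, e1, show ∀ v w c n : G, v * w * c * (c⁻¹ * (w⁻¹ * n) * c) * c⁻¹ = v * n from
        fun _ _ _ _ => by group] at this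
    fin_cases j
    · simpa using ia _ _ s.2.2.2 h1 n hn
    · simpa [wp_lapp, mul_assoc] using key _ _ _ h2
    · simpa [wp_lapp, mul_assoc, sq] using key _ _ _ h3

theorem cover [Finite G] {e : List ℕ → List ℕ → Bool} {ne : List ℕ → ℕ → Bool} (he : ∀ u w, e u w = true → wp g u = wp g w)
    (hne : ∀ u p, ne u p = true → wp g u ≠ 1) {al : List ℕ} {R : List (List ℕ)} (t : T) (s : Ser g (cl g (lw al)) al)
    (hc : t.chk e ne al R al [] = true) (hl : 3 ^ al.length ≤ Nat.card (cl g (lw al))) {m : ℕ}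
    (hG : Nat.card G = 3 ^ al.length * m) (hm : ¬ 3 ∣ m) (x : G) (hx : orderOf x = 3) :
    ∃ r < R.length, IsConj (wp g (lk [] R r)) x := by
  obtain ⟨c, -, h⟩ := conj_into Nat.prime_three le_top (le_antisymm s.card hl) (Subgroup.card_top.trans hG) hm
    (le_top : Subgroup.zpowers x ≤ ⊤) (IsPGroup.of_card (n := 1) (by rw [Nat.card_zpowers, hx]; rfl))
  have := (t.sound he hne _ _ s hc _ (h x (Subgroup.mem_zpowers x))).conj c⁻¹
  obtain ⟨r, hr⟩ := this (by simpa [mul_assoc] using hx ▸ pow_orderOf_eq_one x)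
  simp only [wp_nil, one_mul, inv_inv, mul_assoc, inv_mul_cancel_left, inv_mul_cancel, mul_one] at hr
  refine ⟨r, not_le.1 fun hle => ?_, hr⟩
  rw [lk_eq, List.getD_eq_default _ _ hle, wp_nil, isConj_one_right] at hr
  simp [hr] at hx

noncomputable def fx {N : ℕ} (φ : G →* Equiv.Perm (Fin N)) (h : G) : ℕ := {y | φ h y = y}.ncard

theorem fx_conj {N : ℕ} (φ : G →* Equiv.Perm (Fin N)) (c h : G) : fx φ (c * h * c⁻¹) = fx φ h := by
  rw [fx, fx, ← Set.ncard_image_of_injective {y | φ h y = y} (φ c).injective]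
  congr 1; ext y
  obtain ⟨y, rfl⟩ := (φ c).surjective y
  simp

theorem fx_zpow {N : ℕ} (φ : G →* Equiv.Perm (Fin N)) {x y : G} (h : Subgroup.zpowers x = Subgroup.zpowers y) :
    fx φ x = fx φ y := by
  have k : ∀ {x y : G}, x ∈ Subgroup.zpowers y → ∀ a, φ y a = a → φ x a = a := by
    rintro _ y ⟨z, rfl⟩ a ha
    simpa using Equiv.Perm.zpow_apply_eq_self_of_apply_eq_self ha z
  rw [fx, fx]; congr 1; ext a
  exact ⟨k (h ▸ Subgroup.mem_zpowers y) a, k (h ▸ Subgroup.mem_zpowers x) a⟩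

theorem fx_eq {N : ℕ} [NeZero N] {φ : G →* Equiv.Perm (Fin N)} {nets : ℕ → Net} (ok : NetsOk N nets vT) {h : G} {w : List ℕ}
    (e : φ h = wp (finG ok) w) {k k' n : ℕ} (hc : fixCnt N k k' nets vT w n = true) : fx φ h = n := by
  rw [← (finModel ok).ncard_fix hc, fx, e]; congr 1; ext y
  exact ⟨fun h => ⟨⟨y.1, y.2, Fin.ext (Nat.mod_eq_of_lt y.2)⟩, h⟩, fun h => h.2⟩

theorem fin {H α : Type*} [Group H] (e : G ≃* H) {n : ℕ} (y : Fin n → G) (ho : ∀ i, orderOf (y i) = 3) (F : G → α)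
    (h1 : ∀ c h, F (c * h * c⁻¹) = F h) (h2 : ∀ x y, Subgroup.zpowers x = Subgroup.zpowers y → F x = F y)
    (hd : ∀ i j, F (y i) = F (y j) → i = j) (hc : ∀ x, orderOf x = 3 → ∃ i, IsConj (y i) x) :
    ∃ Y : Fin n → Subgroup H, (∀ i, Nat.card (Y i) = 3) ∧ (∀ i j, (∃ c : H, (Y i).map (MulAut.conj c).toMonoidHom = Y j) → i = j) ∧
      ∀ X : Subgroup H, Nat.card X = 3 → ∃ i, ∃ c : H, X.map (MulAut.conj c).toMonoidHom = Y i := by
  refine ⟨fun i => Subgroup.zpowers (e (y i)), fun i => by rw [Nat.card_zpowers, e.orderOf_eq, ho], ?_, fun X hX => ?_⟩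
  · rintro i j ⟨c, h⟩
    obtain ⟨c, rfl⟩ := e.surjective c
    refine hd i j ((h1 c _).symm.trans (h2 _ _ (Subgroup.map_injective (f := e.toMonoidHom) e.injective ?_)))
    simpa [MonoidHom.map_zpowers] using h
  · haveI : Fact (Nat.Prime 3) := ⟨Nat.prime_three⟩
    obtain ⟨x, rfl⟩ := (Subgroup.isCyclic_iff_exists_zpowers_eq_top X).1 (isCyclic_of_prime_card hX)
    obtain ⟨x, rfl⟩ := e.surjective x
    obtain ⟨i, h⟩ := hc x (by rw [← e.orderOf_eq, ← Nat.card_zpowers, hX])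
    obtain ⟨c, h⟩ := isConj_iff.1 h.symm
    exact ⟨i, e c, by simp [MonoidHom.map_zpowers, ← h]⟩

end Cfsg.Agent.St.Cv
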