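/-
Frobenius kernels of complements with quaternion Sylow subgroups.
-/
import Cfsg.Agent.GS.Zas0
import Cfsg.Agent.H4.Dick4
import Cfsg.Agent.H2.BG3a

namespace Cfsg.Agent.GS

open Subgroup Cfsg.Agent.H1 Cfsg.Agent.BG
open Cfsg.Agent.H2 hiding card_lt_of_lt card_lt_of_ne_top isMulCommutative_of_le isPGroup_zpowers_iff mem_of_pow_mem_of_coprime inf_eq_bot_of_cop exists_maxElem_ge Sec
open Cfsg.Agent.L (FPF QP)
open scoped commutatorElement Pointwise MatrixGroups

universe u
variable {G : Type u} [Group G] [Finite G] {K P V : Subgroup G} {a b : G}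

theorem isSquare_of_fpf {m : ℕ} (q : QP P (2 * m) a b) (hs : Group.IsSolvable K) (hc : (♯P).Coprime ♯K) (hf : FPF K P) :
    ∀ V : Subgroup G, V.Normal → V ≤ K → IsSquare ♯V := by
  intro V
  induction V using (wellFounded_lt (α := Subgroup G)).induction with | _ V ih
  intro hV hK
  by_cases h0 : V = ⊥
  · rw [h0, card_bot]; exact IsSquare.one
  obtain ⟨W, -, hW⟩ := exists_chiefIn_below (X := ⊤) (bot_lt_iff_ne_bot.2 h0) le_top le_normalizer_of_normal le_normalizer_of_normal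
  obtain ⟨r, F, _, _, M, _, _, _, ρ, hr, h1, -, h2, h3, -⟩ := hW.exists_rep (X := P) le_top (isSolvable_of_le hK hs)
    (hc.coprime_dvd_right (card_dvd_of_le hK))
  rw [← card_mul_relIndex hW.lt.le, h2]
  refine (ih W hW.lt (normalizer_eq_top_iff.1 (top_le_iff.1 hW.normV)) (hW.lt.le.trans hK)).mul (Even.isSquare_pow ?_ r)
  let α : P := ⟨a, q.a_mem⟩
  let β : P := ⟨b, q.b_mem⟩
  have h4 := h3 _ (zpowers_le.2 (pow_mem q.a_mem (2 * m)))
  rw [fpf_cent (hf.mono hK le_rfl) (zpowers_le.2 (pow_mem q.a_mem _)) (by simpa using q.t_ne_one), relIndex_bot_right] at h4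
  have h5 := Submodule.finrank_eq_zero.1 ((Nat.pow_eq_one.1 h4.symm).resolve_left hr.ne_one)
  have h6 : α ^ (2 * m) * α ^ (2 * m) = 1 := Subtype.ext q.t_mul_self
  have h7 : ρ (α ^ (2 * m)) = -1 := LinearMap.ext fun w => by
    have : ρ (α ^ (2 * m)) w + w ∈ fixS ρ ((zpowers (a ^ (2 * m))).subgroupOf P) := by
      refine fixS_anti ρ (K := zpowers (α ^ (2 * m))) (fun x hx => ?_) (mem_fixS_zpowers.2 ?_)
      · obtain ⟨k, hk⟩ := mem_zpowers_iff.1 (mem_subgroupOf.1 hx)
        exact ⟨k, Subtype.ext hk⟩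
      rw [map_add, ← Module.End.mul_apply, ← map_mul, h6, map_one, add_comm]; rfl
    rw [h5] at this
    exact eq_neg_of_add_eq_zero_left this
  have h8 : β * α * β⁻¹ * α = 1 := Subtype.ext (by simp [α, β, q.inv])
  have h9 := congrArg ((LinearMap.det (A := F) (M := M)).comp ρ) h8
  have h10 := congrArg ((LinearMap.det (A := F) (M := M)).comp ρ) (mul_inv_cancel β)
  have h11 := congrArg (LinearMap.det (A := F) (M := M)) h7
  simp only [map_mul, map_one, MonoidHom.comp_apply] at h9 h10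
  have h12 : LinearMap.det (ρ α) ^ 2 = 1 := by linear_combination h9 - LinearMap.det (ρ α) ^ 2 * h10
  rw [map_pow, map_pow, pow_mul, h12, one_pow, ← neg_one_smul F (1 : Module.End F M), LinearMap.det_smul, map_one, mul_one] at h11
  by_contra ho
  rw [(Nat.not_even_iff_odd.1 ho).neg_one_pow] at h11
  apply h1
  rw [q.card]
  push_cast
  linear_combination (4 * m : F) * 2 * h11 - (4 * m : F) * h11

theorem frob_quat {H : Subgroup G} (hF : IsFrobeniusComplement H) (hP : P ≤ H) {m : ℕ} (hm : 0 < m)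
    (e : P ≃* QuaternionGroup (2 * m)) : Odd ♯(frobeniusKernel H) ∧ IsSquare ♯(frobeniusKernel H) ∧ 1 < ♯(frobeniusKernel H) := by
  obtain ⟨K, hK, -, h1, h2, h3, h4, -⟩ := exists_frobKernel hF
  obtain ⟨a, b, q⟩ := L.exists_qP (by omega) e
  have hc := (h2.mono le_rfl hP).coprime le_normalizer_of_normal
  rw [h3]
  refine ⟨Nat.coprime_two_left.1 (hc.coprime_dvd_left ⟨4 * m, by rw [q.card]; ring⟩),
    isSquare_of_fpf q inferInstance hc (h2.mono le_rfl hP) K hK le_rfl, (one_lt_card_iff_ne_bot K).2 h1⟩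

theorem exists_Q8_act (k : ℕ) (hk : Odd k) : ∃ (V : Type) (_ : AddCommGroup V) (_ : Finite V)
    (ψ : QuaternionGroup 2 →* AddMonoid.End V), ♯V = k * k ∧ ∀ g, g ≠ 1 → ∀ v, ψ g v = v → v = 0 := by
  induction k using induction_on_primes with
  | zero => exact absurd hk (by decide)
  | one => exact ⟨PUnit, inferInstance, inferInstance, 1, by simp, fun _ _ _ _ => rfl⟩
  | prime_mul p k hp ih =>
    obtain ⟨V, _, _, ψ, h1, h2⟩ := ih (Nat.odd_mul.1 hk).2
    haveI := Fact.mk hp
    have h3 : (2 : ZMod p) ≠ 0 := fun e => by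
      have := (Nat.prime_dvd_prime_iff_eq hp Nat.prime_two).1 ((ZMod.natCast_eq_zero_iff 2 p).1 e)
      exact absurd (this ▸ (Nat.odd_mul.1 hk).1) (by decide)
    obtain ⟨x, y, h⟩ := ZMod.sq_add_sq p (-1)
    obtain ⟨f, -, f1, -⟩ := H4.exists_Q8_hom h3 (a := H4.sm 0 (-1) 1 0 (by ring)) (b := H4.sm x y y (-x) (by linear_combination -h))
      (by simp [H4.tr_sm]) (by simp [H4.tr_sm]) (by simp [H4.sm_mul, H4.tr_sm])
    refine ⟨(Fin 2 → ZMod p) × V, inferInstance, inferInstance,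
      { toFun := fun g => AddMonoidHom.prodMap (Matrix.mulVecLin (f g).1).toAddMonoidHom (ψ g)
        map_one' := AddMonoidHom.ext fun v => by simp; rfl
        map_mul' := fun g k => AddMonoidHom.ext fun v => by simp; rfl }, by simp [h1]; ring, fun g hg v hv => ?_⟩
    refine Prod.ext ?_ (h2 g hg _ (congrArg Prod.snd hv))
    have h4 : (f g).1.mulVec v.1 = v.1 := congrArg Prod.fst hv
    have h5 : (f (.a 2)).1.mulVec v.1 = v.1 := by
      rcases (by decide : ∀ g : QuaternionGroup 2, g ≠ 1 → g = .a 2 ∨ g * g = .a 2) g hg with e | e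
      · rwa [← e]
      · rw [← e, map_mul, Matrix.SpecialLinearGroup.coe_mul, ← Matrix.mulVec_mulVec, h4, h4]
    have h6 : (f (.a 2)).1 = -1 := by
      rw [f1]
      change ((_ : SL(2, ZMod p)) ^ 2).1 = _
      rw [pow_two, H4.sm_mul]
      ext i j
      fin_cases i <;> fin_cases j <;> simp [H4.sm]
    rw [h6, Matrix.neg_mulVec, Matrix.one_mulVec] at h5
    refine (smul_eq_zero.1 (show (2 : ZMod p) • v.1 = 0 from ?_)).resolve_left h3
    rw [two_smul, ← eq_neg_iff_add_eq_zero, h5]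

end Cfsg.Agent.GS
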