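/- The Higman–Sims graph: uniqueness and automorphisms. -/
import Cfsg.Agent.GS.St6
import Cfsg.Agent.S0428
import Cfsg.Agent.S0414

set_option linter.unusedSectionVars false
namespace Cfsg.Agent.St
open Finset H6 MulAction
open scoped Pointwise

theorem steiner_of_count {α ι : Type*} [Fintype α] [DecidableEq α] {W : Finset ι} {b : ι → Finset α} {t k : ℕ}
    (hk : ∀ w ∈ W, (b w).card = k) (hi : ∀ w ∈ W, ∀ u ∈ W, w ≠ u → (b w ∩ b u).card < t)
    (hc : W.card * k.choose t = (Fintype.card α).choose t) : IsSteinerSystem t k (b '' W) := by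
  classical
  have hd : ∀ w ∈ W, ∀ u ∈ W, ∀ s : Finset α, s.card = t → s ⊆ b w → s ⊆ b u → w = u := fun w hw u hu s hs h1 h2 => by
    by_contra hne
    have := card_le_card (subset_inter h1 h2)
    have := hi w hw u hu hne
    omega
  have h1 : W.biUnion (fun w => powersetCard t (b w)) = powersetCard t univ := by
    refine eq_of_subset_of_card_le (biUnion_subset.2 fun w _ => powersetCard_mono (subset_univ _)) ?_
    rw [card_biUnion, card_powersetCard, card_univ, ← hc, sum_const_nat fun w hw => by rw [card_powersetCard, hk w hw]]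
    intro w hw u hu hne
    exact disjoint_left.2 fun s a c => hne (hd w hw u hu s (mem_powersetCard.1 a).2 (mem_powersetCard.1 a).1 (mem_powersetCard.1 c).1)
  refine ⟨by rintro _ ⟨w, hw, rfl⟩; exact hk w hw, fun s hs => ?_⟩
  obtain ⟨w, hw, h⟩ := mem_biUnion.1 (h1.ge (mem_powersetCard.2 ⟨subset_univ s, hs⟩))
  refine ⟨b w, ⟨⟨w, hw, rfl⟩, (mem_powersetCard.1 h).1⟩, ?_⟩
  rintro _ ⟨⟨u, hu, rfl⟩, h2⟩
  rw [hd u hu w hw s hs h2 (mem_powersetCard.1 h).1]

section srg
variable {V : Type*} [Fintype V] [DecidableEq V] {G : SimpleGraph V} [DecidableRel G.Adj] {n k l m : ℕ}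

theorem srg_deg (hG : G.IsSRGWith n k l m) (v : V) : (G.neighborFinset v).card = k := hG.regular v

theorem srg_cn (v w : V) : Fintype.card (G.commonNeighbors v w) = (G.neighborFinset v ∩ G.neighborFinset w).card := by
  rw [← Set.toFinset_card]; congr 1; ext x; simp [SimpleGraph.mem_commonNeighbors]

theorem srg_adj (hG : G.IsSRGWith n k l m) {v w : V} (h : G.Adj v w) : (G.neighborFinset v ∩ G.neighborFinset w).card = l :=
  (srg_cn v w).symm.trans (hG.of_adj v w h)

theorem srg_nadj (hG : G.IsSRGWith n k l m) {v w : V} (hne : v ≠ w) (h : ¬ G.Adj v w) :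
    (G.neighborFinset v ∩ G.neighborFinset w).card = m := (srg_cn v w).symm.trans (hG.of_not_adj hne h)

theorem srg_tri (hG : G.IsSRGWith n k 0 m) {u v w : V} (h1 : G.Adj u v) (h2 : G.Adj u w) : ¬ G.Adj v w := fun h => by
  have := card_eq_zero.1 (srg_adj hG h)
  exact notMem_empty u (this ▸ mem_inter.2 ⟨by simpa using h1.symm, by simpa using h2.symm⟩)

theorem sum_inter (S : Finset V) (f : V → ℕ) :
    ∑ u, (S ∩ G.neighborFinset u).card * f u = ∑ p ∈ S, ∑ u ∈ G.neighborFinset p, f u := by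
  simp only [← filter_mem_eq_inter, card_filter, sum_mul, ite_mul, one_mul, zero_mul]
  rw [sum_comm]
  refine sum_congr rfl fun p _ => ?_
  rw [← sum_filter]; congr 1; ext u; simp [G.adj_comm]

/-- moments of `u ↦ |S ∩ N u|` for a coclique `S` -/
theorem srg_moments (hG : G.IsSRGWith n k l m) {S : Finset V} (hS : ∀ p ∈ S, ∀ q ∈ S, ¬ G.Adj p q) :
    ∑ u, (S ∩ G.neighborFinset u).card = S.card * k ∧
      ∑ u, (S ∩ G.neighborFinset u).card * (S ∩ G.neighborFinset u).card = S.card * (k + (S.card - 1) * m) := by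
  constructor
  · simpa [srg_deg hG] using sum_inter (G := G) S fun _ => 1
  · rw [sum_inter]
    refine sum_const_nat fun p hp => ?_
    have := sum_inter (G := G) S fun u => if u ∈ G.neighborFinset p then 1 else 0
    simp only [mul_ite, mul_one, mul_zero, sum_ite_mem, univ_inter, sum_const, smul_eq_mul] at this
    rw [this, ← add_sum_erase _ _ hp, inter_self, srg_deg hG, sum_const_nat fun q hq =>
      srg_nadj hG (ne_of_mem_erase hq) (hS q (mem_of_mem_erase hq) p hp), card_erase_of_mem hp]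

theorem hs_two (hG : G.IsSRGWith 100 22 0 6) {v w u : V} (h1 : v ≠ w) (h2 : ¬ G.Adj v w) (h3 : u ≠ v) (h4 : ¬ G.Adj v u)
    (h5 : u ≠ w) (h6 : ¬ G.Adj w u) : (G.neighborFinset v ∩ G.neighborFinset w ∩ G.neighborFinset u).card = 2 := by
  set S := G.neighborFinset v ∩ G.neighborFinset w with hS
  have cS : S.card = 6 := srg_nadj hG h1 h2
  have mS : ∀ p, p ∈ S ↔ G.Adj v p ∧ G.Adj w p := by simp [hS]
  obtain ⟨m1, m2⟩ := srg_moments hG (S := S) fun p hp q hq => srg_tri hG ((mS p).1 hp).1 ((mS q).1 hq).1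
  rw [cS] at m1 m2
  let g : V → ℤ := fun u => (((S ∩ G.neighborFinset u).card : ℤ) - 2) ^ 2
  have t1 : ∑ u, g u = 184 := by
    have : ∀ u, g u = ((S ∩ G.neighborFinset u).card * (S ∩ G.neighborFinset u).card : ℕ) - 4 * (S ∩ G.neighborFinset u).card + 4 :=
      fun u => by simp only [g]; push_cast; ring
    simp only [this, sum_add_distrib, sum_sub_distrib, ← mul_sum, ← Nat.cast_sum, m1, m2, sum_const, card_univ, hG.card]
    norm_num
  have hv : v ∉ insert w (G.neighborFinset v ∪ G.neighborFinset w) := by simp [h1, G.adj_comm, h2]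
  have hw : w ∉ G.neighborFinset v ∪ G.neighborFinset w := by simp [h2]
  have t2 : ∑ u ∈ insert v (insert w (G.neighborFinset v ∪ G.neighborFinset w)), g u = 184 := by
    have c := card_union_add_card_inter (G.neighborFinset v) (G.neighborFinset w)
    rw [← hS, cS, srg_deg hG, srg_deg hG] at c
    rw [sum_insert hv, sum_insert hw, sum_congr rfl (g := fun _ => 4) fun x hx => ?_]
    · simp only [g]
      rw [inter_eq_left.2 inter_subset_left, inter_eq_left.2 inter_subset_right, cS, sum_const, show (G.neighborFinset v ∪ G.neighborFinset w).card = 38 by omega]; norm_num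
    · have : S ∩ G.neighborFinset x = ∅ := eq_empty_of_forall_notMem fun p hp => by
        simp only [mem_inter, mS, mem_union, SimpleGraph.mem_neighborFinset] at hp hx
        exact hx.elim (fun h => srg_tri hG h hp.1.1 hp.2) fun h => srg_tri hG h hp.1.2 hp.2
      simp [g, this]
  have t3 := sum_sdiff (f := g) (subset_univ (insert v (insert w (G.neighborFinset v ∪ G.neighborFinset w))))
  rw [t1, t2, add_eq_right, sum_eq_zero_iff_of_nonneg fun _ _ => sq_nonneg _] at t3
  have := t3 u (by simp [h3, h4, h5, h6])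
  simp only [g, pow_eq_zero_iff two_ne_zero] at this
  omega
end srg

section pbg
variable {α β : Type*} {B : Set (Finset α)} {B' : Set (Finset β)}

theorem pbg_np (a : α) : (pointBlockGraph B).Adj none (some (Sum.inl a)) := by simp [pointBlockGraph, pointBlockRel]
theorem pbg_nb (a : B) : ¬ (pointBlockGraph B).Adj none (some (Sum.inr a)) := by simp [pointBlockGraph, pointBlockRel]
theorem pbg_pp (a b : α) : ¬ (pointBlockGraph B).Adj (some (Sum.inl a)) (some (Sum.inl b)) := by simp [pointBlockGraph, pointBlockRel]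
theorem pbg_pb (a : α) (b : B) : (pointBlockGraph B).Adj (some (Sum.inl a)) (some (Sum.inr b)) ↔ a ∈ (b : Finset α) := by
  simp [pointBlockGraph, pointBlockRel]
theorem pbg_bb (a b : B) : (pointBlockGraph B).Adj (some (Sum.inr a)) (some (Sum.inr b)) ↔ a ≠ b ∧ Disjoint (a : Finset α) b := by
  simp [pointBlockGraph, pointBlockRel, disjoint_comm]

theorem pbg_mk {V : Type*} {G : SimpleGraph V} (f : Option (α ⊕ B) → V) (hf : Function.Bijective f)
    (h1 : ∀ a, G.Adj (f none) (f (some (Sum.inl a)))) (h2 : ∀ a, ¬ G.Adj (f none) (f (some (Sum.inr a))))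
    (h3 : ∀ a b, ¬ G.Adj (f (some (Sum.inl a))) (f (some (Sum.inl b))))
    (h4 : ∀ a b, G.Adj (f (some (Sum.inl a))) (f (some (Sum.inr b))) ↔ a ∈ (b : Finset α))
    (h5 : ∀ a b, a ≠ b → (G.Adj (f (some (Sum.inr a))) (f (some (Sum.inr b))) ↔ Disjoint (a : Finset α) b)) :
    ∃ e : pointBlockGraph B ≃g G, ∀ x, e x = f x := by
  refine ⟨⟨Equiv.ofBijective f hf, fun {x y} => ?_⟩, fun _ => rfl⟩
  change G.Adj (f x) (f y) ↔ _
  rcases x with _ | a | b <;> rcases y with _ | a' | b'
  · simp
  · exact iff_of_true (h1 _) (pbg_np _)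
  · exact iff_of_false (h2 _) (pbg_nb _)
  · exact iff_of_true (h1 _).symm (pbg_np _).symm
  · exact iff_of_false (h3 _ _) (pbg_pp _ _)
  · rw [h4, pbg_pb]
  · exact iff_of_false (fun h => h2 _ h.symm) fun h => pbg_nb _ h.symm
  · rw [G.adj_comm, h4, SimpleGraph.adj_comm, pbg_pb]
  · by_cases h : b = b'
    · subst h; simp
    · rw [h5 _ _ h, pbg_bb, and_iff_right h]

variable [DecidableEq α] [DecidableEq β]

def blkEq (e : α ≃ β) (h : im e B = B') : B ≃ B' where
  toFun b := ⟨b.1.image e, h ▸ image_mem_im.2 b.2⟩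
  invFun b := ⟨b.1.image e.symm, mem_im.1 (h ▸ b.2)⟩
  left_inv b := Subtype.ext (image_symm e b.1)
  right_inv b := Subtype.ext (image_symm' e b.1)

theorem pbg_iso (e : α ≃ β) (h : im e B = B') : ∃ φ : pointBlockGraph B ≃g pointBlockGraph B',
    φ none = none ∧ ∀ a, φ (some (Sum.inl a)) = some (Sum.inl (e a)) := by
  obtain ⟨φ, hφ⟩ := pbg_mk (G := pointBlockGraph B') _ (Equiv.optionCongr (e.sumCongr (blkEq e h))).bijective
    (fun a => pbg_np _) (fun a => pbg_nb _) (fun a b => pbg_pp _ _)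
    (fun a b => (pbg_pb _ _).trans e.injective.mem_finset_image) fun a b hne =>
      (pbg_bb _ _).trans ((and_iff_right ((blkEq e h).injective.ne hne)).trans (disjoint_image e.injective))
  exact ⟨φ, hφ _, fun a => hφ _⟩

theorem card_stab_pbg [Fintype α] :
    Nat.card (stabilizer (pointBlockGraph B ≃g pointBlockGraph B) (none : Option (α ⊕ B))) = Nat.card (setSystemAut B) := by
  have k : ∀ φ : stabilizer (pointBlockGraph B ≃g pointBlockGraph B) (none : Option (α ⊕ B)),
      (∀ a, ∃ a', φ • (some (Sum.inl a) : Option (α ⊕ B)) = some (Sum.inl a')) ∧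
        ∀ b : B, ∃ b' : B, φ.1 (some (Sum.inr b)) = some (Sum.inr b') := fun φ => by
    have h0 : φ.1 none = none := φ.2
    refine ⟨fun a => ?_, fun b => ?_⟩
    · have := φ.1.map_rel_iff.2 (pbg_np a)
      change ∃ a', φ.1 _ = _
      rw [h0] at this
      rcases h : φ.1 (some (Sum.inl a)) with _ | a' | b' <;> rw [h] at this
      · simp at this
      · exact ⟨_, rfl⟩
      · exact absurd this (pbg_nb _)
    · rcases h : φ.1 (some (Sum.inr b)) with _ | a' | b'
      · cases φ.1.injective (h.trans h0.symm)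
      · exact absurd (φ.1.map_rel_iff.1 (by rw [h, h0]; exact pbg_np _)) (pbg_nb b)
      · exact ⟨_, rfl⟩
  have hι : Function.Injective fun a : α => (some (Sum.inl a) : Option (α ⊕ B)) := fun a b h => by simpa using h
  have k2 : ∀ φ : stabilizer (pointBlockGraph B ≃g pointBlockGraph B) (none : Option (α ⊕ B)), ∀ σ : Equiv.Perm α,
      (∀ a, φ • (some (Sum.inl a) : Option (α ⊕ B)) = some (Sum.inl (σ a))) →
        ∀ b b' : B, φ.1 (some (Sum.inr b)) = some (Sum.inr b') → b.1.image σ = b' := fun φ σ hσ b b' h => by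
    ext a
    obtain ⟨a, rfl⟩ := σ.surjective a
    rw [σ.injective.mem_finset_image, ← pbg_pb, ← pbg_pb, ← h, ← φ.1.map_rel_iff]
    exact iff_of_eq (congrArg₂ _ (hσ a) rfl)
  obtain ⟨φ, -⟩ := equiv_of_induce' (H := setSystemAut B) hι (fun φ => by
    obtain ⟨σ, hσ⟩ := exists_perm_of hι (k φ).1
    refine ⟨σ, mem_aut.2 (im_eq_of_le fun b hb => ?_), hσ⟩
    obtain ⟨b', h⟩ := (k φ).2 ⟨b, hb⟩
    exact k2 φ σ hσ _ _ h ▸ b'.2) (fun φ h => Subtype.ext (RelIso.ext fun x => by
      rcases x with _ | a | b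
      · exact φ.2
      · exact h a
      · obtain ⟨b', e⟩ := (k φ).2 b
        have := k2 φ 1 h _ _ e
        rw [e, Subtype.ext (show b'.1 = b.1 by simpa using this.symm)]; rfl)) fun σ hσ => by
    obtain ⟨φ, h1, h2⟩ := pbg_iso σ (mem_aut.1 hσ)
    exact ⟨⟨φ, h1⟩, h2⟩
  exact Nat.card_congr φ.toEquiv
end pbg

theorem hs_model {V : Type*} [Fintype V] {G : SimpleGraph V} [DecidableRel G.Adj] (hG : G.IsSRGWith 100 22 0 6) (v : V) :
    ∃ e : pointBlockGraph B22 ≃g G, e none = v := by
  classical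
  let b : V → Finset (G.neighborFinset v) := fun w => (G.neighborFinset w).subtype _
  let W : Finset V := (insert v (G.neighborFinset v))ᶜ
  have mW : ∀ w, w ∈ W ↔ w ≠ v ∧ ¬ G.Adj v w := by simp [W]
  have mb : ∀ w a, a ∈ b w ↔ G.Adj w a := by simp [b]
  have cb : ∀ w u, (b w ∩ b u).card = (G.neighborFinset v ∩ G.neighborFinset w ∩ G.neighborFinset u).card := fun w u => by
    rw [← card_map (Function.Embedding.subtype _)]; congr 1; ext x; simp [b]; tauto
  have c6 : ∀ w ∈ W, (b w).card = 6 := fun w hw => by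
    rw [← inter_self (b w), cb, inter_assoc, inter_self, srg_nadj hG ((mW w).1 hw).1.symm ((mW w).1 hw).2]
  have c0 : ∀ w u, G.Adj w u → (b w ∩ b u).card = 0 := fun w u h => card_eq_zero.2 (eq_empty_of_forall_notMem fun p hp =>
    srg_tri hG h ((mb _ _).1 (mem_inter.1 hp).1) ((mb _ _).1 (mem_inter.1 hp).2))
  have c2 : ∀ w ∈ W, ∀ u ∈ W, w ≠ u → ¬ G.Adj w u → (b w ∩ b u).card = 2 := fun w hw u hu hne h => by
    rw [cb, hs_two hG ((mW w).1 hw).1.symm ((mW w).1 hw).2 ((mW u).1 hu).1 ((mW u).1 hu).2 hne.symm h]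
  have c3 : ∀ w ∈ W, ∀ u ∈ W, w ≠ u → (b w ∩ b u).card < 3 := fun w hw u hu hne => by
    by_cases h : G.Adj w u
    · rw [c0 w u h]; omega
    · rw [c2 w hw u hu hne h]; omega
  have cα : Fintype.card (G.neighborFinset v) = 22 := by rw [Fintype.card_coe, srg_deg hG]
  have hS := steiner_of_count c6 c3 (by
    rw [cα, card_compl, card_insert_of_notMem (by simp), srg_deg hG, hG.card]; decide +kernel)
  have bi : ∀ w ∈ W, ∀ u ∈ W, b w = b u → w = u := fun w hw u hu e => by
    by_contra hne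
    have := c3 w hw u hu hne
    rw [← e, inter_self, c6 w hw] at this; omega
  have ex : ∀ c : b '' W, ∃ w ∈ W, b w = c := fun c => c.2
  choose r hr er using ex
  let f : Option (G.neighborFinset v ⊕ b '' W) → V := fun x => x.elim v (Sum.elim Subtype.val r)
  have ha : ∀ a : G.neighborFinset v, G.Adj v a := fun a => (G.mem_neighborFinset _ _).1 a.2
  have ri : Function.Injective r := fun c d h => Subtype.ext (by rw [← er, ← er, h])
  suffices hf : Function.Bijective f by
    obtain ⟨e, he⟩ := pbg_mk (G := G) f hf ha (fun c => ((mW _).1 (hr c)).2)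
      (fun a a' => srg_tri hG (ha a) (ha a')) (fun a c => by rw [← er, mb, G.adj_comm]; rfl) fun c d hne => by
        rw [← er, ← er, disjoint_iff_inter_eq_empty, ← card_eq_zero]
        exact ⟨c0 _ _, fun h => by_contra fun h' => by rw [c2 _ (hr c) _ (hr d) (ri.ne hne) h'] at h; cases h⟩
    obtain ⟨e0, h0⟩ := model22 cα hS
    obtain ⟨φ, h1, -⟩ := pbg_iso e0 h0
    exact ⟨φ.symm.trans e, by rw [← h1]; exact (congrArg e (φ.symm_apply_apply _)).trans (he none)⟩
  refine ⟨fun x y h => ?_, fun x => ?_⟩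
  · rcases x with _ | a | c <;> rcases y with _ | a' | c'
    · rfl
    · exact absurd h (ha a').ne
    · exact absurd h.symm ((mW _).1 (hr c')).1
    · exact absurd h.symm (ha a).ne
    · rw [Subtype.ext h]
    · exact absurd ((show a.1 = r c' from h) ▸ ha a) ((mW _).1 (hr c')).2
    · exact absurd h ((mW _).1 (hr c)).1
    · exact absurd ((show r c = a'.1 from h) ▸ ha a') ((mW _).1 (hr c)).2
    · rw [ri h]
  · by_cases h : x = v
    · exact ⟨none, h.symm⟩
    by_cases h' : G.Adj v x
    · exact ⟨some (Sum.inl ⟨x, by simpa using h'⟩), rfl⟩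
    · have hx := (mW x).2 ⟨h, h'⟩
      exact ⟨some (Sum.inr ⟨b x, x, hx, rfl⟩), bi _ (hr _) _ hx (er _)⟩

def autCongr {V W : Type*} {G : SimpleGraph V} {H : SimpleGraph W} (e : G ≃g H) : (G ≃g G) ≃* (H ≃g H) where
  toFun φ := (e.symm.trans φ).trans e
  invFun φ := (e.trans φ).trans e.symm
  left_inv φ := RelIso.ext fun x => by simp
  right_inv φ := RelIso.ext fun x => by simp
  map_mul' φ ψ := RelIso.ext fun x => by simp

theorem card_aut_hs {V : Type*} [Fintype V] {G : SimpleGraph V} [DecidableRel G.Adj] (hG : G.IsSRGWith 100 22 0 6) :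
    Nat.card (G ≃g G) = 88704000 := by
  classical
  haveI : Nonempty V := Fintype.card_pos_iff.1 (by rw [hG.card]; norm_num)
  obtain ⟨e, -⟩ := hs_model hG (Classical.arbitrary V)
  have hR : ({pt 0, pt 23} : Finset GolayPt).card = 2 := by decide
  obtain ⟨e0, h0⟩ := model22 (by rw [card_sub, card_compl, card_golayPt, hR]) (steiner_c (t := 3) (R := {pt 0, pt 23}) (by omega))
  have hB : IsSteinerSystem 3 6 B22 := h0 ▸ steiner_im (steiner_c (t := 3) (R := {pt 0, pt 23}) (by omega)) e0
  rw [← Nat.card_congr (autCongr e).toEquiv, ← (stabilizer _ (none : Option (Fin 22 ⊕ B22))).index_mul_card, card_stab_pbg,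
    (S0414.result (by simp) hB).1, index_stabilizer, Set.eq_univ_of_forall (s := orbit _ _) fun x => ?_, Set.ncard_univ,
    Nat.card_congr e.toEquiv, Nat.card_eq_fintype_card, hG.card]
  obtain ⟨e', h⟩ := hs_model hG (e x)
  exact ⟨e'.trans e.symm, by change e.symm (e' none) = x; rw [h]; simp⟩

end Cfsg.Agent.St
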