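/- Rank 3 groups of degree 100. -/
import Cfsg.Agent.GS.HSg
import Cfsg.Agent.GS.St7
import Cfsg.Agent.H6.Mat

set_option linter.unusedSectionVars false
namespace Cfsg.Agent.St
open Finset H6 MulAction
open scoped Pointwise

theorem trace_idem {V : Type*} [Fintype V] [DecidableEq V] {E : Matrix V V ℚ} (h : E * E = E) : ∃ n : ℕ, E.trace = n := by
  have : IsIdempotentElem (Matrix.toLin' E) := by
    rw [IsIdempotentElem, Module.End.mul_eq_comp, ← Matrix.toLin'_mul, h]
  exact ⟨_, (Matrix.trace_toLin'_eq E).symm.trans (LinearMap.IsIdempotentElem.isProj_range _ this).trace⟩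

section srg
variable {V : Type*} [Fintype V] [DecidableEq V] {G : SimpleGraph V} [DecidableRel G.Adj] {n k l m : ℕ}

theorem srg_trace (hG : G.IsSRGWith n k l m) {a b c : ℚ} (h1 : a * a * (k - m) + b * b = b) (h2 : a * a * (l - m) + 2 * a * b = a)
    (h3 : a * a * m + 2 * a * c * k + 2 * b * c + c * c * n = c) : ∃ t : ℕ, (b + c) * n = t := by
  set A := G.adjMatrix ℚ
  let J : Matrix V V ℚ := Matrix.of fun _ _ => 1
  have e0 : Gᶜ.adjMatrix ℚ = J - 1 - A := by
    ext i j
    by_cases h : i = j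
    · subst h; simp [J, A]
    · by_cases h' : G.Adj i j <;> simp [J, A, h, h', Matrix.one_apply_ne h]
  have e1 : A * A = (k : ℚ) • (1 : Matrix V V ℚ) + (l : ℚ) • A + (m : ℚ) • (J - 1 - A) := by
    rw [← sq, hG.matrix_eq, e0]; simp only [Nat.cast_smul_eq_nsmul]; rfl
  have e2 : A * J = (k : ℚ) • J := by ext i j; simp [A, J, hG.regular.degree_eq]
  have e3 : J * A = (k : ℚ) • J := by ext i j; simp [A, J, hG.regular.degree_eq]
  have e4 : J * J = (n : ℚ) • J := by ext i j; simp [J, Matrix.mul_apply, hG.card]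
  obtain ⟨t, ht⟩ := trace_idem (E := a • A + b • 1 + c • J) (by
    simp only [mul_add, add_mul, smul_mul_assoc, mul_smul_comm, e1, e2, e3, e4, mul_one, one_mul]
    linear_combination (norm := module) h1 • (1 : Matrix V V ℚ) + h2 • A + h3 • J)
  refine ⟨t, ?_⟩
  rw [← ht, Matrix.trace_add, Matrix.trace_add, Matrix.trace_smul, Matrix.trace_smul, Matrix.trace_smul,
    SimpleGraph.trace_adjMatrix, Matrix.trace_one, hG.card]
  simp [J, Matrix.trace, hG.card]; ring

theorem srg_100_22 (hG : G.IsSRGWith 100 22 l m) {a b : V} (h : G.Adj a b) : G.IsSRGWith 100 22 0 6 := by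
  have h1 := hG.param_eq G (by norm_num)
  have h2 := h.card_commonNeighbors_lt_degree
  rw [hG.of_adj a b h, hG.regular.degree_eq] at h2
  obtain ⟨rfl, rfl⟩ | ⟨rfl, rfl⟩ | ⟨rfl, rfl⟩ | ⟨rfl, rfl⟩ :
    (l = 0 ∧ m = 6) ∨ (l = 7 ∧ m = 4) ∨ (l = 14 ∧ m = 2) ∨ (l = 21 ∧ m = 0) := by omega
  · exact hG
  · obtain ⟨t, ht⟩ := srg_trace hG (a := 1 / 9) (b := 1 / 3) (c := -1 / 36) (by norm_num) (by norm_num) (by norm_num)
    have : (275 : ℚ) = 9 * t := by rw [← ht]; norm_num
    have : 275 = 9 * t := by exact_mod_cast this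
    omega
  · exfalso
    obtain ⟨c, hc, h3⟩ := exists_mem_notMem_of_card_lt_card (s := insert b (G.neighborFinset a ∩ G.neighborFinset b))
      (t := G.neighborFinset a) ((card_insert_le _ _).trans_lt (by rw [srg_adj hG h, srg_deg hG]; norm_num))
    rw [SimpleGraph.mem_neighborFinset] at hc
    simp only [mem_insert, mem_inter, hc, true_and, not_or, SimpleGraph.mem_neighborFinset] at h3
    have c1 := card_union_add_card_inter (G.neighborFinset a ∩ G.neighborFinset b) (G.neighborFinset a ∩ G.neighborFinset c)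
    have c2 := card_le_card (union_subset inter_subset_left inter_subset_left :
      G.neighborFinset a ∩ G.neighborFinset b ∪ G.neighborFinset a ∩ G.neighborFinset c ⊆ _)
    have c3 := card_le_card (inter_subset_inter inter_subset_right inter_subset_right :
      G.neighborFinset a ∩ G.neighborFinset b ∩ (G.neighborFinset a ∩ G.neighborFinset c) ⊆ _)
    rw [srg_adj hG h, srg_adj hG hc] at c1
    rw [srg_deg hG] at c2
    rw [srg_nadj hG (Ne.symm h3.1) h3.2] at c3
    omega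
  · obtain ⟨t, ht⟩ := srg_trace hG (a := 1 / 23) (b := 1 / 23) (c := 0) (by norm_num) (by norm_num) (by norm_num)
    have : (100 : ℚ) = 23 * t := by rw [← ht]; norm_num
    have : 100 = 23 * t := by exact_mod_cast this
    omega
end srg

theorem rank3_graph {G Ω : Type*} [Group G] [Finite G] [MulAction G Ω] [Fintype Ω] [IsPretransitive G Ω] {a b c : Ω} {n k k' : ℕ}
    (hΩ : Fintype.card Ω = n) (hb : (orbit (stabilizer G a) b).ncard = k) (hc : (orbit (stabilizer G a) c).ncard = k')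
    (h1 : k ≠ 1) (h2 : k' ≠ 1) (h3 : k ≠ k') (h4 : 1 + k + k' = n) :
    ∃ Γ : SimpleGraph Ω, (∀ (g : G) x y, Γ.Adj (g • x) (g • y) ↔ Γ.Adj x y) ∧ Γ.Adj a b ∧
      ∀ [DecidableRel Γ.Adj], ∃ l m, Γ.IsSRGWith n k l m := by
  classical
  have oa : orbit (stabilizer G a) a = {a} := Set.eq_singleton_iff_unique_mem.2 ⟨mem_orbit_self _, by rintro _ ⟨g, rfl⟩; exact g.2⟩
  have dj : ∀ x y : Ω, (orbit (stabilizer G a) x).ncard ≠ (orbit (stabilizer G a) y).ncard →
      Disjoint (orbit (stabilizer G a) x) (orbit (stabilizer G a) y) := fun x y h =>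
    (orbit.eq_or_disjoint x y).resolve_left fun e => h (by rw [e])
  have ca : (orbit (stabilizer G a) a).ncard = 1 := by rw [oa, Set.ncard_singleton]
  have tri : ∀ x, x = a ∨ x ∈ orbit (stabilizer G a) b ∨ x ∈ orbit (stabilizer G a) c := fun x => by
    have : orbit (stabilizer G a) a ∪ (orbit (stabilizer G a) b ∪ orbit (stabilizer G a) c) = Set.univ := by
      refine Set.eq_of_subset_of_ncard_le (Set.subset_univ _) ?_
      rw [Set.ncard_union_eq (Set.disjoint_union_right.2 ⟨dj _ _ (by omega), dj _ _ (by omega)⟩),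
        Set.ncard_union_eq (dj _ _ (by omega)), Set.ncard_univ, Nat.card_eq_fintype_card]
      omega
    simpa [oa] using this.ge (Set.mem_univ x)
  have key : ∀ x : Ω, (orbit (stabilizer G a) x).ncard * Nat.card ↥(stabilizer G a ⊓ stabilizer G x) = Nat.card (stabilizer G a) :=
    fun x => by rw [← index_stabilizer, ← Nat.card_congr (stabSubEquiv _ x).toEquiv, Subgroup.index_mul_card]
  have ba : b ≠ a := by rintro rfl; omega
  obtain ⟨s, s1, s2⟩ : ∃ s : G, s • a = b ∧ s • b = a := by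
    obtain ⟨g, hg⟩ := exists_smul_eq G a b
    have e : Nat.card ↥(stabilizer G a ⊓ stabilizer G b) = Nat.card ↥(stabilizer G a ⊓ stabilizer G (g⁻¹ • a)) :=
      card_conj (g := g) fun x => by
        simp only [Subgroup.mem_inf, mem_stabilizer_iff, mul_smul, smul_inv_smul, smul_left_cancel_iff, inv_smul_eq_iff, hg]
        exact and_comm
    have e2 : (orbit (stabilizer G a) (g⁻¹ • a)).ncard = k := by
      have := key (g⁻¹ • a)
      rw [← key b, e, hb] at this
      exact Nat.eq_of_mul_eq_mul_right Nat.card_pos this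
    rcases tri (g⁻¹ • a) with h | ⟨t, h⟩ | h
    · rw [h] at e2; omega
    · exact ⟨g * t, by rw [mul_smul, show (t : G) • a = a from t.2, hg], by
        rw [mul_smul, show (t : G) • b = g⁻¹ • a from h, smul_inv_smul]⟩
    · rw [orbit_eq_iff.2 h] at e2; omega
  let Γ : SimpleGraph Ω := ⟨fun x y => ∃ g : G, g • a = x ∧ g • b = y,
    ⟨by rintro _ _ ⟨g, rfl, rfl⟩; exact ⟨g * s, by rw [mul_smul, s1], by rw [mul_smul, s2]⟩⟩,
    ⟨by rintro _ ⟨g, rfl, e⟩; exact ba (smul_left_cancel g e)⟩⟩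
  have inv : ∀ (g : G) x y, Γ.Adj (g • x) (g • y) ↔ Γ.Adj x y := fun g x y =>
    ⟨fun ⟨t, e1, e2⟩ => ⟨g⁻¹ * t, by rw [mul_smul, e1, inv_smul_smul], by rw [mul_smul, e2, inv_smul_smul]⟩,
      fun ⟨t, e1, e2⟩ => ⟨g * t, by rw [mul_smul, e1], by rw [mul_smul, e2]⟩⟩
  have na : ∀ y, Γ.Adj a y ↔ y ∈ orbit (stabilizer G a) b := fun y =>
    ⟨fun ⟨t, e1, e2⟩ => ⟨⟨t, e1⟩, e2⟩, fun ⟨t, e⟩ => ⟨t, t.2, e⟩⟩
  refine ⟨Γ, inv, ⟨1, one_smul _ _, one_smul _ _⟩, ?_⟩
  intro _
  have cn : ∀ (g : G) x y, (Γ.neighborFinset (g • x) ∩ Γ.neighborFinset (g • y)).card = (Γ.neighborFinset x ∩ Γ.neighborFinset y).card :=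
    fun g x y => (card_bijective _ (MulAction.bijective g) fun z => by simp [inv]).symm
  refine ⟨(Γ.neighborFinset a ∩ Γ.neighborFinset b).card, (Γ.neighborFinset a ∩ Γ.neighborFinset c).card, hΩ, fun x => ?_,
    ?_, fun x y hne h => ?_⟩
  · obtain ⟨g, rfl⟩ := exists_smul_eq G a x
    have := cn g a a
    rw [inter_self, inter_self] at this
    rw [← SimpleGraph.card_neighborFinset_eq_degree, this, ← hb, ← Set.ncard_coe_finset]
    congr 1; ext y; simp [na]
  · rintro _ _ ⟨g, rfl, rfl⟩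
    rw [srg_cn, cn]
  · obtain ⟨g, rfl⟩ := exists_smul_eq G a x
    obtain ⟨y, rfl⟩ := MulAction.surjective g y
    rw [srg_cn, cn]
    rcases tri y with e | e | ⟨t, e⟩
    · exact absurd (by rw [e]) hne
    · exact absurd ((inv _ _ _).2 ((na _).2 e)) h
    · rw [← cn t a c, show (t : G) • a = a from t.2, show (t : G) • c = y from e]

def toAut {G Ω : Type*} [Group G] [MulAction G Ω] {Γ : SimpleGraph Ω} (h : ∀ (g : G) x y, Γ.Adj (g • x) (g • y) ↔ Γ.Adj x y) :
    G →* (Γ ≃g Γ) := MonoidHom.mk' (fun g => ⟨MulAction.toPerm g, h g _ _⟩) fun g g' => RelIso.ext fun x => mul_smul g g' x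

noncomputable def srgChk (n kk k l m : ℕ) (R : ℕ → ℕ) : Bool :=
  nall (fun i => band (popIs n kk (R i) k) (band (beqb (tb (R i) i) false) (nall (fun j => band (beqb (tb (R i) j) (tb (R j) i))
    (bor (Nat.beq i j) (popIs n kk (Nat.land (R i) (R j)) (cnd (tb (R i) j) l m)))) n))) n

theorem exists_srg {n kk k l m : ℕ} {R : ℕ → ℕ} (h : srgChk n kk k l m R = true) :
    ∃ Γ : SimpleGraph (Fin n), (∀ i j, Γ.Adj i j ↔ (R i).testBit j = true) ∧ ∀ [DecidableRel Γ.Adj], Γ.IsSRGWith n k l m := by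
  simp only [srgChk, nall_eq, band_eq, beqb_eq, bor_eq, beq_eq, tb_eq] at h
  let Γ : SimpleGraph (Fin n) := ⟨fun i j => (R i).testBit j = true,
    ⟨fun i j e => ((h i i.2).2.2 j j.2).1.symm.trans e⟩, ⟨fun i e => by rw [(h i i.2).2.1] at e; cases e⟩⟩
  refine ⟨Γ, fun _ _ => Iff.rfl, ?_⟩
  intro _
  have nb : ∀ i, Γ.neighborFinset i = fN n (R i) := fun i => by ext j; rw [mem_fN, SimpleGraph.mem_neighborFinset]
  have cn : ∀ i j : Fin n, i ≠ j → Fintype.card (Γ.commonNeighbors i j) = cnd ((R i).testBit j) l m := fun i j hne => by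
    rw [srg_cn, nb, nb, ← fN_and, card_fN]
    exact card_of_popIs (((h i i.2).2.2 j j.2).2.resolve_left fun e => hne (Fin.ext e))
  refine ⟨Fintype.card_fin n, fun i => ?_, fun i j e => ?_, fun i j hne e => ?_⟩
  · rw [← SimpleGraph.card_neighborFinset_eq_degree, nb, card_fN, card_of_popIs (h i i.2).1]
  · rw [cn i j e.ne, show (R i).testBit j = true from e]; rfl
  · rw [cn i j hne, Bool.eq_false_iff.2 e]; rfl

theorem aut_of_model {G Ω : Type*} [Group G] [MulAction G Ω] {N : ℕ} [NeZero N] {X : ℕ → Ω} {gens : ℕ → G} {nl : List Net}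
    (h : IsModel N X gens (lk Net.nil nl) vT) {ws : List (List ℕ)} (ht : cl gens ws = ⊤) {Γ : SimpleGraph (Fin N)} {R : ℕ → ℕ}
    (hR : ∀ i j, Γ.Adj i j ↔ (R i).testBit j = true)
    (hc : lall (fun n => nall (fun i => Nat.beq (n.app (R (n.fnc i))) (R i)) N) (Net.nil :: nl) = true) :
    ∃ φ : G →* (Γ ≃g Γ), ∀ g (i : Fin N), g • X i = X (φ g i) := by
  let K : Subgroup G :=
    { carrier := {g | ∃ σ : Γ ≃g Γ, ∀ i : Fin N, g • X i = X (σ i)}
      mul_mem' := fun ⟨σ, a⟩ ⟨τ, b⟩ => ⟨σ * τ, fun i => by rw [mul_smul, b, a]; rfl⟩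
      one_mem' := ⟨1, fun i => one_smul _ _⟩
      inv_mem' := fun ⟨σ, a⟩ => ⟨σ.symm, fun i => by rw [inv_smul_eq_iff, a, σ.apply_symm_apply]⟩ }
  have hK : ∀ g, g ∈ K := fun g => (ht.ge.trans (cl_le.2 fun w _ => wp_mem fun l _ => by
    have := (lall_eq _ _).1 hc (lk Net.nil nl l) (List.mem_cons.2 (lk_mem _ _ l))
    simp only [nall_eq, beq_eq, Net.fnc_eq] at this
    refine ⟨⟨finG h.ok l, fun {i j} => ?_⟩, fun i => h.cmp l rfl i i.2⟩
    rw [hR, hR, ← this i i.2, Net.testBit_app (h.ok l rfl).1]; rfl)) (Subgroup.mem_top g)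
  choose f hf using hK
  refine ⟨MonoidHom.mk' f fun g g' => RelIso.ext fun i => Fin.ext (h.inj _ (Fin.is_lt _) _ (Fin.is_lt _) ?_), hf⟩
  rw [← hf, mul_smul, hf, hf]; rfl

theorem equiv_of_index_two {A G H : Type*} [Group A] [Group G] [Group H] [Finite A] [IsSimpleGroup H] {φ : G →* A} {ψ : H →* A}
    (h1 : Function.Injective φ) (h2 : Function.Injective ψ) {n : ℕ} (hn : 2 < n) (c1 : Nat.card G = n) (c2 : Nat.card H = n)
    (c3 : Nat.card A = 2 * n) : Nonempty (G ≃* H) := by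
  have d1 := (Nat.card_congr (MonoidHom.ofInjective h1).toEquiv).symm.trans c1
  have d2 := (Nat.card_congr (MonoidHom.ofInjective h2).toEquiv).symm.trans c2
  have i1 : φ.range.index = 2 := by
    have := φ.range.index_mul_card
    rw [d1, c3] at this
    exact Nat.eq_of_mul_eq_mul_right (by omega) this
  haveI hN := Subgroup.normal_of_index_eq_two i1
  haveI := (MonoidHom.ofInjective h2).symm.isSimpleGroup
  have e : ψ.range = φ.range := by
    rcases (Subgroup.Normal.subgroupOf hN ψ.range).eq_bot_or_eq_top with h | h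
    · have := Subgroup.relIndex_dvd_index_of_normal φ.range ψ.range
      rw [Subgroup.relIndex, h, Subgroup.index_bot, d2, i1] at this
      exact absurd (Nat.le_of_dvd two_pos this) (by omega)
    · exact Subgroup.eq_of_le_of_card_ge (Subgroup.subgroupOf_eq_top.1 h) (by rw [d1, d2])
  exact ⟨((MonoidHom.ofInjective h1).trans (MulEquiv.subgroupCongr e.symm)).trans (MonoidHom.ofInjective h2).symm⟩

end Cfsg.Agent.St
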