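/- The Higman–Sims group acts on the Higman–Sims graph. -/
import Cfsg.Agent.GS.HS2
import Cfsg.Agent.GS.Mk1
import Cfsg.Agent.H6.LeL1

set_option maxRecDepth 100000
namespace Cfsg.Agent.St
open Finset H6 H6.Le H6.Le.Hs MulAction

def rHS : List ℕ := [0xfffffc0000000000000000000,0x8ea00158084a9010410421000,0x1d40065110255012082040800,0x52c010d440926002210812000,0xc1201472a0190800181490000,0x11a028b904149001044182000,0x82402f1024903800c2a200000,0x4b004a908148c808248048000,0x4805d34110c6004025005000,0xd40062304a03a005100208800,0x860719202270808800924000,0x2220998ca0180288814000204,0x6140a2836011044b008000102,0xa800c70298090134808000028,0xb3010248c41080b0302000500,0x20e1054704140150401800280,0x2c012b090304860c402000018,0x50018e25809043040c0200402,0x8081b12a40920424020500084,0x641c304406240d8020200030,0x6602064429082242500040420,0x298210ca110c04222000a0240,0x30424a8416042181a00040012,0x85028a28304814810a0008408,0x1a02a28808a21222840008110,0x40a2c0a6084a0141040014044,0xc843024202c20d00680000920,0x1423106c022602801800030c0,0x10366220524086016000080a,0x782400c18a0183000108c0140,0xa4441140720124800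130200a0,0x228461804d00a06000c820014,0x8c4898110c05500018104210,0x424a52128211240004604088,0x1104d0a0d02140a0004118042,0x458500614140c440001402c40,0xa05154081a04a20002c01220,0x802549208640898000130100c,0x36600c0246018c0000072300,0x908604601c803120000091c80,0x400638a023802e0000008e006,0x4468081522400009491246000,0x9808181892800004a92189000,0x4888241309800006448c84800,0x70830186120000a12642a000,0x81c8401254400011229130800,0x122844148c200010944a51000,0x3488800d580000170140004d0,0x60095006c300000c301800066,0x929800b806000180c0500348,0xa02a200a2e000001d000a018c,0x4a940630a000028a00142a2,0x28b080c05c00000660003614,0x210c0c01b500000000f0c060a,0xc20c8000e8c00000018618524,0x104d200146a00000002b02992,0xc0e40001b60000000006d878,0xe09008000018a505619080404,0x3010340000152226906880082,0x25304000000d80d9105060048,0x9070800000131191890310180,0x39084000018507206c410600,0x4c109000000b460e09040c060,0x151180000144c882a3102202,0x4231200000128a48540e02104,0x189140000006c134240901850,0x8320c00000c1b00cc00c5208,0x4d2200000063443420026890,0x82125000000a28a0b20039024,0x161408000000f28001624b410,0x8914200000019c2000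a5a8908,0x4054440000016940009a54822,0x20178000000007e00000007fe,0x2a5800000000001ae1a860330,0x18e8000000000d86c30c01e,0x84190400000000145a3601ca8,0x511a0000000000033c00dad42,0xbc100000000000015db72c4,0x884242848921012a155,0x4248230072100c309e1,0x2010c409151448240d19,0x4490484190291051661,0x4920901602492482781,0x500704a8007038e3801,0x903809300381c0fc001,0x111c011c01c01ff00001,0x21e001e001ffe0000001,0x3e0001fffe0000000001,0x3ffffe00000000000001,0x2005180642622a008c33,0x288908822414448944d,0x200a2210a8898224812b,0x1040a822304c10a050b5,0x23120505050811848cb,0x8284900920a48990307,0x24641020c1125212487,0x10221480c4842942422d,0x3000e258000e071f801,0x108142410b0826121299,0x850124424a044846253]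

theorem hs_embed {V : Type*} [Fintype V] {G : SimpleGraph V} [DecidableRel G.Adj] (hG : G.IsSRGWith 100 22 0 6) :
    ∃ φ : FixV [rU1,rV] →* (G ≃g G), Function.Injective φ := by
  classical
  obtain ⟨Γ, h1, h2⟩ := exists_srg (n := 100) (kk := 4) (k := 22) (l := 0) (m := 6) (R := lk 0 rHS) (by decide +kernel)
  obtain ⟨φ, hφ⟩ := aut_of_model mvm topH h1 (by decide +kernel)
  have hV : Nonempty V := Fintype.card_pos_iff.1 (by rw [hG.card]; norm_num)
  obtain ⟨e, -⟩ := hs_model hG hV.some
  obtain ⟨e', -⟩ := hs_model h2 0
  haveI := simpleH
  refine ⟨(autCongr (e'.symm.trans e)).toMonoidHom.comp φ, (autCongr (e'.symm.trans e)).injective.comp ((MonoidHom.ker_eq_bot_iff φ).1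
    (φ.normal_ker.eq_bot_or_eq_top.resolve_right fun h => smul_ne mvm (w := [0]) (p := 0) (by norm_num) (by decide +kernel) ?_))⟩
  have := hφ (wp gH [0]) 0
  rwa [show φ (wp gH [0]) = 1 from h.ge (Subgroup.mem_top _)] at this

end Cfsg.Agent.St
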