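/-
A small Knuth-Bendix certificate checker: bounds for the order of finitely presented groups.
-/
import Mathlib

namespace Cfsg.Agent.GS.KB

abbrev W := List ℕ
abbrev Rules := List (W × W)

def strip : W → W → Option W
  | [], w => some w
  | _ :: _, [] => none
  | a :: l, b :: w => if a = b then strip l w else none

def rw1 : Rules → W → Option W
  | [], _ => none
  | p :: R, w => match strip p.1 w with
    | some t => some (p.2 ++ t)
    | none => rw1 R w

def rwAny (R : Rules) : W → Option W
  | [] => none
  | a :: t => match rw1 R (a :: t) with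
    | some w => some w
    | none => (rwAny R t).map (a :: ·)

def nf (R : Rules) : ℕ → W → W
  | 0, w => w
  | n + 1, w => match rwAny R w with
    | some w' => nf R n w'
    | none => w

/-- One completion step: the critical pair of rules `i`, `j` with overlap `k`, oriented by `b`. -/
def step (R : Rules) (s : ℕ × ℕ × ℕ × Bool) : Rules :=
  match R[s.1]?, R[s.2.1]? with
  | some p, some q =>
    if p.1.take (p.1.length - s.2.2.1) ++ q.1 = p.1 ++ q.1.drop s.2.2.1 then
      let u := nf R 100 (p.2 ++ q.1.drop s.2.2.1)
      let v := nf R 100 (p.1.take (p.1.length - s.2.2.1) ++ q.2)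
      R ++ [if s.2.2.2 then (u, v) else (v, u)]
    else R
  | _, _ => R

/-- The final check: the list `T` of words is closed under right multiplication by the letters in `L`. -/
def chk (R : Rules) (S : List (ℕ × ℕ × ℕ × Bool)) (T : List W) (L : List ℕ) : Bool :=
  let R' := S.foldl step R
  T.all fun t => L.all fun a => T.contains (nf R' 100 (t ++ [a]))

variable {G : Type*} [Monoid G] (g : ℕ → G)

def ev (w : W) : G := (w.map g).prod

def Sat (R : Rules) : Prop := ∀ p ∈ R, ev g p.1 = ev g p.2

variable {g}

theorem ev_append (u v : W) : ev g (u ++ v) = ev g u * ev g v := by simp [ev]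

theorem ev_cons (a : ℕ) (v : W) : ev g (a :: v) = g a * ev g v := by simp [ev]

theorem strip_eq : ∀ {l w t : W}, strip l w = some t → w = l ++ t
  | [], w, t, h => by simpa [strip] using h
  | _ :: _, [], t, h => by simp [strip] at h
  | a :: l, b :: w, t, h => by
    rw [strip] at h
    split_ifs at h with e
    rw [e, strip_eq h]; rfl

theorem rw1_ev : ∀ {R : Rules}, Sat g R → ∀ {w w' : W}, rw1 R w = some w' → ev g w' = ev g w
  | [], _, w, w', h => by simp [rw1] at h
  | p :: R, hR, w, w', h => by
    rw [rw1] at h
    split at h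
    · next t e =>
      obtain rfl := Option.some.inj h
      rw [strip_eq e, ev_append, ev_append, hR p (List.mem_cons_self ..)]
    · exact rw1_ev (fun q hq => hR q (List.mem_cons_of_mem _ hq)) h

theorem rwAny_ev {R : Rules} (hR : Sat g R) : ∀ {w w' : W}, rwAny R w = some w' → ev g w' = ev g w
  | [], w', h => by simp [rwAny] at h
  | a :: t, w', h => by
    rw [rwAny] at h
    split at h
    · next u e => obtain rfl := Option.some.inj h; exact rw1_ev hR e
    · obtain ⟨u, e, rfl⟩ := Option.map_eq_some_iff.1 h
      rw [ev_cons, ev_cons, rwAny_ev hR e]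

theorem nf_ev {R : Rules} (hR : Sat g R) : ∀ (n : ℕ) (w : W), ev g (nf R n w) = ev g w
  | 0, _ => rfl
  | n + 1, w => by
    rw [nf]
    split
    · next u e => rw [nf_ev hR n u, rwAny_ev hR e]
    · rfl

theorem Sat.step {R : Rules} (hR : Sat g R) (s : ℕ × ℕ × ℕ × Bool) : Sat g (step R s) := by
  unfold KB.step
  split
  · next p q hp hq =>
    split_ifs with e b
    rotate_left 2
    · exact hR
    all_goals
      intro r hr
      rcases List.mem_append.1 hr with h | h
      · exact hR r h
      have e' := congrArg (ev g) e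
      rw [ev_append, ev_append, hR p (List.mem_of_getElem? hp), hR q (List.mem_of_getElem? hq)] at e'
      obtain rfl := List.mem_singleton.1 h
      simp only [nf_ev hR, ev_append, e']
  · exact hR

theorem Sat.foldl : ∀ (S : List (ℕ × ℕ × ℕ × Bool)) {R : Rules}, Sat g R → Sat g (S.foldl KB.step R)
  | [], _, h => h
  | s :: S, _, h => Sat.foldl S (h.step s)

theorem card_le_of_chk {G : Type*} [Group G] {g : ℕ → G} {R : Rules} {S : List (ℕ × ℕ × ℕ × Bool)} {T : List W} {L : List ℕ}
    (hR : Sat g R) (h : chk R S T L = true) (h0 : [] ∈ T) {A : Set G} (hA : Subgroup.closure A = ⊤)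
    (hL : ∀ x ∈ A, (∃ a ∈ L, g a = x) ∧ ∃ a ∈ L, g a = x⁻¹) : Finite G ∧ Nat.card G ≤ T.length := by
  simp only [chk, List.all_eq_true, List.contains_iff_mem] at h
  have k : ∀ t ∈ T, ∀ a ∈ L, ∃ t' ∈ T, ev g t' = ev g t * g a := fun t ht a ha =>
    ⟨_, h t ht a ha, by rw [nf_ev (Sat.foldl S hR), ev_append]; simp [ev]⟩
  have s : Function.Surjective fun i : Fin T.length => ev g T[i] := by
    intro x
    have : ∃ t ∈ T, ev g t = x := by
      have hx : x ∈ Subgroup.closure A := hA ▸ Subgroup.mem_top x
      induction hx using Subgroup.closure_induction_right with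
      | one => exact ⟨[], h0, rfl⟩
      | mul_right x _ y hy ih =>
        obtain ⟨t, ht, rfl⟩ := ih
        obtain ⟨a, ha, rfl⟩ := (hL y hy).1
        exact k t ht a ha
      | mul_inv_cancel x _ y hy ih =>
        obtain ⟨t, ht, rfl⟩ := ih
        obtain ⟨a, ha, e⟩ := (hL y hy).2
        exact e ▸ k t ht a ha
    obtain ⟨t, ht, rfl⟩ := this
    obtain ⟨i, rfl⟩ := List.mem_iff_get.1 ht
    exact ⟨i, rfl⟩
  haveI := Finite.of_surjective _ s
  exact ⟨this, by simpa using Nat.card_le_card_of_surjective _ s⟩

end Cfsg.Agent.GS.KB
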