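/-
Presentations of `A₅` and `SL₂(5)`; small non-solvable groups.
-/
import Cfsg.Agent.GS.KB
import Cfsg.Agent.GS.Zas4

namespace Cfsg.Agent.GS

open Subgroup Cfsg.Agent.H1 Cfsg.Agent.BG
open Cfsg.Agent.H2 hiding card_lt_of_lt card_lt_of_ne_top isMulCommutative_of_le isPGroup_zpowers_iff mem_of_pow_mem_of_coprime inf_eq_bot_of_cop exists_maxElem_ge Sec
open scoped commutatorElement Pointwise MatrixGroups

universe u

theorem card_le_60 {G : Type*} [Group G] {x y : G} (hx : x ^ 3 = 1) (hy : y ^ 5 = 1) (hxy : (x * y) ^ 2 = 1)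
    (h : closure {x, y} = ⊤) : Finite G ∧ ♯G ≤ 60 := by
  refine KB.card_le_of_chk (g := fun i => [x, x⁻¹, y, y⁻¹].getD i 1) (R := [([0, 1], []), ([1, 0], []), ([2, 3], []), ([3, 2], []), ([0, 0, 0], []), ([2, 2, 2, 2, 2], []), ([0, 2, 0, 2], [])])
    (S := [(1, 4, 1, true), (1, 7, 1, false), (1, 6, 1, true), (3, 9, 1, false), (10, 1, 1, true), (10, 8, 1, true), (1, 11, 1, true), (13, 7, 1, true), (7, 12, 1, true), (10, 15, 1, false), (3, 5, 1, true), (3, 17, 1, true), (3, 18, 1, false), (18, 13, 1, false), (19, 10, 1, false), (20, 19, 1, true), (22, 10, 1, false), (14, 23, 2, false), (20, 22, 1, false)])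
    (T := [[], [0], [1], [2], [3], [0, 2], [0, 3], [1, 2], [1, 3], [2, 1], [2, 2], [3, 0], [3, 3], [0, 2, 2], [0, 3, 0], [0, 3, 3], [1, 2, 2], [1, 3, 3], [2, 1, 2], [2, 1, 3], [2, 2, 1], [3, 0, 2], [3, 0, 3], [3, 3, 0], [0, 2, 2, 1], [0, 3, 0, 2], [0, 3, 0, 3], [0, 3, 3, 0], [1, 2, 2, 1], [1, 3, 3, 0], [2, 1, 2, 2], [2, 1, 3, 3], [2, 2, 1, 2], [3, 0, 2, 2], [3, 0, 3, 3], [3, 3, 0, 3], [0, 2, 2, 1, 2], [0, 3, 0, 2, 2], [0, 3, 0, 3, 3], [0, 3, 3, 0, 3], [1, 2, 2, 1, 2], [1, 3, 3, 0, 3], [2, 1, 2, 2, 1], [2, 1, 3, 3, 0], [2, 2, 1, 2, 2], [3, 0, 2, 2, 1], [3, 0, 3, 3, 0], [0, 2, 2, 1, 2, 2], [0, 3, 0, 2, 2, 1], [0, 3, 0, 3, 3, 0], [1, 2, 2, 1, 2, 2], [2, 1, 2, 2, 1, 2], [2, 1, 3, 3, 0, 3], [2, 2, 1, 2, 2, 1], [3, 0, 3, 3, 0, 3], [0, 2, 2, 1, 2, 2, 1], [0, 3, 0, 3, 3, 0, 3], [2, 1, 2, 2, 1, 2, 2], [2, 2, 1, 2, 2, 1, 2], [0, 2, 2, 1, 2, 2, 1, 2]])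
    (L := [0, 1, 2, 3]) ?_ (by decide +kernel) (by simp) h ?_
  · intro p hp
    simp only [List.mem_cons, List.not_mem_nil, or_false] at hp
    rcases hp with rfl | rfl | rfl | rfl | rfl | rfl | rfl <;> simp [KB.ev]
    · simpa [pow_succ, mul_assoc] using hx
    · simpa [pow_succ, mul_assoc] using hy
    · simpa [pow_succ, mul_assoc] using hxy
  · rintro _ (rfl | rfl)
    · exact ⟨⟨0, by simp, rfl⟩, 1, by simp, rfl⟩
    · exact ⟨⟨2, by simp, rfl⟩, 3, by simp, rfl⟩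

theorem solv_of_card_lt_60 (n : ℕ) : ∀ (G : Type u) [Group G] [Finite G], ♯G = n → n < 60 → Group.IsSolvable G := by
  induction n using Nat.strong_induction_on with
  | _ n ih =>
  intro G _ _ hn h60
  subst hn
  refine isSolvable_of_forall_normal (fun N hN h1 h2 => ⟨ih _ (card_lt_of_ne_top h2) N rfl ((card_lt_of_ne_top h2).trans h60),
    fun {_} => ih _ (H1.card_quotient_lt h1) _ rfl ((H1.card_quotient_lt h1).trans h60)⟩) fun hs => ?_
  by_contra hne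
  have := S0496.result (G := G) (fun h => hne (isSolvable_of_isMulCommutative h)) (by omega)
  omega

theorem a5_of_not_solv {G : Type u} [Group G] [Finite G] (h : ♯G < 120) (hs : ¬ Group.IsSolvable G) :
    Nonempty (G ≃* alternatingGroup (Fin 5)) := by
  haveI : IsSimpleGroup G := by
    by_contra hne
    refine hs (isSolvable_of_forall_normal (fun N hN h1 h2 => ?_) fun h => absurd h hne)
    have e := N.card_mul_index
    have a : 2 ≤ ♯N := (one_lt_card_iff_ne_bot N).2 h1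
    have b : 2 ≤ N.index := one_lt_index_of_ne_top h2
    exact ⟨solv_of_card_lt_60 _ _ rfl (by nlinarith), fun {_} => solv_of_card_lt_60 _ _ rfl (by change N.index < 60; nlinarith)⟩
  have := S0496.result (G := G) (fun h => hs (isSolvable_of_isMulCommutative h)) (by omega)
  exact H7.a5_of_card_60 (by omega)

theorem card_SL25 : ♯SL(2, ZMod 5) = 120 := by
  have := H4.card_SL (F := ZMod 5) 2 (by decide)
  simp [Fin.prod_univ_two] at this
  simpa using (by omega : Fintype.card SL(2, ZMod 5) = 120)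

end Cfsg.Agent.GS
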