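/- Subgroups `A₅` of `L₂(11)`. -/
import Cfsg.Agent.GS.Mk8
import Cfsg.Agent.H6.MathK
import Cfsg.Agent.S3377

set_option linter.unusedSectionVars false
set_option maxRecDepth 100000
namespace Cfsg.Agent.St
open Finset H6 MulAction
open scoped Pointwise

theorem a5_of {G : Type*} [Group G] {x y : G} (hx : x ^ 3 = 1) (hy : y ^ 5 = 1) (hxy : (x * y) ^ 2 = 1) (h1 : x ≠ 1) :
    Nonempty (Subgroup.closure {x, y} ≃* alternatingGroup (Fin 5)) := by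
  obtain ⟨e⟩ := S3377.result
  set rels : Set (FreeGroup (Fin 2)) := {FreeGroup.of (0 : Fin 2) ^ 3, FreeGroup.of (1 : Fin 2) ^ 5,
    (FreeGroup.of (0 : Fin 2) * FreeGroup.of 1) ^ 2}
  let f : PresentedGroup rels →* G := PresentedGroup.toGroup (f := ![x, y]) (by rintro r (rfl | rfl | rfl) <;> simp [*])
  have fa : f (PresentedGroup.of 0) = x := PresentedGroup.toGroup.of _
  have fb : f (PresentedGroup.of 1) = y := PresentedGroup.toGroup.of _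
  haveI := e.isSimpleGroup
  have hi : Function.Injective f := (MonoidHom.ker_eq_bot_iff f).1 (f.normal_ker.eq_bot_or_eq_top.resolve_right fun h =>
    h1 (fa ▸ h.ge (Subgroup.mem_top _)))
  have hr : f.range = Subgroup.closure {x, y} := by
    rw [MonoidHom.range_eq_map, ← PresentedGroup.closure_range_of, MonoidHom.map_closure, ← Set.range_comp]
    congr 1; ext z; simp [fa, fb, eq_comm]
  exact ⟨((MulEquiv.subgroupCongr hr).symm.trans (MonoidHom.ofInjective hi).symm).trans e⟩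

theorem card_a5 {G : Type*} [Group G] (e : G ≃* alternatingGroup (Fin 5)) : Nat.card G = 60 := by
  rw [Nat.card_congr e.toEquiv, nat_card_alternatingGroup]; simp; decide

theorem gens_of_a5 {G : Type*} [Group G] {L : Subgroup G} (e : L ≃* alternatingGroup (Fin 5)) :
    ∃ x y : G, x ^ 3 = 1 ∧ y ^ 5 = 1 ∧ (x * y) ^ 2 = 1 ∧ x ≠ 1 ∧ Subgroup.closure {x, y} = L := by
  obtain ⟨a, b, a1, a3, b5, c2⟩ : ∃ a b : alternatingGroup (Fin 5), a ≠ 1 ∧ a ^ 3 = 1 ∧ b ^ 5 = 1 ∧ (a * b) ^ 2 = 1 :=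
    ⟨⟨c[0, 3, 1], Equiv.Perm.mem_alternatingGroup.2 (by decide)⟩, ⟨c[0, 1, 2, 3, 4], Equiv.Perm.mem_alternatingGroup.2 (by decide)⟩,
      by decide, by decide, by decide +kernel, by decide⟩
  let f := L.subtype.comp e.symm.toMonoidHom
  have h1 : f a ^ 3 = 1 := by rw [← map_pow, a3, map_one]
  have h2 : f b ^ 5 = 1 := by rw [← map_pow, b5, map_one]
  have h3 : (f a * f b) ^ 2 = 1 := by rw [← map_mul, ← map_pow, c2, map_one]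
  have h4 : f a ≠ 1 := fun h => a1 ((L.subtype_injective.comp e.symm.injective) (h.trans (map_one f).symm))
  haveI : Finite L := Finite.of_equiv _ e.symm.toEquiv
  refine ⟨_, _, h1, h2, h3, h4, Subgroup.eq_of_le_of_card_ge ((Subgroup.closure_le _).2 ?_) ?_⟩
  · rintro _ (rfl | rfl) <;> exact Subtype.prop _
  · rw [card_a5 e, card_a5 (a5_of h1 h2 h3 h4).some]

theorem two_trans_of {G : Type*} [Group G] {H : Subgroup G} {r : G}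
    (h : ∀ g, g ∈ H ∨ ∃ a ∈ H, ∃ b ∈ H, g = a * r * b) : IsMultiplyPretransitive G (G ⧸ H) 2 := by
  have k : ∀ a b : G ⧸ H, a ≠ b → ∃ g : G, g • ((1 : G) : G ⧸ H) = a ∧ g • (r : G ⧸ H) = b := by
    intro a b
    obtain ⟨x, rfl⟩ := QuotientGroup.mk_surjective a
    obtain ⟨y, rfl⟩ := QuotientGroup.mk_surjective b
    intro hne
    obtain ⟨a, ha, b, hb, e⟩ := (h (x⁻¹ * y)).resolve_left fun h => hne (QuotientGroup.eq.2 h)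
    refine ⟨x * a, QuotientGroup.eq.2 (by simpa using ha), QuotientGroup.eq.2 ?_⟩
    show (x * a * r)⁻¹ * y ∈ H
    rw [inv_mul_eq_iff_eq_mul.1 e]
    simpa [mul_assoc] using hb
  refine is_two_pretransitive_iff.2 fun {a b c d} h1 h2 => ?_
  obtain ⟨g, e1, e2⟩ := k a b h1
  obtain ⟨g', e3, e4⟩ := k c d h2
  exact ⟨g' * g⁻¹, by rw [← e1, ← e3, smul_smul, inv_mul_cancel_right], by rw [← e2, ← e4, smul_smul, inv_mul_cancel_right]⟩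

theorem mem_conj_smul {G : Type*} [Group G] {H : Subgroup G} {g x : G} : x ∈ MulAut.conj g • H ↔ g⁻¹ * x * g ∈ H := by
  rw [Subgroup.mem_pointwise_smul_iff_inv_smul_mem, ← map_inv]; simp

theorem ncard_conj {G : Type*} [Group G] [Finite G] {H : Subgroup G} (hp : H.index.Prime) {s c : G} (hs : s ∈ H)
    (h : c⁻¹ * s * c ∉ H) : {L | ∃ g : G, MulAut.conj g • H = L}.ncard = H.index := by
  letI : MulAction G (Subgroup G) := MulAction.compHom _ (MulAut.conj : G →* MulAut G)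
  have h1 : H ≤ stabilizer G H := fun g hg => Subgroup.conj_smul_eq_self_of_mem hg
  refine (index_stabilizer G H).symm.trans ((hp.eq_one_or_self_of_dvd _ (Subgroup.index_dvd_of_le h1)).resolve_left fun e => h ?_)
  have : MulAut.conj c • H = H := (Subgroup.index_eq_one.1 e).ge (Subgroup.mem_top c)
  rw [← mem_conj_smul, this]; exact hs

section
variable {G Ω : Type*} [Group G] [MulAction G Ω] {N : ℕ} {X : ℕ → Ω} {gens : ℕ → G} {nets : ℕ → Net} {eqv : List ℕ → List ℕ → Bool}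

theorem not_conj_mem (h : IsModel N X gens nets vT) (he : ∀ u w, eqv u w = true → wp gens u = wp gens w) {ws tr : List (List ℕ)}
    {dat : List (List (ℕ × List ℕ))} (hc : slevChk eqv ws [] tr dat = true) {s c : List ℕ}
    (h1 : lall (fun t => neW N nets (lapp s c) (lapp c (sel ws t))) tr = true) :
    (wp gens c)⁻¹ * wp gens s * wp gens c ∉ cl gens ws := fun hm => by
  obtain ⟨t, ht, e⟩ := enum_cl he hc _ hm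
  refine ne_of_neW h ((lall_eq _ _).1 h1 t ht) ?_
  rw [wp_lapp, wp_lapp, ← e]; group

theorem coset_of (he : ∀ u w, eqv u w = true → wp gens u = wp gens w) {ws ws' tr : List (List ℕ)}
    {dat : List (List (ℕ × List ℕ))} (hc : slevChk eqv ws ws' tr dat = true) {g : G} (hg : g ∈ cl gens ws) :
    ∃ t ∈ tr, ∃ b ∈ cl gens ws', g = wp gens (sel ws t) * b := by
  obtain ⟨j, hj, e⟩ := slev_step he hc g hg
  exact ⟨_, lk_mem' _ hj, _, e, by rw [mul_inv_cancel_left]⟩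

theorem dbl_coset (he : ∀ u w, eqv u w = true → wp gens u = wp gens w) {ws ws' tr us : List (List ℕ)}
    {dat : List (List (ℕ × List ℕ))} (hc : slevChk eqv ws ws' tr dat = true) {r : List ℕ}
    (h : lall (fun t => bor (eqv (sel ws t) []) (lany (fun u => eqv (sel ws t) (lapp (sel ws' u) r)) us)) tr = true)
    {g : G} (hg : g ∈ cl gens ws) : g ∈ cl gens ws' ∨ ∃ a ∈ cl gens ws', ∃ b ∈ cl gens ws', g = a * wp gens r * b := by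
  obtain ⟨t, ht, b, hb, rfl⟩ := coset_of he hc hg
  rcases (bor_eq _ _).1 ((lall_eq _ _).1 h t ht) with e | e
  · left; rw [he _ _ e]; simpa using hb
  · obtain ⟨u, -, e⟩ := (lany_eq _ _).1 e
    exact Or.inr ⟨_, wp_sel_mem _ u, b, hb, by rw [he _ _ e, wp_lapp]⟩

noncomputable def prChk (eqv : List ℕ → List ℕ → Bool) (ws : List (List ℕ)) (x : List ℕ) (cs : List (List ℕ × List ℕ × List ℕ × List ℕ))
    (y : List ℕ) : Bool :=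
  lany (fun c => band (eqv y c.1) (band (eqv (lapp c.2.1 x) (lapp (sel ws c.2.2.1) c.2.1))
    (eqv (lapp c.2.1 c.1) (lapp (sel ws c.2.2.2) c.2.1)))) cs

theorem le_of_prChk (he : ∀ u w, eqv u w = true → wp gens u = wp gens w) {ws : List (List ℕ)} {x y : List ℕ}
    {cs : List (List ℕ × List ℕ × List ℕ × List ℕ)} (h : prChk eqv ws x cs y = true) :
    ∃ c : G, MulAut.conj c • Subgroup.closure {wp gens x, wp gens y} ≤ cl gens ws := by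
  obtain ⟨c, -, h⟩ := (lany_eq _ _).1 h
  simp only [band_eq] at h
  have e1 := he _ _ h.2.1
  have e2 := he _ _ h.2.2
  rw [wp_lapp, wp_lapp, ← mul_inv_eq_iff_eq_mul] at e1 e2
  refine ⟨wp gens c.2.1, Subgroup.pointwise_smul_subset_iff.2 ((Subgroup.closure_le _).2 ?_)⟩
  rintro _ (rfl | rfl)
  · exact Subgroup.mem_inv_pointwise_smul_iff.2 (by simpa [e1] using wp_sel_mem _ _)
  · exact Subgroup.mem_inv_pointwise_smul_iff.2 (by simpa [he _ _ h.1, e2] using wp_sel_mem _ _)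

theorem cl_two (a b : ℕ) : cl gens [[a], [b]] = Subgroup.closure {gens a, gens b} := by
  unfold cl; congr 1; ext z; simp [wp, eq_comm]
end

noncomputable def nb11 : List Net := [(Net.cons (nat_lit 6) (nat_lit 10)
  (Net.cons (nat_lit 3) (nat_lit 68)
  (Net.cons (nat_lit 1) (nat_lit 1)
  (Net.cons (nat_lit 1) (nat_lit 1154)
  (Net.cons (nat_lit 3) (nat_lit 4)
  (Net.cons (nat_lit 6) (nat_lit 22)
  Net.nil)))))),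
 (Net.cons (nat_lit 6) (nat_lit 23)
  (Net.cons (nat_lit 3) (nat_lit 389)
  (Net.cons (nat_lit 1) (nat_lit 584)
  (Net.cons (nat_lit 1) (nat_lit 1168)
  (Net.cons (nat_lit 1) (nat_lit 521)
  (Net.cons (nat_lit 3) (nat_lit 132)
  (Net.cons (nat_lit 6) (nat_lit 16)
  Net.nil))))))),
 (Net.cons (nat_lit 6) (nat_lit 13)
  (Net.cons (nat_lit 3) (nat_lit 1)
  (Net.cons (nat_lit 1) (nat_lit 1154)
  (Net.cons (nat_lit 1) (nat_lit 65)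
  (Net.cons (nat_lit 3) (nat_lit 132)
  (Net.cons (nat_lit 6) (nat_lit 8)
  Net.nil)))))),
 (Net.cons (nat_lit 6) (nat_lit 22)
  (Net.cons (nat_lit 3) (nat_lit 68)
  (Net.cons (nat_lit 1) (nat_lit 1154)
  (Net.cons (nat_lit 1) (nat_lit 1)
  (Net.cons (nat_lit 3) (nat_lit 4)
  (Net.cons (nat_lit 6) (nat_lit 10)
  Net.nil)))))),
 (Net.cons (nat_lit 6) (nat_lit 47)
  (Net.cons (nat_lit 3) (nat_lit 193)
  (Net.cons (nat_lit 1) (nat_lit 65)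
  (Net.cons (nat_lit 1) (nat_lit 146)
  (Net.cons (nat_lit 1) (nat_lit 585)
  (Net.cons (nat_lit 3) (nat_lit 128)
  (Net.cons (nat_lit 6) (nat_lit 40)
  Net.nil))))))),
 (Net.cons (nat_lit 6) (nat_lit 55)
  (Net.cons (nat_lit 3) (nat_lit 194)
  (Net.cons (nat_lit 1) (nat_lit 513)
  (Net.cons (nat_lit 1) (nat_lit 1042)
  (Net.cons (nat_lit 3) (nat_lit 384)
  (Net.cons (nat_lit 6) (nat_lit 50)
  Net.nil))))))]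
theorem L211 (F : Type*) [Field F] [Fintype F] (hF : Fintype.card F = 11) :
    ∃ H K : Subgroup (Matrix.ProjectiveSpecialLinearGroup (Fin 2) F), H.index = 11 ∧ K.index = 11 ∧ Nonempty (H ≃* alternatingGroup (Fin 5)) ∧
      Nonempty (K ≃* alternatingGroup (Fin 5)) ∧ IsMultiplyPretransitive (Matrix.ProjectiveSpecialLinearGroup (Fin 2) F) (Matrix.ProjectiveSpecialLinearGroup (Fin 2) F ⧸ H) 2 ∧
      (∀ g : Matrix.ProjectiveSpecialLinearGroup (Fin 2) F, MulAut.conj g • H ≠ K) ∧ (∃ s ∈ H, ∃ c, c⁻¹ * s * c ∉ H) ∧ (∃ s ∈ K, ∃ c, c⁻¹ * s * c ∉ K) ∧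
      ∀ L : Subgroup (Matrix.ProjectiveSpecialLinearGroup (Fin 2) F), Nonempty (L ≃* alternatingGroup (Fin 5)) → ∃ g : Matrix.ProjectiveSpecialLinearGroup (Fin 2) F, MulAut.conj g • L = H ∨ MulAut.conj g • L = K := by
  haveI : Fact (Nat.Prime 11) := ⟨by norm_num⟩
  haveI := charP_of_card (p := 11) (k := 1) (by norm_num) hF
  obtain ⟨g, hg⟩ := mrep_SL (n := 2) (semP (F := F) 11 (by norm_num)) (ml := [[57,91],[34,79],[80,57],[74,30],[95,20],[49,42]]) (fs := [[[45,11],[1,14],[67,11]],[[1,13],[34,11]],[[12,11],[1,13],[23,11]],[[56,11],[1,19],[78,11]],[[89,11],[1,20]],[[100,11],[1,20],[111,11]]]) (by decide +kernel)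
  have h0 := vecC_ne (n := 2) (semP (F := F) 11 (by norm_num)) (injP 11) (vl := [11,1,12,23,34,45,56,67,78,89,100,111]) (by decide +kernel)
  have mT := prjModel hg (injP 11) h0 (N := 12) (nl := nb11) (by decide +kernel)
  have he := eqv_of_faith mT (faith_of_card mT (card_prj hF (by decide))) 4
  have cB : Nat.card (Matrix.ProjectiveSpecialLinearGroup (Fin 2) F) = 660 := by
    have := S0243.result hF 2 (by norm_num)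
    generalize Nat.card (Matrix.ProjectiveSpecialLinearGroup (Fin 2) F) = x at this
    norm_num [Fin.prod_univ_succ] at this; omega
  haveI : Finite (Matrix.ProjectiveSpecialLinearGroup (Fin 2) F) := Nat.finite_of_card_ne_zero (by rw [cB]; norm_num)
  generalize (fun l => (g l : Matrix.ProjectiveSpecialLinearGroup (Fin 2) F)) = g at mT he
  have ht : cl g (lw [0,1,2]) = ⊤ := eq_of_le_of_ord le_top (lb_of mT (L := (Lev.cons 0 12 [[2,1,2,1,2,0,0]]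
  (Lev.cons 1 11 [[1,0,2,1,1,0,0]]
  (Lev.cons 2 5 [[2,1,0,2,0]]
  Lev.nil)))) (k := 1) (r := 40) (by decide +kernel) (by decide +kernel))
    (by rw [Subgroup.card_top, cB]; decide +kernel)
  have x1 : g 0 ≠ 1 := by simpa [wp] using mT.ne_one_of_mp (w := [0]) (p := 0) (by decide +kernel)
  have x3 : g 0 ^ 3 = 1 := by simpa [wp, pow_succ, mul_assoc] using he [0,0,0] [] (by decide +kernel)
  have eH : Nonempty (cl g [[0],[1]] ≃* alternatingGroup (Fin 5)) := cl_two (gens := g) 0 1 ▸ a5_of x3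
    (by simpa [wp, pow_succ, mul_assoc] using he [1,1,1,1,1] [] (by decide +kernel)) (by simpa [wp, pow_succ, mul_assoc] using he [0,1,0,1] [] (by decide +kernel)) x1
  have eK : Nonempty (cl g [[0],[2]] ≃* alternatingGroup (Fin 5)) := cl_two (gens := g) 0 2 ▸ a5_of x3
    (by simpa [wp, pow_succ, mul_assoc] using he [2,2,2,2,2] [] (by decide +kernel)) (by simpa [wp, pow_succ, mul_assoc] using he [0,2,0,2] [] (by decide +kernel)) x1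
  have ix : ∀ L : Subgroup (Matrix.ProjectiveSpecialLinearGroup (Fin 2) F), Nonempty (L ≃* alternatingGroup (Fin 5)) → L.index = 11 := fun L ⟨e⟩ => by
    have := L.index_mul_card
    rw [cB, card_a5 e] at this; omega
  have nH : slevChk (eqChk 12 4 (lk Net.nil nb11) vT) [[0],[1]] [] [[],[0],[1],[0,0],[1,0],[0,1],[1,1],[1,0,0],[0,1,0],[1,1,0],[0,0,1],[0,1,1],[1,1,1],[0,1,0,0],[1,1,0,0],[0,0,1,0],[0,1,1,0],[1,1,1,0],[1,0,0,1],[0,0,1,1],[0,1,1,1],[0,0,1,0,0],[0,1,1,0,0],[1,1,1,0,0],[1,0,0,1,0],[0,0,1,1,0],[0,1,1,1,0],[1,1,0,0,1],[1,0,0,1,1],[1,0,0,1,0,0],[0,0,1,1,0,0],[0,1,1,1,0,0],[1,1,0,0,1,0],[1,0,0,1,1,0],[0,1,1,0,0,1],[1,1,1,0,0,1],[1,1,0,0,1,1],[1,1,0,0,1,0,0],[1,0,0,1,1,0,0],[0,1,1,0,0,1,0],[1,1,1,0,0,1,0],[1,1,0,0,1,1,0],[0,0,1,1,0,0,1],[0,1,1,1,0,0,1],[0,1,1,0,0,1,1],[0,1,1,0,0,1,0,0],[1,1,1,0,0,1,0,0],[1,1,0,0,1,1,0,0],[0,0,1,1,0,0,1,0],[0,1,1,1,0,0,1,0],[0,1,1,0,0,1,1,0],[1,0,0,1,1,0,0,1],[0,0,1,1,0,0,1,1],[0,0,1,1,0,0,1,0,0],[0,1,1,1,0,0,1,0,0],[0,1,1,0,0,1,1,0,0],[0,0,1,1,0,0,1,1,0],[1,1,0,0,1,1,0,0,1],[1,0,0,1,1,0,0,1,1],[1,0,0,1,1,0,0,1,1,0]]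 [[(1,[]),(3,[]),(5,[]),(0,[]),(8,[]),(10,[]),(11,[]),(13,[]),(15,[]),(16,[]),(2,[]),(19,[]),(20,[]),(21,[]),(22,[]),(4,[]),(25,[]),(26,[]),(23,[]),(6,[]),(24,[]),(7,[]),(30,[]),(31,[]),(12,[]),(9,[]),(29,[]),(34,[]),(35,[]),(17,[]),(14,[]),(18,[]),(39,[]),(40,[]),(42,[]),(43,[]),(44,[]),(45,[]),(46,[]),(48,[]),(49,[]),(50,[]),(27,[]),(28,[]),(52,[]),(53,[]),(54,[]),(55,[]),(32,[]),(33,[]),(56,[]),(47,[]),(36,[]),(37,[]),(38,[]),(51,[]),(41,[]),(59,[]),(57,[]),(58,[])],[(2,[]),(4,[]),(6,[]),(7,[]),(9,[]),(3,[]),(12,[]),(14,[]),(0,[]),(17,[]),(18,[]),(10,[]),(8,[]),(1,[]),(23,[]),(24,[]),(15,[]),(13,[]),(27,[]),(28,[]),(19,[]),(29,[]),(21,[]),(5,[]),(32,[]),(33,[]),(25,[]),(35,[]),(36,[]),(37,[]),(38,[]),(30,[]),(40,[]),(41,[]),(31,[]),(11,[]),(39,[]),(46,[]),(47,[]),(20,[]),(16,[]),(45,[]),(51,[]),(42,[]),(43,[]),(26,[]),(22,[]),(34,[]),(52,[]),(48,[]),(49,[]),(57,[]),(58,[]),(56,[]),(53,[]),(54,[]),(59,[]),(44,[]),(50,[]),(55,[])]]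 = true := by decide +kernel
  have nK : slevChk (eqChk 12 4 (lk Net.nil nb11) vT) [[0],[2]] [] [[],[0],[1],[0,0],[1,0],[0,1],[1,1],[1,0,0],[0,1,0],[1,1,0],[0,0,1],[0,1,1],[1,1,1],[0,1,0,0],[1,1,0,0],[0,0,1,0],[0,1,1,0],[1,1,1,0],[1,0,0,1],[0,0,1,1],[0,1,1,1],[0,0,1,0,0],[0,1,1,0,0],[1,1,1,0,0],[1,0,0,1,0],[0,0,1,1,0],[0,1,1,1,0],[1,1,0,0,1],[1,0,0,1,1],[1,0,0,1,0,0],[0,0,1,1,0,0],[0,1,1,1,0,0],[1,1,0,0,1,0],[1,0,0,1,1,0],[0,1,1,0,0,1],[1,1,1,0,0,1],[1,1,0,0,1,1],[1,1,0,0,1,0,0],[1,0,0,1,1,0,0],[0,1,1,0,0,1,0],[1,1,1,0,0,1,0],[1,1,0,0,1,1,0],[0,0,1,1,0,0,1],[0,1,1,1,0,0,1],[0,1,1,0,0,1,1],[0,1,1,0,0,1,0,0],[1,1,1,0,0,1,0,0],[1,1,0,0,1,1,0,0],[0,0,1,1,0,0,1,0],[0,1,1,1,0,0,1,0],[0,1,1,0,0,1,1,0],[1,0,0,1,1,0,0,1],[0,0,1,1,0,0,1,1],[0,0,1,1,0,0,1,0,0],[0,1,1,1,0,0,1,0,0],[0,1,1,0,0,1,1,0,0],[0,0,1,1,0,0,1,1,0],[1,1,0,0,1,1,0,0,1],[1,0,0,1,1,0,0,1,1],[1,0,0,1,1,0,0,1,1,0]]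 [[(1,[]),(3,[]),(5,[]),(0,[]),(8,[]),(10,[]),(11,[]),(13,[]),(15,[]),(16,[]),(2,[]),(19,[]),(20,[]),(21,[]),(22,[]),(4,[]),(25,[]),(26,[]),(23,[]),(6,[]),(24,[]),(7,[]),(30,[]),(31,[]),(12,[]),(9,[]),(29,[]),(34,[]),(35,[]),(17,[]),(14,[]),(18,[]),(39,[]),(40,[]),(42,[]),(43,[]),(44,[]),(45,[]),(46,[]),(48,[]),(49,[]),(50,[]),(27,[]),(28,[]),(52,[]),(53,[]),(54,[]),(55,[]),(32,[]),(33,[]),(56,[]),(47,[]),(36,[]),(37,[]),(38,[]),(51,[]),(41,[]),(59,[]),(57,[]),(58,[])],[(2,[]),(4,[]),(6,[]),(7,[]),(9,[]),(3,[]),(12,[]),(14,[]),(0,[]),(17,[]),(18,[]),(10,[]),(8,[]),(1,[]),(23,[]),(24,[]),(15,[]),(13,[]),(27,[]),(28,[]),(19,[]),(29,[]),(21,[]),(5,[]),(32,[]),(33,[]),(25,[]),(35,[]),(36,[]),(37,[]),(38,[]),(30,[]),(40,[]),(41,[]),(31,[]),(11,[]),(39,[]),(46,[]),(47,[]),(20,[]),(16,[]),(45,[]),(51,[]),(42,[]),(43,[]),(26,[]),(22,[]),(34,[]),(52,[]),(48,[]),(49,[]),(57,[]),(58,[]),(56,[]),(53,[]),(54,[]),(59,[]),(44,[]),(50,[]),(55,[])]]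 = true := by decide +kernel
  have nC : slevChk (eqChk 12 4 (lk Net.nil nb11) vT) (lw [0,1,2]) [[0],[1]] [[],[2],[0,2],[1,2],[0,0,2],[0,1,2],[1,1,2],[1,0,0,2],[0,0,1,2],[1,1,1,2],[1,0,0,1,2]] [[(0,[0]),(2,[]),(4,[]),(5,[]),(1,[]),(8,[]),(7,[0,1,1,1,0,0,1,0]),(9,[0,1,1,0,0,1,1,0,0]),(3,[]),(6,[0,1]),(10,[1,0,0,1,1,0,0])],[(0,[1]),(3,[]),(1,[0,1,1,0,0,1,1,0,0]),(6,[]),(7,[]),(4,[]),(9,[]),(8,[1,0,0,1,1,0,0]),(10,[]),(2,[0,1,1,0,0,1,1,0,0]),(5,[0,1,1,1,0,0,1,0])],[(1,[]),(10,[0,1,1,0,0,1,1,0]),(0,[0,0]),(8,[1,0]),(2,[1,1,1,0,0,1]),(3,[1,0,0,1,1,0]),(6,[0,1,1,1]),(9,[1,0,0,1,1,0,0,1,1]),(7,[0,1,1,1,0]),(5,[1,1,1,0,0]),(4,[0,0,1])]] = true := by decide +kernel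
  refine ⟨cl g [[0],[1]], cl g [[0],[2]], ix _ eH, ix _ eK, eH, eK, two_trans_of (r := wp g [2]) fun x =>
    dbl_coset he nC (us := [[],[0],[1],[0,0],[0,1],[1,1],[1,0,0],[0,0,1],[1,1,1],[1,0,0,1]]) (by decide +kernel) (ht ▸ Subgroup.mem_top x), fun x e => ?_,
    ⟨wp g [0], wp_mem_cl (by simp), wp g [2], not_conj_mem mT he nH (by decide +kernel)⟩,
    ⟨wp g [0], wp_mem_cl (by simp), wp g [1], not_conj_mem mT he nK (by decide +kernel)⟩, fun L hL => ?_⟩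
  · obtain ⟨t, h, b, hb, rfl⟩ := coset_of he nC (ht ▸ Subgroup.mem_top x)
    rw [map_mul, mul_smul, Subgroup.conj_smul_eq_self_of_mem hb] at e
    obtain ⟨s, hs, h1⟩ := (lany_eq _ _).1 ((lall_eq _ _).1 (show lall (fun t => lany (fun s => lall (fun u => neW 12 (lk Net.nil nb11)
      (lapp s (sel (lw [0,1,2]) t)) (lapp (sel (lw [0,1,2]) t) (sel [[0],[1]] u))) [[],[0],[1],[0,0],[1,0],[0,1],[1,1],[1,0,0],[0,1,0],[1,1,0],[0,0,1],[0,1,1],[1,1,1],[0,1,0,0],[1,1,0,0],[0,0,1,0],[0,1,1,0],[1,1,1,0],[1,0,0,1],[0,0,1,1],[0,1,1,1],[0,0,1,0,0],[0,1,1,0,0],[1,1,1,0,0],[1,0,0,1,0],[0,0,1,1,0],[0,1,1,1,0],[1,1,0,0,1],[1,0,0,1,1],[1,0,0,1,0,0],[0,0,1,1,0,0],[0,1,1,1,0,0],[1,1,0,0,1,0],[1,0,0,1,1,0],[0,1,1,0,0,1],[1,1,1,0,0,1],[1,1,0,0,1,1],[1,1,0,0,1,0,0],[1,0,0,1,1,0,0],[0,1,1,0,0,1,0],[1,1,1,0,0,1,0],[1,1,0,0,1,1,0],[0,0,1,1,0,0,1],[0,1,1,1,0,0,1],[0,1,1,0,0,1,1],[0,1,1,0,0,1,0,0],[1,1,1,0,0,1,0,0],[1,1,0,0,1,1,0,0],[0,0,1,1,0,0,1,0],[0,1,1,1,0,0,1,0],[0,1,1,0,0,1,1,0],[1,0,0,1,1,0,0,1],[0,0,1,1,0,0,1,1],[0,0,1,1,0,0,1,0,0],[0,1,1,1,0,0,1,0,0],[0,1,1,0,0,1,1,0,0],[0,0,1,1,0,0,1,1,0],[1,1,0,0,1,1,0,0,1],[1,0,0,1,1,0,0,1,1],[1,0,0,1,1,0,0,1,1,0]])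 [[0],[2]]) [[],[2],[0,2],[1,2],[0,0,2],[0,1,2],[1,1,2],[1,0,0,2],[0,0,1,2],[1,1,1,2],[1,0,0,1,2]] = true by decide +kernel) t h)
    exact not_conj_mem mT he nH h1 (mem_conj_smul.1 (e ▸ wp_mem_cl hs))
  · obtain ⟨x, y, h1, h2, h3, h4, rfl⟩ := gens_of_a5 hL.some
    obtain ⟨r, hr, c, -, rfl⟩ := classes he (ws := [[0]]) (tr := [[],[0],[0,0]]) (wsK := [[0],[1],[2]])
      (reps := [[],[0]]) (dat := [[(1,[]),(2,[]),(0,[])]]) (by decide +kernel) (cj := [([],0),([],1),([2,1,0,2,0,1],1)]) (by decide +kernel) (K := ⊤) (p := 3) (k := 1) (m := 220)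
      Nat.prime_three le_top le_top (mT.ord_le_card (L := Lev.cons 0 3 [[0]] Lev.nil) (k := 1) (r := 40) (by decide +kernel)) rfl
      (by rw [Subgroup.card_top, cB]; rfl) (by norm_num) (g := x) trivial (j := 1) h1
    simp only [List.mem_cons, List.not_mem_nil, or_false] at hr
    rcases hr with rfl | rfl
    · simp [wp] at h4
    obtain ⟨y, rfl⟩ : ∃ z, y = c * z * c⁻¹ := ⟨c⁻¹ * y * c, by group⟩
    rw [conj_mul, conj_pow, mul_inv_eq_one, mul_eq_left] at h3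
    rw [conj_pow, mul_inv_eq_one, mul_eq_left] at h2
    have key := forall_cl he (ws := lw [0,1,2]) (tr := [[],[0],[1],[2],[0,0],[1,0],[2,0],[0,1],[1,1],[2,1],[0,2],[1,2],[2,2],[1,0,0],[2,0,0],[0,1,0],[1,1,0],[2,1,0],[0,2,0],[1,2,0],[2,2,0],[0,0,1],[2,0,1],[0,1,1],[1,1,1],[2,1,1],[0,2,1],[1,2,1],[2,2,1],[0,0,2],[1,0,2],[0,1,2],[1,1,2],[2,1,2],[0,2,2],[1,2,2],[2,2,2],[0,1,0,0],[1,1,0,0],[2,1,0,0],[0,2,0,0],[1,2,0,0],[2,2,0,0],[0,0,1,0],[2,0,1,0],[0,1,1,0],[1,1,1,0],[2,1,1,0],[0,2,1,0],[1,2,1,0],[2,2,1,0],[0,0,2,0],[1,0,2,0],[0,1,2,0],[1,1,2,0],[2,1,2,0],[0,2,2,0],[1,2,2,0],[2,2,2,0],[1,0,0,1],[2,0,0,1],[0,2,0,1],[1,2,0,1],[2,2,0,1],[0,0,1,1],[2,0,1,1],[0,1,1,1],[2,1,1,1],[0,2,1,1],[1,2,1,1],[2,2,1,1],[0,0,2,1],[1,0,2,1],[0,1,2,1],[1,1,2,1],[2,1,2,1],[0,2,2,1],[1,2,2,1],[2,2,2,1],[1,0,0,2],[2,0,0,2],[0,1,0,2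],[1,1,0,2],[2,1,0,2],[0,0,1,2],[2,0,1,2],[0,1,1,2],[1,1,1,2],[2,1,1,2],[1,2,1,2],[2,2,1,2],[0,0,2,2],[1,0,2,2],[0,1,2,2],[1,1,2,2],[2,1,2,2],[0,2,2,2],[1,2,2,2],[0,0,1,0,0],[2,0,1,0,0],[0,1,1,0,0],[1,1,1,0,0],[2,1,1,0,0],[0,2,1,0,0],[1,2,1,0,0],[2,2,1,0,0],[0,0,2,0,0],[1,0,2,0,0],[0,1,2,0,0],[1,1,2,0,0],[2,1,2,0,0],[0,2,2,0,0],[1,2,2,0,0],[2,2,2,0,0],[1,0,0,1,0],[2,0,0,1,0],[0,2,0,1,0],[1,2,0,1,0],[2,2,0,1,0],[0,0,1,1,0],[2,0,1,1,0],[0,1,1,1,0],[2,1,1,1,0],[0,2,1,1,0],[1,2,1,1,0],[2,2,1,1,0],[0,0,2,1,0],[1,0,2,1,0],[0,1,2,1,0],[1,1,2,1,0],[0,2,2,1,0],[1,2,2,1,0],[2,2,2,1,0],[1,0,0,2,0],[2,0,0,2,0],[0,1,0,2,0],[1,1,0,2,0],[2,1,0,2,0],[0,0,1,2,0],[2,0,1,2,0],[0,1,1,2,0],[1,1,1,2,0],[2,1,1,2,0],[1,2,1,2,0],[2,2,1,2,0],[0,0,2,2,0],[1,0,2,2,0],[0,1,2,2,0],[1,1,2,2,0],[2,1,2,2,0],[0,2,2,2,0],[1,2,2,2,0],[1,1,0,0,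1],[2,1,0,0,1],[0,2,0,0,1],[2,2,0,0,1],[0,0,2,0,1],[1,0,2,0,1],[0,1,2,0,1],[1,1,2,0,1],[2,1,2,0,1],[0,2,2,0,1],[1,2,2,0,1],[2,2,2,0,1],[1,0,0,1,1],[2,0,0,1,1],[0,2,0,1,1],[1,2,0,1,1],[2,2,0,1,1],[2,0,1,1,1],[0,2,1,1,1],[1,2,1,1,1],[2,2,1,1,1],[0,0,2,1,1],[1,0,2,1,1],[0,1,2,1,1],[1,1,2,1,1],[2,1,2,1,1],[1,2,2,1,1],[2,2,2,1,1],[1,0,0,2,1],[2,0,0,2,1],[0,1,0,2,1],[1,1,0,2,1],[2,0,1,2,1],[0,1,1,2,1],[1,1,1,2,1],[2,1,1,2,1],[1,2,1,2,1],[2,2,1,2,1],[0,0,2,2,1],[1,0,2,2,1],[0,1,2,2,1],[1,1,2,2,1],[2,1,2,2,1],[1,2,2,2,1],[0,1,0,0,2],[1,1,0,0,2],[2,1,0,0,2],[1,2,0,0,2],[0,0,1,0,2],[2,0,1,0,2],[1,1,1,0,2],[2,1,1,0,2],[0,2,1,0,2],[1,2,1,0,2],[2,2,1,0,2],[1,0,0,1,2],[0,2,0,1,2],[1,2,0,1,2],[2,2,0,1,2],[0,0,1,1,2],[2,0,1,1,2],[2,1,1,1,2],[0,2,1,1,2],[1,2,1,1,2],[2,2,1,1,2],[0,1,2,1,2],[1,1,2,1,2],[2,1,2,1,2],[0,2,2,1,2],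[1,2,2,1,2],[2,2,2,1,2],[1,0,0,2,2],[2,0,0,2,2],[0,1,0,2,2],[1,1,0,2,2],[2,1,0,2,2],[0,0,1,2,2],[0,1,1,2,2],[1,1,1,2,2],[2,1,1,2,2],[1,2,1,2,2],[2,2,1,2,2],[1,0,2,2,2],[0,1,2,2,2],[1,1,2,2,2],[2,1,2,2,2],[1,0,0,1,0,0],[2,0,0,1,0,0],[0,2,0,1,0,0],[1,2,0,1,0,0],[2,2,0,1,0,0],[0,0,1,1,0,0],[2,0,1,1,0,0],[0,1,1,1,0,0],[2,1,1,1,0,0],[0,2,1,1,0,0],[1,2,1,1,0,0],[2,2,1,1,0,0],[0,0,2,1,0,0],[1,0,2,1,0,0],[0,1,2,1,0,0],[1,1,2,1,0,0],[0,2,2,1,0,0],[1,2,2,1,0,0],[2,2,2,1,0,0],[1,0,0,2,0,0],[2,0,0,2,0,0],[0,1,0,2,0,0],[1,1,0,2,0,0],[2,1,0,2,0,0],[2,0,1,2,0,0],[0,1,1,2,0,0],[1,1,1,2,0,0],[2,1,1,2,0,0],[1,2,1,2,0,0],[2,2,1,2,0,0],[0,0,2,2,0,0],[1,0,2,2,0,0],[0,1,2,2,0,0],[1,1,2,2,0,0],[2,1,2,2,0,0],[0,2,2,2,0,0],[1,2,2,2,0,0],[1,1,0,0,1,0],[2,1,0,0,1,0],[0,2,0,0,1,0],[2,2,0,0,1,0],[0,0,2,0,1,0],[1,0,2,0,1,0],[0,1,2,0,1,0]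,[1,1,2,0,1,0],[2,1,2,0,1,0],[0,2,2,0,1,0],[1,2,2,0,1,0],[1,0,0,1,1,0],[0,2,0,1,1,0],[1,2,0,1,1,0],[2,2,0,1,1,0],[2,0,1,1,1,0],[0,2,1,1,1,0],[1,2,1,1,1,0],[0,0,2,1,1,0],[1,0,2,1,1,0],[1,1,2,1,1,0],[2,1,2,1,1,0],[1,2,2,1,1,0],[1,0,0,2,1,0],[2,0,0,2,1,0],[0,1,0,2,1,0],[1,1,0,2,1,0],[2,0,1,2,1,0],[0,1,1,2,1,0],[1,1,1,2,1,0],[0,0,2,2,1,0],[1,0,2,2,1,0],[0,1,2,2,1,0],[1,1,2,2,1,0],[2,1,2,2,1,0],[1,2,2,2,1,0],[0,1,0,0,2,0],[1,1,0,0,2,0],[2,1,0,0,2,0],[1,2,0,0,2,0],[0,0,1,0,2,0],[2,0,1,0,2,0],[2,1,1,0,2,0],[0,2,1,0,2,0],[1,2,1,0,2,0],[2,2,1,0,2,0],[1,0,0,1,2,0],[0,2,0,1,2,0],[1,2,0,1,2,0],[2,2,0,1,2,0],[0,0,1,1,2,0],[2,1,1,1,2,0],[0,2,1,1,2,0],[2,2,1,1,2,0],[1,1,2,1,2,0],[2,1,2,1,2,0],[2,2,2,1,2,0],[2,0,0,2,2,0],[0,1,0,2,2,0],[2,1,0,2,2,0],[0,0,1,2,2,0],[0,1,1,2,2,0],[1,1,1,2,2,0],[2,1,1,2,2,0],[1,2,1,2,2,0],[2,2,1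,2,2,0],[1,0,2,2,2,0],[0,1,2,2,2,0],[1,1,2,2,2,0],[2,1,2,2,2,0],[0,1,1,0,0,1],[1,1,1,0,0,1],[0,2,1,0,0,1],[0,0,2,0,0,1],[1,0,2,0,0,1],[2,2,2,0,0,1],[1,0,0,2,0,1],[0,1,0,2,0,1],[1,1,0,2,0,1],[2,1,0,2,0,1],[0,0,1,2,0,1],[2,0,1,2,0,1],[0,1,1,2,0,1],[2,1,1,2,0,1],[2,2,1,2,0,1],[0,0,2,2,0,1],[1,0,2,2,0,1],[2,1,2,2,0,1],[0,2,2,2,0,1],[1,2,2,2,0,1],[2,1,0,0,1,1],[0,2,0,0,1,1],[2,2,0,0,1,1],[0,0,2,0,1,1],[0,1,2,0,1,1],[1,1,2,0,1,1],[0,2,2,0,1,1],[2,2,2,0,1,1],[2,2,0,1,1,1],[1,0,2,1,1,1],[1,1,2,1,1,1],[2,1,2,1,1,1],[1,2,2,1,1,1],[1,0,0,2,1,1],[0,1,0,2,1,1],[1,1,0,2,1,1],[2,0,1,2,1,1],[1,1,1,2,1,1],[1,2,1,2,1,1],[2,2,1,2,1,1],[0,1,2,2,1,1],[2,1,2,2,1,1],[1,2,2,2,1,1],[1,1,0,0,2,1],[2,1,0,0,2,1],[0,0,1,0,2,1],[2,0,1,0,2,1],[1,1,1,0,2,1],[0,2,0,1,2,1],[1,2,0,1,2,1],[2,2,0,1,2,1],[0,0,1,1,2,1],[2,0,1,1,2,1],[2,1,1,1,2,1]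,[0,2,1,1,2,1],[1,2,1,1,2,1],[2,2,1,1,2,1],[0,1,2,1,2,1],[1,1,2,1,2,1],[2,1,2,1,2,1],[0,2,2,1,2,1],[2,2,2,1,2,1],[0,1,0,2,2,1],[1,1,0,2,2,1],[0,0,1,2,2,1],[0,1,1,2,2,1],[1,1,1,2,2,1],[1,1,2,2,2,1],[2,1,2,2,2,1],[2,0,1,0,0,2],[1,1,1,0,0,2],[0,2,1,0,0,2],[2,2,1,0,0,2],[0,1,2,0,0,2],[1,1,2,0,0,2],[2,1,2,0,0,2],[2,0,0,1,0,2],[0,2,0,1,0,2],[2,1,1,1,0,2],[2,2,1,1,0,2],[0,0,2,1,0,2],[1,0,2,1,0,2],[0,1,2,1,0,2],[0,2,2,1,0,2],[1,2,2,1,0,2],[2,2,2,1,0,2],[1,1,0,0,1,2],[0,0,2,0,1,2],[1,1,2,0,1,2],[0,2,0,1,1,2],[0,2,1,1,1,2],[2,2,1,1,1,2],[1,0,2,1,1,2],[1,1,2,1,1,2],[2,2,2,1,1,2],[0,1,1,2,1,2],[1,1,1,2,1,2],[1,2,1,2,1,2],[2,2,1,2,1,2],[2,1,2,2,1,2],[1,1,0,0,2,2],[1,2,0,0,2,2],[2,0,1,0,2,2],[1,1,1,0,2,2],[2,1,1,0,2,2],[1,2,1,0,2,2],[1,0,0,1,2,2],[0,0,1,1,2,2],[2,1,1,1,2,2],[0,2,1,1,2,2],[0,1,2,1,2,2],[1,1,2,1,2,2],[2,1,2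,1,2,2],[1,2,2,1,2,2],[2,2,2,1,2,2],[1,1,0,2,2,2],[2,1,0,2,2,2],[0,0,1,2,2,2],[2,1,1,2,2,2],[1,2,1,2,2,2],[1,1,0,0,1,0,0],[2,1,0,0,1,0,0],[0,2,0,0,1,0,0],[2,2,0,0,1,0,0],[1,0,2,0,1,0,0],[1,1,2,0,1,0,0],[2,1,2,0,1,0,0],[0,2,2,0,1,0,0],[1,0,0,1,1,0,0],[1,2,0,1,1,0,0],[2,0,1,1,1,0,0],[0,2,1,1,1,0,0],[1,2,1,1,1,0,0],[1,0,2,1,1,0,0],[1,0,0,2,1,0,0],[2,0,0,2,1,0,0],[1,1,0,2,1,0,0],[2,0,1,2,1,0,0],[1,1,1,2,1,0,0],[1,0,2,2,1,0,0],[2,1,2,2,1,0,0],[1,2,2,2,1,0,0],[0,1,0,0,2,0,0],[2,1,0,0,2,0,0],[2,0,1,0,2,0,0],[2,1,1,0,2,0,0],[1,2,1,0,2,0,0],[2,2,1,0,2,0,0],[0,2,0,1,2,0,0],[1,2,0,1,2,0,0],[2,2,0,1,2,0,0],[0,0,1,1,2,0,0],[0,2,1,1,2,0,0],[1,1,2,1,2,0,0],[2,1,2,1,2,0,0],[2,2,2,1,2,0,0],[2,0,0,2,2,0,0],[0,1,0,2,2,0,0],[2,1,0,2,2,0,0],[0,0,1,2,2,0,0],[0,1,1,2,2,0,0],[2,1,1,2,2,0,0],[1,0,2,2,2,0,0],[0,1,2,2,2,0,0],[2,1,2,2,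2,0,0],[0,1,1,0,0,1,0],[1,1,1,0,0,1,0],[0,0,2,0,0,1,0],[1,0,2,0,0,1,0],[1,0,0,2,0,1,0],[0,1,0,2,0,1,0],[1,1,0,2,0,1,0],[2,1,0,2,0,1,0],[0,0,1,2,0,1,0],[2,0,1,2,0,1,0],[0,1,1,2,0,1,0],[1,0,2,2,0,1,0],[2,1,0,0,1,1,0],[0,0,2,0,1,1,0],[0,1,2,0,1,1,0],[1,1,2,0,1,1,0],[2,2,2,0,1,1,0],[1,0,2,1,1,1,0],[1,1,2,1,1,1,0],[2,1,2,1,1,1,0],[1,0,0,2,1,1,0],[1,2,1,2,1,1,0],[2,2,1,2,1,1,0],[1,1,0,0,2,1,0],[2,1,0,0,2,1,0],[2,0,1,0,2,1,0],[1,1,1,0,2,1,0],[0,2,0,1,2,1,0],[1,2,0,1,2,1,0],[0,0,1,1,2,1,0],[2,0,1,1,2,1,0],[0,1,0,2,2,1,0],[1,1,0,2,2,1,0],[0,0,1,2,2,1,0],[0,1,1,2,2,1,0],[1,1,1,2,2,1,0],[2,0,1,0,0,2,0],[1,1,1,0,0,2,0],[0,2,1,0,0,2,0],[2,2,1,0,0,2,0],[0,1,2,0,0,2,0],[0,2,0,1,0,2,0],[2,2,2,1,0,2,0],[1,1,0,0,1,2,0],[1,1,2,0,1,2,0],[0,2,1,1,1,2,0],[2,2,1,1,1,2,0],[1,0,2,1,1,2,0],[2,2,2,1,1,2,0],[1,2,1,2,1,2,0],[1,2,0,0,2,2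,0],[1,2,1,0,2,2,0],[1,0,0,1,2,2,0],[0,0,1,1,2,2,0],[2,1,1,1,2,2,0],[0,2,1,1,2,2,0],[1,1,2,1,2,2,0],[2,1,2,1,2,2,0],[1,2,2,1,2,2,0],[2,2,2,1,2,2,0],[2,1,0,2,2,2,0],[0,0,1,2,2,2,0],[2,1,1,2,2,2,0],[1,2,1,2,2,2,0],[0,0,1,1,0,0,1],[0,1,1,1,0,0,1],[0,0,2,1,0,0,1],[1,0,0,2,0,0,1],[0,2,2,2,0,0,1],[2,1,0,0,2,0,1],[0,0,1,0,2,0,1],[0,2,1,0,2,0,1],[2,2,1,0,2,0,1],[0,2,0,1,2,0,1],[2,2,1,1,2,0,1],[2,2,2,1,2,0,1],[2,0,0,2,2,0,1],[1,2,1,2,2,0,1],[1,0,2,2,2,0,1],[1,1,2,2,2,0,1],[0,2,1,0,0,1,1],[1,0,2,2,0,1,1],[1,2,2,2,0,1,1],[0,1,0,2,1,1,1],[1,1,1,2,1,1,1],[0,1,2,2,1,1,1],[2,1,2,2,1,1,1],[2,1,0,0,2,1,1],[0,0,1,0,2,1,1],[2,0,1,0,2,1,1],[1,2,0,1,2,1,1],[1,1,2,1,2,1,1],[0,2,2,1,2,1,1],[2,1,2,2,2,1,1],[0,2,1,0,0,2,1],[0,2,0,1,0,2,1],[2,1,1,1,0,2,1],[0,1,1,2,1,2,1],[1,1,1,2,1,2,1],[0,0,1,1,2,2,1],[1,2,1,2,2,2,1],[0,2,0,1,0,0,2]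,[2,1,1,1,0,0,2],[0,1,1,2,0,0,2],[1,1,1,2,0,0,2],[1,2,1,2,0,0,2],[2,2,1,2,0,0,2],[0,0,2,0,1,0,2],[1,0,2,0,1,0,2],[1,1,0,2,1,0,2],[0,0,2,2,1,0,2],[0,1,2,2,1,0,2],[0,1,1,0,0,1,2],[2,1,1,2,0,1,2],[2,0,1,1,2,1,2],[0,1,2,1,2,1,2],[1,1,2,0,0,2,2],[2,1,2,0,0,2,2],[1,1,0,0,1,2,2],[2,2,1,2,1,2,2],[1,1,1,0,2,2,2],[1,0,0,1,2,2,2],[2,1,2,1,2,2,2],[0,1,1,0,0,1,0,0],[1,1,1,0,0,1,0,0],[0,1,0,2,0,1,0,0],[2,1,0,0,1,1,0,0],[0,1,2,0,1,1,0,0],[1,1,2,1,1,1,0,0],[1,1,0,0,2,1,0,0],[2,1,0,0,2,1,0,0],[1,2,0,1,2,1,0,0],[0,2,1,0,0,2,0,0],[2,1,0,2,2,2,0,0],[0,0,1,1,0,0,1,0],[0,1,1,1,0,0,1,0],[2,1,0,0,2,0,1,0],[0,2,1,0,0,1,1,0],[0,1,0,2,1,1,1,0],[0,2,2,1,2,1,1,0],[0,2,1,0,0,2,1,0],[2,1,1,1,0,0,2,0],[0,0,2,0,1,0,2,0],[1,0,0,2,1,0,0,1],[0,1,0,0,2,0,0,1],[1,2,0,0,2,2,0,1],[2,1,2,1,2,2,0,1],[1,2,1,2,2,2,1,1],[2,0,1,1,2,1,2,1],[2,1,2,1,2,2,2,1]])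 (dat := [[(1,[]),(4,[]),(7,[]),(10,[]),(0,[]),(15,[]),(18,[]),(21,[]),(23,[]),(26,[]),(29,[]),(31,[]),(34,[]),(37,[]),(40,[]),(43,[]),(45,[]),(48,[]),(51,[]),(53,[]),(56,[]),(2,[]),(61,[]),(64,[]),(66,[]),(68,[]),(71,[]),(73,[]),(76,[]),(3,[]),(81,[]),(84,[]),(86,[]),(49,[]),(91,[]),(93,[]),(96,[]),(98,[]),(100,[]),(103,[]),(106,[]),(108,[]),(111,[]),(5,[]),(116,[]),(119,[]),(121,[]),(123,[]),(126,[]),(128,[]),(130,[]),(6,[]),(135,[]),(138,[]),(140,[]),(104,[]),(145,[]),(147,[]),(150,[]),(101,[]),(154,[]),(156,[]),(158,[]),(161,[]),(8,[]),(166,[]),(114,[]),(170,[]),(173,[]),(175,[]),(125,[]),(9,[]),(182,[]),(110,[]),(185,[]),(41,[]),(190,[]),(192,[]),(122,[]),(196,[]),(113,[]),(200,[]),(146,[]),(204,[]),(11,[]),(208,[]),(211,[]),(159,[]),(214,[]),(217,[]),(220,[]),(12,[]),(225,[]),(228,[]),(229,[]),(205,[])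,(134,[]),(235,[]),(13,[]),(240,[]),(243,[]),(245,[]),(247,[]),(250,[]),(252,[]),(254,[]),(14,[]),(259,[]),(75,[]),(263,[]),(27,[]),(268,[]),(270,[]),(273,[]),(24,[]),(277,[]),(279,[]),(281,[]),(284,[]),(16,[]),(287,[]),(238,[]),(291,[]),(293,[]),(162,[]),(249,[]),(17,[]),(300,[]),(33,[]),(303,[]),(305,[]),(307,[]),(246,[]),(311,[]),(36,[]),(315,[]),(269,[]),(318,[]),(19,[]),(322,[]),(325,[]),(282,[]),(327,[]),(168,[]),(212,[]),(20,[]),(333,[]),(335,[]),(336,[]),(319,[]),(258,[]),(342,[]),(345,[]),(347,[]),(348,[]),(207,[]),(22,[]),(352,[]),(355,[]),(357,[]),(302,[]),(360,[]),(221,[]),(363,[]),(346,[]),(366,[]),(368,[]),(369,[]),(371,[]),(231,[]),(256,[]),(326,[]),(105,[]),(25,[]),(379,[]),(340,[]),(267,[]),(149,[]),(385,[]),(102,[]),(313,[]),(350,[]),(390,[]),(361,[]),(393,[]),(396,[]),(370,[]),(399,[]),(40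2,[]),(405,[]),(28,[]),(407,[]),(409,[]),(410,[]),(218,[]),(331,[]),(323,[]),(139,[]),(416,[]),(418,[]),(30,[]),(422,[]),(337,[]),(301,[]),(425,[]),(427,[]),(428,[]),(415,[]),(432,[]),(257,[]),(288,[]),(32,[]),(434,[]),(435,[]),(382,[]),(176,[]),(424,[]),(420,[]),(440,[]),(199,[]),(295,[]),(124,[]),(423,[]),(395,[]),(365,[]),(260,[]),(107,[]),(306,[]),(35,[]),(452,[]),(433,[]),(454,[]),(455,[]),(248,[]),(178,[]),(462,[]),(341,[]),(450,[]),(46,[]),(467,[]),(445,[]),(223,[]),(472,[]),(38,[]),(438,[]),(59,[]),(476,[]),(179,[]),(285,[]),(70,[]),(39,[]),(443,[]),(55,[]),(189,[]),(172,[]),(412,[]),(67,[]),(487,[]),(58,[]),(226,[]),(92,[]),(373,[]),(493,[]),(496,[]),(470,[]),(497,[]),(289,[]),(215,[]),(42,[]),(502,[]),(504,[]),(505,[]),(491,[]),(80,[]),(508,[]),(510,[]),(449,[]),(512,[]),(321,[]),(44,[]),(515,[]),(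518,[]),(520,[]),(482,[]),(458,[]),(233,[]),(511,[]),(523,[]),(524,[]),(367,[]),(338,[]),(78,[]),(377,[]),(47,[]),(430,[]),(90,[]),(272,[]),(236,[]),(488,[]),(408,[]),(372,[]),(521,[]),(537,[]),(539,[]),(525,[]),(50,[]),(541,[]),(543,[]),(544,[]),(329,[]),(500,[]),(494,[]),(262,[]),(548,[]),(550,[]),(52,[]),(551,[]),(481,[]),(383,[]),(177,[]),(374,[]),(547,[]),(197,[]),(79,[]),(474,[]),(54,[]),(555,[]),(453,[]),(230,[]),(437,[]),(314,[]),(439,[]),(522,[]),(82,[]),(484,[]),(57,[]),(563,[]),(554,[]),(565,[]),(429,[]),(69,[]),(297,[]),(571,[]),(507,[]),(561,[]),(574,[]),(575,[]),(576,[]),(60,[]),(299,[]),(578,[]),(540,[]),(580,[]),(431,[]),(581,[]),(62,[]),(583,[]),(87,[]),(463,[]),(397,[]),(63,[]),(490,[]),(546,[]),(573,[]),(344,[]),(590,[]),(499,[]),(266,[]),(65,[]),(495,[]),(572,[]),(143,[]),(127,[]),(531,[]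),(593,[]),(569,[]),(362,[]),(595,[]),(579,[]),(598,[]),(591,[]),(414,[]),(88,[]),(137,[]),(602,[]),(234,[]),(403,[]),(585,[]),(356,[]),(604,[]),(72,[]),(605,[]),(530,[]),(471,[]),(577,[]),(241,[]),(74,[]),(451,[]),(343,[]),(594,[]),(375,[]),(447,[]),(468,[]),(607,[]),(239,[]),(253,[]),(606,[]),(503,[]),(349,[]),(77,[]),(609,[]),(509,[]),(588,[]),(216,[]),(611,[]),(155,[]),(479,[]),(570,[]),(219,[]),(613,[]),(89,[]),(586,[]),(617,[]),(486,[]),(413,[]),(83,[]),(283,[]),(95,[]),(620,[]),(621,[]),(612,[]),(622,[]),(85,[]),(328,[]),(144,[]),(477,[]),(417,[]),(309,[]),(616,[]),(195,[]),(194,[]),(475,[]),(625,[]),(526,[]),(456,[]),(99,[]),(597,[]),(603,[]),(264,[]),(619,[]),(545,[]),(359,[]),(94,[]),(142,[]),(169,[]),(627,[]),(528,[]),(446,[]),(118,[]),(566,[]),(274,[]),(596,[]),(97,[]),(483,[]),(308,[]),(633,[]),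(421,[]),(404,[]),(188,[]),(635,[]),(448,[]),(184,[]),(568,[]),(634,[]),(637,[]),(506,[]),(132,[]),(213,[]),(552,[]),(198,[]),(542,[]),(623,[]),(426,[]),(358,[]),(589,[]),(498,[]),(222,[]),(209,[]),(642,[]),(599,[]),(183,[]),(296,[]),(527,[]),(312,[]),(133,[]),(167,[]),(109,[]),(564,[]),(557,[]),(165,[]),(558,[]),(636,[]),(136,[]),(191,[]),(112,[]),(610,[]),(441,[]),(398,[]),(460,[]),(584,[]),(644,[]),(645,[]),(115,[]),(480,[]),(406,[]),(582,[]),(553,[]),(354,[]),(117,[]),(615,[]),(141,[]),(203,[]),(647,[]),(120,[]),(210,[]),(592,[]),(251,[]),(648,[]),(444,[]),(419,[]),(646,[]),(261,[]),(649,[]),(519,[]),(650,[]),(391,[]),(387,[]),(160,[]),(384,[]),(129,[]),(562,[]),(227,[]),(513,[]),(131,[]),(464,[]),(237,[]),(376,[]),(278,[]),(180,[]),(643,[]),(330,[]),(652,[]),(651,[]),(626,[]),(202,[]),(171,[]),(549,[]),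(485,[]),(310,[]),(630,[]),(628,[]),(364,[]),(351,[]),(148,[]),(265,[]),(290,[]),(638,[]),(560,[]),(242,[]),(400,[]),(436,[]),(151,[]),(186,[]),(163,[]),(152,[]),(164,[]),(153,[]),(654,[]),(181,[]),(629,[]),(157,[]),(517,[]),(280,[]),(388,[]),(411,[]),(536,[]),(466,[]),(442,[]),(255,[]),(334,[]),(224,[]),(639,[]),(304,[]),(320,[]),(187,[]),(292,[]),(601,[]),(457,[]),(174,[]),(632,[]),(624,[]),(461,[]),(538,[]),(401,[]),(653,[]),(535,[]),(514,[]),(386,[]),(469,[]),(193,[]),(271,[]),(381,[]),(294,[]),(529,[]),(559,[]),(533,[]),(244,[]),(201,[]),(473,[]),(276,[]),(206,[]),(339,[]),(353,[]),(317,[]),(631,[]),(587,[]),(516,[]),(232,[]),(567,[]),(378,[]),(614,[]),(600,[]),(489,[]),(659,[]),(618,[]),(608,[]),(657,[]),(324,[]),(459,[]),(380,[]),(656,[]),(532,[]),(298,[]),(556,[]),(275,[]),(286,[]),(392,[]),(332,[]),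(492,[]),(641,[]),(658,[]),(478,[]),(316,[]),(389,[]),(394,[]),(640,[]),(655,[]),(501,[]),(534,[]),(465,[])],[(2,[]),(5,[]),(8,[]),(11,[]),(13,[]),(16,[]),(19,[]),(4,[]),(24,[]),(27,[]),(30,[]),(32,[]),(35,[]),(38,[]),(41,[]),(0,[]),(46,[]),(49,[]),(52,[]),(54,[]),(57,[]),(59,[]),(62,[]),(21,[]),(15,[]),(69,[]),(72,[]),(74,[]),(77,[]),(79,[]),(82,[]),(29,[]),(87,[]),(89,[]),(92,[]),(94,[]),(97,[]),(1,[]),(101,[]),(104,[]),(107,[]),(109,[]),(112,[]),(114,[]),(117,[]),(43,[]),(37,[]),(124,[]),(127,[]),(129,[]),(131,[]),(133,[]),(136,[]),(51,[]),(141,[]),(143,[]),(146,[]),(148,[]),(151,[]),(152,[]),(149,[]),(157,[]),(159,[]),(162,[]),(164,[]),(167,[]),(64,[]),(171,[]),(174,[]),(176,[]),(178,[]),(180,[]),(183,[]),(71,[]),(186,[]),(188,[]),(191,[]),(193,[]),(195,[]),(197,[]),(199,[]),(3,[]),(202,[]),(205,[]),(207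,[]),(209,[]),(84,[]),(81,[]),(215,[]),(218,[]),(221,[]),(223,[]),(226,[]),(91,[]),(230,[]),(232,[]),(234,[]),(236,[]),(238,[]),(241,[]),(98,[]),(7,[]),(248,[]),(251,[]),(253,[]),(255,[]),(257,[]),(260,[]),(106,[]),(264,[]),(266,[]),(269,[]),(271,[]),(274,[]),(275,[]),(272,[]),(280,[]),(282,[]),(285,[]),(286,[]),(288,[]),(119,[]),(292,[]),(294,[]),(295,[]),(297,[]),(298,[]),(301,[]),(126,[]),(304,[]),(306,[]),(308,[]),(310,[]),(312,[]),(314,[]),(6,[]),(216,[]),(319,[]),(321,[]),(323,[]),(138,[]),(135,[]),(220,[]),(329,[]),(233,[]),(158,[]),(200,[]),(145,[]),(337,[]),(339,[]),(341,[]),(343,[]),(346,[]),(302,[]),(349,[]),(322,[]),(351,[]),(353,[]),(156,[]),(211,[]),(261,[]),(361,[]),(293,[]),(364,[]),(316,[]),(362,[]),(290,[]),(370,[]),(252,[]),(309,[]),(374,[]),(375,[]),(377,[]),(378,[]),(380,[]),(173,[]),(38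2,[]),(383,[]),(36,[]),(387,[]),(388,[]),(239,[]),(9,[]),(392,[]),(394,[]),(110,[]),(182,[]),(400,[]),(403,[]),(55,[]),(213,[]),(408,[]),(190,[]),(411,[]),(265,[]),(412,[]),(10,[]),(415,[]),(103,[]),(419,[]),(357,[]),(345,[]),(196,[]),(118,[]),(426,[]),(404,[]),(429,[]),(431,[]),(332,[]),(433,[]),(284,[]),(352,[]),(287,[]),(132,[]),(437,[]),(438,[]),(311,[]),(128,[]),(441,[]),(442,[]),(166,[]),(360,[]),(170,[]),(445,[]),(446,[]),(12,[]),(448,[]),(450,[]),(451,[]),(228,[]),(225,[]),(244,[]),(456,[]),(458,[]),(460,[]),(134,[]),(70,[]),(464,[]),(465,[]),(95,[]),(469,[]),(470,[]),(175,[]),(473,[]),(474,[]),(243,[]),(477,[]),(478,[]),(434,[]),(398,[]),(479,[]),(481,[]),(250,[]),(483,[]),(484,[]),(163,[]),(486,[]),(432,[]),(165,[]),(14,[]),(328,[]),(491,[]),(494,[]),(75,[]),(259,[]),(212,[]),(498,[]),(340,[]),(281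,[]),(315,[]),(268,[]),(424,[]),(187,[]),(507,[]),(385,[]),(511,[]),(482,[]),(513,[]),(493,[]),(514,[]),(516,[]),(279,[]),(325,[]),(83,[]),(521,[]),(179,[]),(489,[]),(475,[]),(525,[]),(73,[]),(485,[]),(527,[]),(528,[]),(530,[]),(356,[]),(453,[]),(531,[]),(58,[]),(533,[]),(60,[]),(17,[]),(536,[]),(538,[]),(33,[]),(300,[]),(326,[]),(542,[]),(305,[]),(545,[]),(88,[]),(192,[]),(18,[]),(547,[]),(26,[]),(381,[]),(520,[]),(510,[]),(242,[]),(393,[]),(348,[]),(399,[]),(553,[]),(501,[]),(554,[]),(472,[]),(515,[]),(256,[]),(557,[]),(487,[]),(454,[]),(559,[]),(291,[]),(560,[]),(20,[]),(561,[]),(562,[]),(335,[]),(333,[]),(65,[]),(566,[]),(568,[]),(462,[]),(258,[]),(125,[]),(573,[]),(245,[]),(23,[]),(544,[]),(577,[]),(503,[]),(444,[]),(147,[]),(22,[]),(401,[]),(546,[]),(56,[]),(548,[]),(355,[]),(405,[]),(93,[]),(369,[]),(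390,[]),(587,[]),(588,[]),(589,[]),(262,[]),(150,[]),(583,[]),(90,[]),(368,[]),(396,[]),(591,[]),(592,[]),(537,[]),(436,[]),(594,[]),(517,[]),(78,[]),(317,[]),(25,[]),(416,[]),(600,[]),(379,[]),(601,[]),(160,[]),(249,[]),(567,[]),(203,[]),(289,[]),(347,[]),(572,[]),(551,[]),(313,[]),(586,[]),(509,[]),(34,[]),(338,[]),(240,[]),(113,[]),(296,[]),(480,[]),(540,[]),(108,[]),(608,[]),(532,[]),(231,[]),(116,[]),(28,[]),(459,[]),(558,[]),(409,[]),(407,[]),(172,[]),(610,[]),(330,[]),(31,[]),(579,[]),(320,[]),(273,[]),(614,[]),(615,[]),(410,[]),(618,[]),(389,[]),(502,[]),(549,[]),(619,[]),(425,[]),(596,[]),(177,[]),(47,[]),(580,[]),(402,[]),(452,[]),(564,[]),(76,[]),(604,[]),(371,[]),(169,[]),(534,[]),(420,[]),(303,[]),(376,[]),(39,[]),(595,[]),(359,[]),(626,[]),(622,[]),(395,[]),(363,[]),(602,[]),(628,[]),(522,[]),(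430,[]),(189,[]),(427,[]),(181,[]),(406,[]),(524,[]),(435,[]),(630,[]),(318,[]),(631,[]),(324,[]),(153,[]),(634,[]),(184,[]),(578,[]),(208,[]),(386,[]),(496,[]),(137,[]),(623,[]),(201,[]),(358,[]),(194,[]),(428,[]),(638,[]),(519,[]),(639,[]),(115,[]),(629,[]),(641,[]),(443,[]),(350,[]),(142,[]),(307,[]),(40,[]),(48,[]),(633,[]),(63,[]),(512,[]),(455,[]),(224,[]),(413,[]),(161,[]),(635,[]),(440,[]),(565,[]),(624,[]),(476,[]),(447,[]),(42,[]),(584,[]),(606,[]),(504,[]),(120,[]),(571,[]),(80,[]),(609,[]),(66,[]),(45,[]),(384,[]),(227,[]),(270,[]),(44,[]),(457,[]),(613,[]),(111,[]),(642,[]),(518,[]),(372,[]),(85,[]),(144,[]),(523,[]),(539,[]),(463,[]),(556,[]),(627,[]),(581,[]),(490,[]),(417,[]),(283,[]),(217,[]),(449,[]),(599,[]),(488,[]),(576,[]),(237,[]),(506,[]),(61,[]),(50,[]),(569,[]),(423,[]),(543,[]),(54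1,[]),(499,[]),(53,[]),(646,[]),(492,[]),(96,[]),(575,[]),(102,[]),(582,[]),(563,[]),(130,[]),(650,[]),(367,[]),(640,[]),(529,[]),(607,[]),(649,[]),(603,[]),(636,[]),(552,[]),(185,[]),(299,[]),(397,[]),(637,[]),(555,[]),(373,[]),(625,[]),(495,[]),(276,[]),(617,[]),(574,[]),(653,[]),(471,[]),(334,[]),(68,[]),(86,[]),(414,[]),(140,[]),(612,[]),(654,[]),(247,[]),(655,[]),(342,[]),(439,[]),(105,[]),(505,[]),(598,[]),(210,[]),(67,[]),(593,[]),(254,[]),(656,[]),(590,[]),(214,[]),(645,[]),(235,[]),(206,[]),(277,[]),(657,[]),(222,[]),(422,[]),(597,[]),(468,[]),(263,[]),(466,[]),(365,[]),(354,[]),(327,[]),(219,[]),(508,[]),(651,[]),(267,[]),(391,[]),(659,[]),(658,[]),(246,[]),(620,[]),(155,[]),(526,[]),(611,[]),(418,[]),(278,[]),(648,[]),(647,[]),(198,[]),(550,[]),(366,[]),(605,[]),(121,[]),(100,[]),(99,[]),(139,[]),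(616,[]),(621,[]),(168,[]),(421,[]),(344,[]),(585,[]),(204,[]),(652,[]),(644,[]),(123,[]),(229,[]),(122,[]),(467,[]),(331,[]),(497,[]),(535,[]),(570,[]),(154,[]),(461,[]),(500,[]),(336,[]),(643,[]),(632,[])],[(3,[]),(6,[]),(9,[]),(12,[]),(14,[]),(17,[]),(20,[]),(22,[]),(25,[]),(28,[]),(4,[]),(33,[]),(36,[]),(39,[]),(42,[]),(44,[]),(47,[]),(50,[]),(0,[]),(55,[]),(58,[]),(60,[]),(63,[]),(65,[]),(67,[]),(70,[]),(21,[]),(75,[]),(78,[]),(80,[]),(83,[]),(85,[]),(88,[]),(90,[]),(29,[]),(95,[]),(18,[]),(99,[]),(102,[]),(105,[]),(1,[]),(110,[]),(113,[]),(115,[]),(118,[]),(120,[]),(122,[]),(125,[]),(43,[]),(84,[]),(132,[]),(134,[]),(137,[]),(139,[]),(142,[]),(144,[]),(51,[]),(149,[]),(40,[]),(153,[]),(155,[]),(2,[]),(160,[]),(163,[]),(165,[]),(168,[]),(169,[]),(172,[]),(64,[]),(177,[]),(179,[]),(181,[]),(89,[]),(184,[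]),(187,[]),(189,[]),(71,[]),(194,[]),(61,[]),(198,[]),(164,[]),(201,[]),(203,[]),(206,[]),(185,[]),(210,[]),(212,[]),(213,[]),(216,[]),(219,[]),(222,[]),(224,[]),(227,[]),(151,[]),(231,[]),(233,[]),(91,[]),(237,[]),(239,[]),(242,[]),(244,[]),(246,[]),(249,[]),(98,[]),(138,[]),(256,[]),(258,[]),(261,[]),(262,[]),(265,[]),(267,[]),(106,[]),(272,[]),(10,[]),(276,[]),(278,[]),(5,[]),(283,[]),(193,[]),(199,[]),(289,[]),(290,[]),(190,[]),(119,[]),(296,[]),(173,[]),(299,[]),(143,[]),(302,[]),(232,[]),(126,[]),(309,[]),(116,[]),(313,[]),(286,[]),(316,[]),(317,[]),(320,[]),(303,[]),(324,[]),(215,[]),(326,[]),(328,[]),(330,[]),(331,[]),(332,[]),(334,[]),(274,[]),(338,[]),(340,[]),(145,[]),(344,[]),(229,[]),(284,[]),(7,[]),(350,[]),(291,[]),(354,[]),(356,[]),(358,[]),(359,[]),(156,[]),(362,[]),(154,[]),(365,[]),(367,[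]),(8,[]),(312,[]),(372,[]),(373,[]),(114,[]),(376,[]),(94,[]),(287,[]),(188,[]),(381,[]),(54,[]),(384,[]),(386,[]),(166,[]),(389,[]),(275,[]),(391,[]),(225,[]),(395,[]),(397,[]),(398,[]),(401,[]),(404,[]),(406,[]),(148,[]),(136,[]),(364,[]),(277,[]),(93,[]),(413,[]),(414,[]),(195,[]),(417,[]),(420,[]),(421,[]),(363,[]),(423,[]),(424,[]),(200,[]),(228,[]),(430,[]),(348,[]),(11,[]),(394,[]),(399,[]),(281,[]),(252,[]),(436,[]),(211,[]),(73,[]),(439,[]),(390,[]),(409,[]),(443,[]),(128,[]),(444,[]),(208,[]),(380,[]),(352,[]),(447,[]),(449,[]),(388,[]),(440,[]),(254,[]),(453,[]),(24,[]),(457,[]),(459,[]),(461,[]),(112,[]),(463,[]),(255,[]),(466,[]),(468,[]),(13,[]),(471,[]),(308,[]),(314,[]),(217,[]),(475,[]),(305,[]),(243,[]),(427,[]),(293,[]),(480,[]),(266,[]),(482,[]),(339,[]),(250,[]),(485,[]),(240,[]),(488,[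]),(473,[]),(489,[]),(490,[]),(492,[]),(495,[]),(220,[]),(377,[]),(202,[]),(499,[]),(500,[]),(501,[]),(503,[]),(97,[]),(506,[]),(221,[]),(268,[]),(509,[]),(336,[]),(472,[]),(15,[]),(408,[]),(476,[]),(517,[]),(519,[]),(370,[]),(351,[]),(279,[]),(419,[]),(522,[]),(16,[]),(432,[]),(526,[]),(204,[]),(238,[]),(529,[]),(438,[]),(207,[]),(109,[]),(532,[]),(353,[]),(534,[]),(465,[]),(535,[]),(333,[]),(355,[]),(540,[]),(178,[]),(271,[]),(260,[]),(411,[]),(467,[]),(147,[]),(433,[]),(546,[]),(310,[]),(549,[]),(371,[]),(347,[]),(410,[]),(230,[]),(315,[]),(335,[]),(552,[]),(512,[]),(19,[]),(538,[]),(455,[]),(223,[]),(556,[]),(325,[]),(558,[]),(543,[]),(182,[]),(322,[]),(515,[]),(446,[]),(533,[]),(437,[]),(76,[]),(564,[]),(46,[]),(567,[]),(569,[]),(570,[]),(35,[]),(572,[]),(77,[]),(513,[]),(273,[]),(245,[]),(573,[]),(547,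[]),(26,[]),(579,[]),(511,[]),(307,[]),(582,[]),(263,[]),(541,[]),(400,[]),(584,[]),(585,[]),(586,[]),(288,[]),(555,[]),(360,[]),(304,[]),(34,[]),(23,[]),(523,[]),(247,[]),(481,[]),(450,[]),(368,[]),(366,[]),(226,[]),(383,[]),(159,[]),(133,[]),(596,[]),(597,[]),(599,[]),(407,[]),(435,[]),(484,[]),(441,[]),(196,[]),(592,[]),(192,[]),(603,[]),(387,[]),(553,[]),(550,[]),(127,[]),(606,[]),(27,[]),(600,[]),(140,[]),(31,[]),(537,[]),(516,[]),(396,[]),(175,[]),(536,[]),(598,[]),(234,[]),(464,[]),(108,[]),(393,[]),(327,[]),(48,[]),(607,[]),(458,[]),(483,[]),(545,[]),(521,[]),(69,[]),(612,[]),(323,[]),(477,[]),(45,[]),(595,[]),(616,[]),(121,[]),(30,[]),(295,[]),(382,[]),(565,[]),(104,[]),(577,[]),(425,[]),(405,[]),(422,[]),(341,[]),(486,[]),(623,[]),(32,[]),(357,[]),(236,[]),(442,[]),(38,[]),(434,[]),(624,[]),(610,[]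),(602,[]),(605,[]),(235,[]),(170,[]),(627,[]),(594,[]),(566,[]),(66,[]),(462,[]),(74,[]),(574,[]),(191,[]),(452,[]),(539,[]),(162,[]),(629,[]),(576,[]),(342,[]),(375,[]),(298,[]),(528,[]),(87,[]),(632,[]),(505,[]),(161,[]),(37,[]),(542,[]),(581,[]),(525,[]),(514,[]),(445,[]),(636,[]),(197,[]),(318,[]),(59,[]),(611,[]),(321,[]),(640,[]),(152,[]),(502,[]),(518,[]),(297,[]),(82,[]),(270,[]),(554,[]),(613,[]),(601,[]),(544,[]),(337,[]),(504,[]),(379,[]),(41,[]),(641,[]),(429,[]),(158,[]),(496,[]),(588,[]),(300,[]),(493,[]),(635,[]),(560,[]),(639,[]),(557,[]),(130,[]),(101,[]),(643,[]),(57,[]),(131,[]),(578,[]),(96,[]),(609,[]),(402,[]),(646,[]),(634,[]),(412,[]),(608,[]),(86,[]),(589,[]),(456,[]),(474,[]),(56,[]),(68,[]),(183,[]),(561,[]),(418,[]),(531,[]),(282,[]),(257,[]),(628,[]),(454,[]),(311,[]),(378,[]),(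403,[]),(251,[]),(451,[]),(49,[]),(587,[]),(53,[]),(426,[]),(497,[]),(103,[]),(622,[]),(568,[]),(186,[]),(124,[]),(651,[]),(494,[]),(171,[]),(100,[]),(52,[]),(551,[]),(507,[]),(361,[]),(520,[]),(343,[]),(559,[]),(176,[]),(649,[]),(621,[]),(571,[]),(129,[]),(644,[]),(306,[]),(563,[]),(285,[]),(392,[]),(619,[]),(508,[]),(479,[]),(638,[]),(141,[]),(617,[]),(527,[]),(469,[]),(135,[]),(487,[]),(415,[]),(615,[]),(590,[]),(580,[]),(647,[]),(62,[]),(460,[]),(583,[]),(81,[]),(656,[]),(626,[]),(214,[]),(575,[]),(241,[]),(264,[]),(633,[]),(524,[]),(448,[]),(385,[]),(146,[]),(648,[]),(107,[]),(650,[]),(292,[]),(319,[]),(92,[]),(548,[]),(72,[]),(253,[]),(658,[]),(657,[]),(652,[]),(659,[]),(79,[]),(620,[]),(248,[]),(604,[]),(117,[]),(123,[]),(294,[]),(280,[]),(259,[]),(510,[]),(369,[]),(655,[]),(167,[]),(654,[]),(329,[]),(653,[]),(637,[]),(269,[]),(562,[]),(498,[]),(218,[]),(174,[]),(349,[]),(150,[]),(346,[]),(111,[]),(301,[]),(470,[]),(530,[]),(431,[]),(614,[]),(209,[]),(180,[]),(428,[]),(157,[]),(591,[]),(645,[]),(345,[]),(491,[]),(642,[]),(593,[]),(478,[]),(630,[]),(205,[]),(625,[]),(416,[]),(618,[]),(631,[]),(374,[])]])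 (by decide +kernel)
      (P := fun y => y ^ 5 = 1 → (wp g [0] * y) ^ 2 = 1 → ∃ c : Matrix.ProjectiveSpecialLinearGroup (Fin 2) F, MulAut.conj c • Subgroup.closure {wp g [0], y} ≤ cl g [[0],[1]] ∨
        MulAut.conj c • Subgroup.closure {wp g [0], y} ≤ cl g [[0],[2]])
      (f := fun y => bor (neW 12 (lk Net.nil nb11) (lpow (lapp [0] y) 2) []) (bor (neW 12 (lk Net.nil nb11) (lpow y 5) [])
        (bor (prChk (eqChk 12 4 (lk Net.nil nb11) vT) [[0],[1]] [0] [([1],[],[0],[1]),([0,1,0,0],[],[0],[0,1,0,0]),([2,1,2,2,0],[2,2,2],[1,0,0,1,1],[0,0,1,1,0]),([0,0,2,0,1,0,2,0],[],[0],[0,0,1,1,0,0,1,1]),([0,0,1,0],[],[0],[0,0,1,0]),([0,1,2,2,1,0],[2,2,2],[1,0,0,1,1],[0,0,1,1]),([1,2,1,0,2],[2,2,2],[1,0,0,1,1],[0,1,1,1,0,0]),([0,0,1,2,2,1],[2,2,2],[1,0,0,1,1],[1,0,0,1]),([1,2,2,1,0,0],[2,2,2],[1,0,0,1,1],[1]),([2,0,1,0,2],[],[0],[1,1,0,0,1,1,0,0]),([2,1,2,1,1,0],[2,2,2],[1,0,0,1,1],[1,1,0,0,1,1,0,0]),([2,0,1,0,2,1,1],[],[0],[0,1,1,0,0,1,1,0])]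 y)
          (prChk (eqChk 12 4 (lk Net.nil nb11) vT) [[0],[2]] [0] [([2],[],[0],[1]),([1,0,2,0,1],[],[0],[0,0,1,1,0,0,1,1]),([0,2,2,1,2,1],[1,1],[1,1,0,0,1],[0,0,1,1,0,0,1,1]),([2,1,1,2,0,0],[1,1],[1,1,0,0,1],[1,0,0,1]),([0,1,1,2,1],[1,1],[1,1,0,0,1],[0,1,1,0,0]),([0,1,0,2,0,1,0,0],[],[0],[1,1,0,0,1,1,0,0]),([0,2,0,0],[],[0],[0,1,0,0]),([0,2,1,1,2,0],[1,1],[1,1,0,0,1],[1,1,0,0]),([1,1,1,2,1,1],[1,1],[1,1,0,0,1],[1]),([1,1,2,1,0],[1,1],[1,1,0,0,1],[1,0,0,1,0,0]),([2,2,1,0,2,0,1],[],[0],[0,1,1,0,0,1,1,0]),([0,0,2,0],[],[0],[0,0,1,0])] y))))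
      (fun y h a b => by
        simp only [bor_eq] at h
        rcases h with h | h | h | h
        · exact absurd (by rw [wp_lpow, wp_lapp, b]; rfl) (ne_of_neW mT h)
        · exact absurd (by rw [wp_lpow, a]; rfl) (ne_of_neW mT h)
        · exact (le_of_prChk he h).imp fun _ => Or.inl
        · exact (le_of_prChk he h).imp fun _ => Or.inr) (by decide +kernel) y (ht ▸ Subgroup.mem_top y) h2 h3
    obtain ⟨d, hd⟩ := key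
    have e : Subgroup.closure {c * wp g [0] * c⁻¹, c * y * c⁻¹} = MulAut.conj c • Subgroup.closure {wp g [0], y} := by
      rw [Subgroup.smul_closure]; simp [Set.smul_set_insert]
    rw [e] at hL ⊢
    have c1 : Nat.card ↥(MulAut.conj d • Subgroup.closure {wp g [0], y}) = 60 := by
      rw [← card_a5 hL.some, ← Nat.card_congr (Subgroup.equivSMul _ _).toEquiv, ← Nat.card_congr (Subgroup.equivSMul _ _).toEquiv]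
    refine ⟨d * c⁻¹, ?_⟩
    rw [smul_smul, ← map_mul, inv_mul_cancel_right]
    exact hd.imp (fun h => Subgroup.eq_of_le_of_card_ge h (by rw [c1, card_a5 eH.some]))
      fun h => Subgroup.eq_of_le_of_card_ge h (by rw [c1, card_a5 eK.some])

end Cfsg.Agent.St
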