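/- Quartets of a dodecad. -/
import Cfsg.Agent.GS.Mk4

set_option linter.unusedSectionVars false
set_option maxRecDepth 100000
namespace Cfsg.Agent.St
open Finset H6 MulAction
open scoped Pointwise

def wsQ : List (List ℕ) := [[0,0,0,0,2,1,3,2,0,0,2,1,1,4,2],[1,4,0,4,1,1,4,4,0,2,1,3,0,4,4,0],[3,1,1,4,0,3,0,0,0,0,0,4,4,0,3,3],[0,3,3,0,0,2,0,4,0,0,3,2,0,3,3,2],[1,4,4,1,4,0,0,0,3,0,4,4],[3,0,4,1,1,2,1,1,1,3,1,1,2,1,1],[1,1,2,0,3,3,1,3,0,0,0,0,0,3,1],[1,1,1,3,1,2,0,4,1,2,0,4,1,2,1,1],[2,0,0,0,4,1,1,4,2,0,0,3,1,4,0,4],[1,4,4,1,2,0,3,0,2,1,1,3,3,2,1,4],[0,4,0,3,1,1,4,1,3,3,1,2,0,0,3]]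
noncomputable def naQ : List Net := [(Net.cons (nat_lit 12) (nat_lit 1916)
  (Net.cons (nat_lit 6) (nat_lit 0x35017)
  (Net.cons (nat_lit 3) (nat_lit 0xc3000)
  (Net.cons (nat_lit 1) (nat_lit 0x48200)
  (Net.cons (nat_lit 1) (nat_lit 0x492410)
  (Net.cons (nat_lit 1) (nat_lit 0x40240)
  (Net.cons (nat_lit 3) (nat_lit 0x84084)
  (Net.cons (nat_lit 6) (nat_lit 98330)
  (Net.cons (nat_lit 12) (nat_lit 796)
  Net.nil))))))))),
 (Net.cons (nat_lit 12) (nat_lit 3666)
  (Net.cons (nat_lit 6) (nat_lit 98312)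
  (Net.cons (nat_lit 3) (nat_lit 0x851c4)
  (Net.cons (nat_lit 1) (nat_lit 520)
  (Net.cons (nat_lit 1) (nat_lit 0x412490)
  (Net.cons (nat_lit 1) (nat_lit 0x248200)
  (Net.cons (nat_lit 3) (nat_lit 262)
  (Net.cons (nat_lit 6) (nat_lit 41000)
  (Net.cons (nat_lit 12) (nat_lit 2180)
  Net.nil))))))))),
 (Net.cons (nat_lit 12) (nat_lit 692)
  (Net.cons (nat_lit 6) (nat_lit 77856)
  (Net.cons (nat_lit 3) (nat_lit 0x1c20c0)
  (Net.cons (nat_lit 1) (nat_lit 0x200040)
  (Net.cons (nat_lit 1) (nat_lit 0x410480)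
  (Net.cons (nat_lit 1) (nat_lit 0x208040)
  (Net.cons (nat_lit 3) (nat_lit 0x102000)
  (Net.cons (nat_lit 6) (nat_lit 73772)
  (Net.cons (nat_lit 12) (nat_lit 324)
  Net.nil))))))))),
 (Net.cons (nat_lit 12) (nat_lit 3668)
  (Net.cons (nat_lit 6) (nat_lit 0x2800c)
  (Net.cons (nat_lit 3) (nat_lit 0x183184)
  (Net.cons (nat_lit 1) (nat_lit 520)
  (Net.cons (nat_lit 1) (nat_lit 0x80490)
  (Net.cons (nat_lit 1) (nat_lit 0x200208)
  (Net.cons (nat_lit 3) (nat_lit 0x180184)
  (Net.cons (nat_lit 6) (nat_lit 0x28000)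
  (Net.cons (nat_lit 12) (nat_lit 3604)
  Net.nil))))))))),
 (Net.cons (nat_lit 12) (nat_lit 2064)
  (Net.cons (nat_lit 6) (nat_lit 8196)
  (Net.cons (nat_lit 3) (nat_lit 0x1430c4)
  (Net.cons (nat_lit 1) (nat_lit 0x40000)
  (Net.cons (nat_lit 1) (nat_lit 0x480010)
  (Net.cons (nat_lit 1) (nat_lit 0x209000)
  (Net.cons (nat_lit 3) (nat_lit 0x80004)
  (Net.cons (nat_lit 6) (nat_lit 8196)
  (Net.cons (nat_lit 12) (nat_lit 2064)
  Net.nil))))))))),
 (Net.cons (nat_lit 12) (nat_lit 3310)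
  (Net.cons (nat_lit 6) (nat_lit 65593)
  (Net.cons (nat_lit 3) (nat_lit 0x180004)
  (Net.cons (nat_lit 1) (nat_lit 0x240200)
  (Net.cons (nat_lit 1) (nat_lit 0x482490)
  (Net.cons (nat_lit 1) (nat_lit 32833)
  (Net.cons (nat_lit 3) (nat_lit 8324)
  (Net.cons (nat_lit 6) (nat_lit 32824)
  (Net.cons (nat_lit 12) (nat_lit 276)
  Net.nil))))))))),
 (Net.cons (nat_lit 12) (nat_lit 3310)
  (Net.cons (nat_lit 6) (nat_lit 0x1f024)
  (Net.cons (nat_lit 3) (nat_lit 0x801c6)
  (Net.cons (nat_lit 1) (nat_lit 0x48008)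
  (Net.cons (nat_lit 1) (nat_lit 0x92092)
  (Net.cons (nat_lit 1) (nat_lit 0x248200)
  (Net.cons (nat_lit 3) (nat_lit 384)
  (Net.cons (nat_lit 6) (nat_lit 0x36006)
  (Net.cons (nat_lit 12) (nat_lit 676)
  Net.nil))))))))),
 (Net.cons (nat_lit 12) (nat_lit 420)
  (Net.cons (nat_lit 6) (nat_lit 0x2c03c)
  (Net.cons (nat_lit 3) (nat_lit 0x82044)
  (Net.cons (nat_lit 1) (nat_lit 0x208000)
  (Net.cons (nat_lit 1) (nat_lit 0x412090)
  (Net.cons (nat_lit 1) (nat_lit 37376)
  (Net.cons (nat_lit 3) (nat_lit 260)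
  (Net.cons (nat_lit 6) (nat_lit 16412)
  (Net.cons (nat_lit 12) (nat_lit 324)
  Net.nil))))))))),
 (Net.cons (nat_lit 12) (nat_lit 2580)
  (Net.cons (nat_lit 6) (nat_lit 49208)
  (Net.cons (nat_lit 3) (nat_lit 0x87080)
  (Net.cons (nat_lit 1) (nat_lit 0x200040)
  (Net.cons (nat_lit 1) (nat_lit 0x400490)
  (Net.cons (nat_lit 1) (nat_lit 0x201048)
  (Net.cons (nat_lit 3) (nat_lit 8324)
  (Net.cons (nat_lit 6) (nat_lit 0x2803c)
  (Net.cons (nat_lit 12) (nat_lit 832)
  Net.nil))))))))),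
 (Net.cons (nat_lit 12) (nat_lit 1888)
  (Net.cons (nat_lit 6) (nat_lit 16384)
  (Net.cons (nat_lit 3) (nat_lit 0x147100)
  (Net.cons (nat_lit 1) (nat_lit 33280)
  (Net.cons (nat_lit 1) (nat_lit 66560)
  (Net.cons (nat_lit 1) (nat_lit 0x201000)
  (Net.cons (nat_lit 3) (nat_lit 0x84000)
  (Net.cons (nat_lit 6) (nat_lit 57344)
  (Net.cons (nat_lit 12) (nat_lit 1936)
  Net.nil))))))))),
 (Net.cons (nat_lit 12) (nat_lit 2816)
  (Net.cons (nat_lit 6) (nat_lit 0x3903e)
  (Net.cons (nat_lit 3) (nat_lit 8320)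
  (Net.cons (nat_lit 1) (nat_lit 32768)
  (Net.cons (nat_lit 1) (nat_lit 0x90002)
  (Net.cons (nat_lit 1) (nat_lit 0x248048)
  (Net.cons (nat_lit 3) (nat_lit 0x104082)
  (Net.cons (nat_lit 6) (nat_lit 24606)
  (Net.cons (nat_lit 12) (nat_lit 2896)
  Net.nil)))))))))]
theorem mQ : IsModel 24 pt (dG mg wsQ) (lk Net.nil naQ) vT := mP.dG (k := 5) (by decide +kernel)
def SLQ : SLev := (SLev.cons [[0]] [[],[0],[0,0],[1,0],[2,0],[3,0],[4,0],[1,0,0],[2,1,0],[4,1,0],[0,2,0],[3,2,0]]
  [[(1,[]),(2,[]),(5,[0,3]),(3,[3,1,0]),(10,[]),(7,[0,0,2]),(4,[3,1,2,0]),(8,[1,1]),(0,[1,0]),(11,[1,3]),(6,[0,3]),(9,[2,1])],[(0,[0]),(3,[]),(7,[]),(6,[1,3,0]),(1,[0,0,0]),(11,[0,0,0]),(5,[0,0,0]),(2,[3,2]),(9,[2]),(10,[3,0,2]),(8,[2,1]),(4,[2])],[(0,[1]),(4,[]),(2,[0,0]),(8,[]),(9,[2]),(10,[3,0,2]),(3,[2]),(7,[1]),(6,[2]),(1,[2]),(11,[1,1,0]),(5,[])],[(0,[2]),(5,[]),(2,[3,1]),(6,[0,0,0]),(11,[]),(1,[]),(3,[0,0,0]),(7,[2,1]),(8,[1,3,0]),(10,[3,0]),(9,[1,2,0]),(4,[])],[(0,[3]),(6,[]),(2,[3]),(9,[]),(8,[2]),(10,[2,1]),(1,[]),(7,[3,0,0]),(4,[2]),(3,[]),(5,[2,1]),(11,[1,3,0])]]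
  (SLev.cons [[1]] [[],[0]]
  [[(1,[]),(0,[1,0,2])],[(0,[0]),(1,[2,1])],[(0,[1]),(1,[0,2])],[(0,[2]),(1,[2,0])]]
  (SLev.cons [[2],[3]] [[],[0],[1],[0,0],[1,0],[0,1],[2,1],[2,1,0],[2,0,1]]
  [[(1,[]),(3,[]),(5,[]),(0,[]),(2,[]),(4,[]),(7,[]),(8,[]),(6,[])],[(2,[]),(4,[]),(0,[]),(5,[]),(1,[]),(3,[]),(6,[0]),(8,[0]),(7,[0])],[(0,[0]),(3,[0]),(6,[]),(1,[0]),(7,[]),(8,[]),(2,[]),(4,[]),(5,[])]]
  (SLev.cons [[4]] [[],[0]]
  [[(1,[]),(0,[])]]
  SLev.nil))))
def LQ : Lev := (Lev.cons 0 12 [[0]] (Lev.cons 1 2 [[1]] (Lev.cons 3 9 [[2],[3]] (Lev.cons 4 2 [[4]] Lev.nil))))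
noncomputable def nqQ : List Net := [(Net.cons (nat_lit 128) (nat_lit 0xfb604d6dc45b78c517c8d6d92cfd378)
  (Net.cons (nat_lit 64) (nat_lit 0xfb51886c3760c650000000000000000dbe3a8fbf0973104)
  (Net.cons (nat_lit 32) (nat_lit 0x5c978800000000056384e8f00000000f8d3e770000000000f6379d2)
  (Net.cons (nat_lit 16) (nat_lit 0x3cda0000539e00000a0c0000ed110000104800002e670000765900002e58)
  (Net.cons (nat_lit 8) (nat_lit 0x6f00cc001900e7006800850093000f00bb00d400b700fc009c0021002a0044)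
  (Net.cons (nat_lit 4) (nat_lit 0x40304000f0e07030b06020a090509000109080902060805050a010100040402)
  (Net.cons (nat_lit 2) (nat_lit 0x20001202022230200221113210030302103013012132133033301200002112)
  (Net.cons (nat_lit 1) (nat_lit 0x1014040041404010141444454141110441011115441150044141540100411004)
  (Net.cons (nat_lit 2) (nat_lit 0x2000022000000222202202200000020022200200200002202000200200000)
  (Net.cons (nat_lit 4) (nat_lit 0x20208000e0c080202060c0a0a0200060000020c000e040000000e0800060402)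
  (Net.cons (nat_lit 8) (nat_lit 0x5800c4009a00a400cc00820090004c003800f40074005200dc008a00260010)
  (Net.cons (nat_lit 16) (nat_lit 0x301c000046ae000063a20000af200000b8d8000016a00000da6800002a58)
  (Net.cons (nat_lit 32) (nat_lit 0x2cc64060000000026ea4ec4000000002370d538000000002f62b0f2)
  (Net.cons (nat_lit 64) (nat_lit 0xa931c00da6f3a4c0000000000000000fbaabbf3da3048c8)
  (Net.cons (nat_lit 128) (nat_lit 0xfb604d6d30f3da01579b922ec32dee4)
  Net.nil))))))))))))))),
 (Net.cons (nat_lit 128) (nat_lit 0x74665266523a8f746dc2de544aaee0b6)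
  (Net.cons (nat_lit 64) (nat_lit 0x2b9ea9262b297c3f0000000000000000a4644e6146846932)
  (Net.cons (nat_lit 32) (nat_lit 0x27a6488a000000008fbee93b00000000cbbee2a900000000c0f4cf9c)
  (Net.cons (nat_lit 16) (nat_lit 0xf2880000b34f00002e83000086240000431500004da50000e4490000c3ca)
  (Net.cons (nat_lit 8) (nat_lit 0x8600ca0041003d00e40046001400a000aa00ab00a50050003600d2002800c0)
  (Net.cons (nat_lit 4) (nat_lit 0x8080f0e0f06050d050b0509000308040a05040404050c07020204010507010a)
  (Net.cons (nat_lit 2) (nat_lit 0x2000210200310020323002130220302321200101032233201100210230210322)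
  (Net.cons (nat_lit 1) (nat_lit 0x5444044404010450400514000441441545144001001151415411110010141114)
  (Net.cons (nat_lit 2) (nat_lit 0x202000202000200200000000220202000222002000200200020200020002002)
  (Net.cons (nat_lit 4) (nat_lit 0x6080800040a0604040800040c04080c08000008000400000c00040c0a0c)
  (Net.cons (nat_lit 8) (nat_lit 0xa000740068004400f0001200b000e8006200240048000200c000280048)
  (Net.cons (nat_lit 16) (nat_lit 0x816000009e7e00003a50000082040000cb7c0000636800006e5e0000e750)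
  (Net.cons (nat_lit 32) (nat_lit 0x5a9ac1a8000000004f9db98800000000e1aee200000000005bf6ce9a)
  (Net.cons (nat_lit 64) (nat_lit 0x6ff8ab64243c00e60000000000000000ad746269688406a0)
  (Net.cons (nat_lit 128) (nat_lit 0x746652665fbfa721bedd24a7c93b2722)
  Net.nil))))))))))))))),
 (Net.cons (nat_lit 128) (nat_lit 0x914deb7bfe768029bb227d9135ed8410)
  (Net.cons (nat_lit 64) (nat_lit 0xc94b2503cc88b98b0000000000000000bb5e3188476021f0)
  (Net.cons (nat_lit 32) (nat_lit 0xfd8ae30a00000000c36a72b4000000001b01a6d8000000007d4022a2)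
  (Net.cons (nat_lit 16) (nat_lit 0x8126000065400000438a0000290200000ae800002276000014400000a428)
  (Net.cons (nat_lit 8) (nat_lit 0x7b003300a2008d005700a80076009300f30016004600fe003f00e000c60028)
  (Net.cons (nat_lit 4) (nat_lit 0x20d0308020d08040e08000a0b090d0b0f0a050009040f02030d0c010003030a)
  (Net.cons (nat_lit 2) (nat_lit 0x2323010132232122311020302223123221200232230032010003221100022032)
  (Net.cons (nat_lit 1) (nat_lit 0x4401504141111014414411444014414044044140144045101040144104441514)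
  (Net.cons (nat_lit 2) (nat_lit 0x2002000020002020220002020022222020020200020000000000222002022002)
  (Net.cons (nat_lit 4) (nat_lit 0xc0a0e000004040a08020a08080c020a000400080008060208040208040a0c)
  (Net.cons (nat_lit 8) (nat_lit 0x5a007400ee0046004000580048009600f00092004200f4000c00a2004000ea)
  (Net.cons (nat_lit 16) (nat_lit 0x64660000674000003212000023460000af68000032fc000014720000200c)
  (Net.cons (nat_lit 32) (nat_lit 0xedc223400000000066a7c39a0000000054c3a6d8000000007dc32c20)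
  (Net.cons (nat_lit 64) (nat_lit 0xc8476d48c700f8b60000000000000000bb4e31084644aaf0)
  (Net.cons (nat_lit 128) (nat_lit 0x914deb7bfb8899bbe77de8a7ed7c9f10)
  Net.nil))))))))))))))),
 (Net.cons (nat_lit 128) (nat_lit 0x415174b4344146095a8a110100f0a00)
  (Net.cons (nat_lit 64) (nat_lit 0xdf2bcea1a5938600000000000000000768b849216d20200)
  (Net.cons (nat_lit 32) (nat_lit 0xd5c87b0000000008c435ba400000000bb13869000000000e97e3bc0)
  (Net.cons (nat_lit 16) (nat_lit 0x28d20000398000000e1c0000a24c0000eb1400004a3c0000fbb80000e750)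
  (Net.cons (nat_lit 8) (nat_lit 0x1d00fa00fb0094003600cc0040002200480010004200e60004005000d40092)
  (Net.cons (nat_lit 4) (nat_lit 0x8020f000d05000f0e0c00020a050c04000f0a0203080a0000060a00020c0800)
  (Net.cons (nat_lit 2) (nat_lit 0x123222002200333302002120100102002020100000230200302101002203012)
  (Net.cons (nat_lit 1) (nat_lit 0x1004101101444041540140010140044044441000555101055514010041445104)
  (Net.cons (nat_lit 2) (nat_lit 0x2002202000200000000000020220002002200000000200000002000002200002)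
  (Net.cons (nat_lit 4) (nat_lit 0x80200000a0400000e0800000a040c040000020000080a0000060200000c0800)
  (Net.cons (nat_lit 8) (nat_lit 0x3800fa00ca0094003600c800a4002000480010004200e60004000000040012)
  (Net.cons (nat_lit 16) (nat_lit 0x20680000398000000e1c000082400000cb1400004a380000fb300000e750)
  (Net.cons (nat_lit 32) (nat_lit 0xd6aa630000000008c435aa400000000bb13861000000000e97e3bc0)
  (Net.cons (nat_lit 64) (nat_lit 0xdf2bcea1b5d186000000000000000007683849216d20200)
  (Net.cons (nat_lit 128) (nat_lit 0x415174b4344146095a8a110100f0a00)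
  Net.nil))))))))))))))),
 (Net.cons (nat_lit 128) (nat_lit 0x5960906c745ff7e86245d21cd4020010)
  (Net.cons (nat_lit 64) (nat_lit 0x5464c876a7bc26c0000000000000000080f241e002787214)
  (Net.cons (nat_lit 32) (nat_lit 0x2d1ca000000000001393882400000000a1cf82a200000000eb6d1008)
  (Net.cons (nat_lit 16) (nat_lit 0xb4300000d7b2000041a000000b04000046b1000012800000ea5c00005490)
  (Net.cons (nat_lit 8) (nat_lit 0xa800640049001400520042001000b9009300a4002200e4005c001b00d20018)
  (Net.cons (nat_lit 4) (nat_lit 0xc080a0c040a0c0a0b080c060806020506000e020b00090e0a0c0b00040000)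
  (Net.cons (nat_lit 2) (nat_lit 0x1200201010222110300002202200223211212023003120221233301322102300)
  (Net.cons (nat_lit 1) (nat_lit 0x1154504004104005010051014451105041440141141401040150014111040540)
  (Net.cons (nat_lit 2) (nat_lit 0x200000000202000000002002200200000020022002000020200022222000000)
  (Net.cons (nat_lit 4) (nat_lit 0x8080c00020c0a000808000802020008000e020400080c0a0c0600040000)
  (Net.cons (nat_lit 8) (nat_lit 0xa8003800480014005200420010000000500024002200a4005c009800d00008)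
  (Net.cons (nat_lit 16) (nat_lit 0xe4100000c392000041a000000b000000c650000012800000ea5c00005490)
  (Net.cons (nat_lit 32) (nat_lit 0x2d1ca000000000001313882400000000a14f828200000000ab6d1008)
  (Net.cons (nat_lit 64) (nat_lit 0x5464c876a7bc26c0000000000000000000f241e002787210)
  (Net.cons (nat_lit 128) (nat_lit 0x5960906c745ff7e86245d21cd4020010)
  Net.nil))))))))))))))),
 (Net.cons (nat_lit 128) (nat_lit 0x50a54574ad61cf37d7aa0b615ecc1048)
  (Net.cons (nat_lit 64) (nat_lit 0x1d066050176211230000000000000000af3a5b4306f45481)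
  (Net.cons (nat_lit 32) (nat_lit 0x67db78360000000078a8c69e000000007aa13b0000000000097312b8)
  (Net.cons (nat_lit 16) (nat_lit 0x6fd2000061c000005dee0000a27a0000d7d000003c0a00000c13000024e8)
  (Net.cons (nat_lit 8) (nat_lit 0x290066001f00dd008600340051002d00c3001d003800df00df000800a900b8)
  (Net.cons (nat_lit 4) (nat_lit 0xb03000a00050e0e0b0306040d020c06080400070904070e0f080a0a09070500)
  (Net.cons (nat_lit 2) (nat_lit 0x331100003033201330132033030230122010020211030231311002302231020)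
  (Net.cons (nat_lit 1) (nat_lit 0x4441011444010104441140014454145111014114000444041114041105410111)
  (Net.cons (nat_lit 2) (nat_lit 0x220020002020202202020022200000222020200000220000222000200020000)
  (Net.cons (nat_lit 4) (nat_lit 0xe02040802040e0a080c060c08040200000e020208000c000a0c000804060408)
  (Net.cons (nat_lit 8) (nat_lit 0x24007600ba00dc0092007c00b600c2000200460024007e00d200100048003c)
  (Net.cons (nat_lit 16) (nat_lit 0x43a00000a4400000df820000116a000054da00003544000094200000a760)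
  (Net.cons (nat_lit 32) (nat_lit 0x737a18760000000078254df0000000007d9b108200000000fc7b3ea4)
  (Net.cons (nat_lit 64) (nat_lit 0x1d2265503e8da2140000000000000000223ad94b10bec864)
  (Net.cons (nat_lit 128) (nat_lit 0x50a54574a2129b0ad2df10fe1218587e)
  Net.nil))))))))))))))),
 (Net.cons (nat_lit 128) (nat_lit 0xdba25bacb41da7c1363167e874dedd2b)
  (Net.cons (nat_lit 64) (nat_lit 0xe74e9e027007d5af0000000000000000a2ee33611ffe9579)
  (Net.cons (nat_lit 32) (nat_lit 0xaeb46f3200000000cde0573900000000c3e29223000000000f974609)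
  (Net.cons (nat_lit 16) (nat_lit 0x9dba0000eeab00005e9f000032f9000092ff00004eac0000055b0000bc60)
  (Net.cons (nat_lit 8) (nat_lit 0xf600a000a3000600df00ee007c0062008300e8005a009d0030005e002c0069)
  (Net.cons (nat_lit 4) (nat_lit 0x10005000c0409060905060e07010a05010a000608040105060f02040d000e0b)
  (Net.cons (nat_lit 2) (nat_lit 0x3302032023010102023023300022220110120110122302323001300101310103)
  (Net.cons (nat_lit 1) (nat_lit 0x5414001451041405411114514140100111114400001115044051114140400110)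
  (Net.cons (nat_lit 2) (nat_lit 0x220002200022000020002000020000000022200000020002000020200200200)
  (Net.cons (nat_lit 4) (nat_lit 0x2040402040406080800040e0a000000000a000408000a0c0604000404040208)
  (Net.cons (nat_lit 8) (nat_lit 0xd6001000240086000a00dc00e6006200a200c800dc001800380010004000c8)
  (Net.cons (nat_lit 16) (nat_lit 0xa8b80000bbec0000414e0000c0e40000939c00004cc800004b140000d40c)
  (Net.cons (nat_lit 32) (nat_lit 0x42b43a1400000000c6e0741400000000c1a80652000000000f87aec8)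
  (Net.cons (nat_lit 64) (nat_lit 0x3c4c8c8245db0422000000000000000082fa33605bf76730)
  (Net.cons (nat_lit 128) (nat_lit 0xdba25bacba09d9cb5e681f94b804abb8)
  Net.nil))))))))))))))),
 (Net.cons (nat_lit 128) (nat_lit 0x3b5f7307642cb4bf805aa562997f2d4)
  (Net.cons (nat_lit 64) (nat_lit 0x6bbf7f4d123be64900000000000000005e0ffdfdcf95e8d1)
  (Net.cons (nat_lit 32) (nat_lit 0x2513b67c000000003693d760000000007076cc5e0000000044129b92)
  (Net.cons (nat_lit 16) (nat_lit 0xf2040000d1bc0000f29600000588000014340000db0600008a4400008cb6)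
  (Net.cons (nat_lit 8) (nat_lit 0x41004e00d0007400c400840018003a0076001100cd00800000000900870052)
  (Net.cons (nat_lit 4) (nat_lit 0xf0f0c0b010c0d02030f080a0f0003010e020906000609060400010407080804)
  (Net.cons (nat_lit 2) (nat_lit 0x3202012020202121200301100200202330013021302331131232022203022203)
  (Net.cons (nat_lit 1) (nat_lit 0x144404011101151000414141150411554140404540154544114011511441405)
  (Net.cons (nat_lit 2) (nat_lit 0x2200020002000000002000200000002000000000202000000022000020200)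
  (Net.cons (nat_lit 4) (nat_lit 0x40c0c0800020a0c0008080c02000a0008020400040a0c060c0a00040c0c080c)
  (Net.cons (nat_lit 8) (nat_lit 0x54004a005000680004000200040018007e009800cc00600002008800c000d0)
  (Net.cons (nat_lit 16) (nat_lit 0xd2080000fa26000060d4000044840000d42a0000d3c0000083840000a45c)
  (Net.cons (nat_lit 32) (nat_lit 0x536563800000000a2e3c1e0000000007a7bd5c400000000d8c09992)
  (Net.cons (nat_lit 64) (nat_lit 0x6b8eba5d01e1ad0400000000000000008e4dfd714241d798)
  (Net.cons (nat_lit 128) (nat_lit 0x3b5f73072c6ae04cc80b8867ac2a394)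
  Net.nil))))))))))))))),
 (Net.cons (nat_lit 128) (nat_lit 0xcc075e023324ff0a5c8b29bfe56b8443)
  (Net.cons (nat_lit 64) (nat_lit 0xb5013c552e0ad0c60000000000000000086350a8560e07c0)
  (Net.cons (nat_lit 32) (nat_lit 0x4eeb985a000000008672f84e00000000beb2700d000000002994a9eb)
  (Net.cons (nat_lit 16) (nat_lit 0x1f6000003f040000b888000021d00000e78c00006bc7000081640000b06b)
  (Net.cons (nat_lit 8) (nat_lit 0xc00a8002900e7001000240052000900a80088003e00310010009a00a50089)
  (Net.cons (nat_lit 4) (nat_lit 0xc010d04020c05060d0a00070506030c0b020e0902010d0904020e07080e09)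
  (Net.cons (nat_lit 2) (nat_lit 0x2001103113030210103221023212102021202101101021211110010301100210)
  (Net.cons (nat_lit 1) (nat_lit 0x1401140404051500144444444110414014540401100144101410144051144154)
  (Net.cons (nat_lit 2) (nat_lit 0x2000002000000220202022200002000000002200002002020000000000000)
  (Net.cons (nat_lit 4) (nat_lit 0x8060004000c0406080e0c0e000e000400020e0e020a0204080a04000e0400)
  (Net.cons (nat_lit 8) (nat_lit 0x8a00b0003800d6004400e000cc000a00a80008004c00ea00a800980010006c)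
  (Net.cons (nat_lit 16) (nat_lit 0x2f62000023000000f40e0000a5680000f7e40000021200008c6c0000919c)
  (Net.cons (nat_lit 32) (nat_lit 0x4feec00e0000000000cf23ec00000000a5b9902000000000ac98078a)
  (Net.cons (nat_lit 64) (nat_lit 0x3d0364572612da2400000000000000002a83d05453f10022)
  (Net.cons (nat_lit 128) (nat_lit 0xcc075e023bd4fbde9a7310b8f30376f4)
  Net.nil))))))))))))))),
 (Net.cons (nat_lit 128) (nat_lit 0xd85fc8e9955866eeddd4b924df1cb2dc)
  (Net.cons (nat_lit 64) (nat_lit 0x2418c96edfb4a2cc00000000000000008cb7bfac47382c53)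
  (Net.cons (nat_lit 32) (nat_lit 0x3da8814800000000eafb4ce4000000004288f78a00000000a4f71b5b)
  (Net.cons (nat_lit 16) (nat_lit 0xd06000000efc0000a1650000ce960000e30200009de2000045bf00008792)
  (Net.cons (nat_lit 8) (nat_lit 0xae0010000a00480002000d003b000e002e0020003c008000c8001f005c0080)
  (Net.cons (nat_lit 4) (nat_lit 0x6090009040f06080801020b0d02020b060709040e0f02030b080c09010c0006)
  (Net.cons (nat_lit 2) (nat_lit 0x2131022002010130021301103222130220120330202003022310213220120301)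
  (Net.cons (nat_lit 1) (nat_lit 0x514014114141410104004055401145541014500411404100405014550044401)
  (Net.cons (nat_lit 2) (nat_lit 0x20020022222220202000000002200022000000220000000200000000000200)
  (Net.cons (nat_lit 4) (nat_lit 0xc040808020c0c0c080004020a020804060e040c0e020a0008080a0002000206)
  (Net.cons (nat_lit 8) (nat_lit 0x6a00180014001c00a8007400e0000000a200920028008600c8006400760084)
  (Net.cons (nat_lit 16) (nat_lit 0x18a40000b8e8000009c800008f84000084a00000b0c0000042e80000d012)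
  (Net.cons (nat_lit 32) (nat_lit 0xedf0490a00000000e2c75c84000000004139c70600000000e63f491c)
  (Net.cons (nat_lit 64) (nat_lit 0x2c1a09475da25d300000000000000000ad37b9ae2d7e8f3a)
  (Net.cons (nat_lit 128) (nat_lit 0xd85fc8e9951840056f460e46defdb910)
  Net.nil))))))))))))))),
 (Net.cons (nat_lit 128) (nat_lit 0xce6441a7cba1175ea825f71acf09d057)
  (Net.cons (nat_lit 64) (nat_lit 0xc7871bdaab9c326b0000000000000000bb628ce513195113)
  (Net.cons (nat_lit 32) (nat_lit 0xe29422000000000082dc7a04000000001f1711c50000000072d43252)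
  (Net.cons (nat_lit 16) (nat_lit 0x5b6000009b24000094c40000da40000026a6000090c40000169c0000a164)
  (Net.cons (nat_lit 8) (nat_lit 0x68005d00e100dd00280064000400460021000a004b00e40015007200150087)
  (Net.cons (nat_lit 4) (nat_lit 0x70308040908060c04080200000e0c0e0303030909020605030a0308050c0a04)
  (Net.cons (nat_lit 2) (nat_lit 0x1002230310023123102021210112333223212301020022033021010223022012)
  (Net.cons (nat_lit 1) (nat_lit 0x4045140514041441141455404044401104111141500504154010401401040141)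
  (Net.cons (nat_lit 2) (nat_lit 0x2020020000020000222000200002200202220220000002002000202002000000)
  (Net.cons (nat_lit 4) (nat_lit 0xc080c0c00020404000c04000c080c0202000402080402000e060c08000a0c)
  (Net.cons (nat_lit 8) (nat_lit 0x6c003e00a800d8009c00c4000400ea0024000800f000b4001600200098008a)
  (Net.cons (nat_lit 16) (nat_lit 0x5924000010a4000072e00000db7a00008bca000090a4000074c40000055c)
  (Net.cons (nat_lit 32) (nat_lit 0x6dd061c600000000d2b89e86000000002c668b30000000002659cb18)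
  (Net.cons (nat_lit 64) (nat_lit 0xc5835adae657afe80000000000000000aae326b50bdddb80)
  (Net.cons (nat_lit 128) (nat_lit 0xce6441a7cbefa69875e1625d208f9b58)
  Net.nil)))))))))))))))]
noncomputable def sQ : ℕ → ℕ := lk 0 [(nat_lit 0x3d3f479759362e27c3e1d318b0ff9cd85deb9bf0f2c2b3c6c71ebfb),
  (nat_lit 0xdedf746892c8750b3d33d9eac8203b6251147061087d7ee40050542),
  (nat_lit 0x8800240180d0000c240507004005a200040e0500001938a1004),
  (nat_lit 0xa773687e3c51ddbd13bef0236fffaee86007e42bcf78fc5b4b9c4bd),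
  (nat_lit 0xe0a491164d8a127fc2d9459cb220749647e1764ce91e8750042fbc4),
  (nat_lit 0x18080681822420002c000a400000010198180990108100a4b040002),
  (nat_lit 0x9a90b5bba7cfe6ca35193b4f7ae4aaa716337af5b3d71d1dbee272d),
  (nat_lit 0x25304b447a1a3cf0d4b4474eadd49578e80f8f0106fc09daa0b4452),
  (nat_lit 0x404f0000002001050a4280b0000b400001c0000a4800e2204109880),
  (nat_lit 0x98fcd7ea93fc5598e6ec71fee737b0f66f9c97cf303cd33031e58b6),
  (nat_lit 0x23b4b11a67a84d38250a83541d4e9786c504129fa0bf8fdf78931),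
  (nat_lit 0x67000804640002220112840008c0010810226820404300400002648),
  (nat_lit 0xc494ea65faeffaebcba3eebe0b135367d1f66d438c1be5bcee5a2d4),
  (nat_lit 0x10cb444aa55dd620ae5ca33065c6b228864821ff5783104553c7e1f),
  (nat_lit 0x2b201190000001141000104190280c902801920020640a020020120),
  (nat_lit 0),
  (nat_lit 0),
  (nat_lit 0),
  (nat_lit 0x6bebed48f69f81569eda0f8ddc0b675ede4c70d85da48fefadc7f52),
  (nat_lit 0xd55caaab80b2c6a210c0e8632abb2dd12b63dcba305520017e2c2ec),
  (nat_lit 0x101409403809612510100144902000900305820a50100010001),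
  (nat_lit 0),
  (nat_lit 0),
  (nat_lit 0),
  (nat_lit 0x47ab98078e987e65fc579c75b3a4ed95ab480c176d9f7ac3717dd63),
  (nat_lit 0x2e9145b760f54b16e9e2344d5bdbc16f14bc23c8a140c0be8980eaf),
  (nat_lit 0x904422481102808802084382040012004003d020122005000602010),
  (nat_lit 0xf64c32b4056309bb3c74e6c384d8593bbae9232c03650ab5d43aecf),
  (nat_lit 0xcbb6aa703f05edc4878a38189372ea8e79bad997f02af92bf7df089),
  (nat_lit 0x1450bc09812004001012468050440040404400c9004400800130),
  (nat_lit 0),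
  (nat_lit 0),
  (nat_lit 0),
  (nat_lit 0),
  (nat_lit 0),
  (nat_lit 0),
  (nat_lit 0x495717516820b354a8010d600d40770284b5ddae726a644a1821008),
  (nat_lit 0x3b7afbcdcdb509fbd72ffeb7a68f2aa3fe76aae56f9f77baad4bdfb),
  (nat_lit 0x84800022124a440000d000085030805c01080010800088054294204),
  (nat_lit 0x302028c849154040452e4898529808092376a251ac9521a003851c1),
  (nat_lit 0xff6d3fdfff7ff3dd6f7fdffd5ffddd5dbbffff7ffef7eff57bb73f5),
  (nat_lit 0x92c02000800c2290802002a00222a2440000800108100a8448c0a),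
  (nat_lit 0),
  (nat_lit 0),
  (nat_lit 0),
  (nat_lit 0),
  (nat_lit 0),
  (nat_lit 0),
  (nat_lit 0xffcfdfbff7eabfbf7bdfb7f7fd6fd7fdfd9bdfbedfebde7ffefbf3e),
  (nat_lit 0xffcfdfbff7eabfbf7bdfb7f7fd6fd7fdfd9bdfbedfebde7ffefbf3e),
  (nat_lit 0x302040081540408420480802902802026420412014218001040c1),
  (nat_lit 0),
  (nat_lit 0),
  (nat_lit 0),
  (nat_lit 0),
  (nat_lit 0),
  (nat_lit 0xfffffffffffffffffffffffffffffffffffffffffffffffffffffff),
  (nat_lit 0),
  (nat_lit 0),
  (nat_lit 0),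
  (nat_lit 0),
  (nat_lit 0),
  (nat_lit 0),
  (nat_lit 0),
  (nat_lit 0),
  (nat_lit 0),
  (nat_lit 0),
  (nat_lit 0),
  (nat_lit 0),
  (nat_lit 0),
  (nat_lit 0),
  (nat_lit 0)]
noncomputable def rQ : ℕ → ℕ → ℕ := relR 220 sQ
noncomputable def qX : ℕ → Finset (Finset GolayPt) := parX 24 pt rQ
def kD : List ℕ := [5,6,7,8,9,10]
theorem mQq : IsModel 220 qX (dG mg wsQ) (lk Net.nil nqQ) vT :=
  (IsPre.of_rep fun l _ => Rep.par (mQ.rep rfl) (lk_lall2 (f := parChk 220 24 rQ) (l := naQ) (m := nqQ) (by decide +kernel) (by decide +kernel) (by decide +kernel) l)).isModel_of_trans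
    (ws := lw kD) (r := 40) (p := 0) (by decide +kernel) (par_inj pt_inj (l := [(3, 12), (1, 6), (4, 12), (6, 9), (0, 8)]) (by decide +kernel))
theorem cl_kD : cl (dG mg wsQ) (lw kD) = stabilizer M24 (cw 863) := by
  rw [cl_dG, show lmap (lk [] wsQ) kD = LD.ws by decide +kernel, cl_D]
theorem qX_0 : qX 0 = ffs [7,4120,8960,327744] := parX_eq (by decide +kernel)
theorem orbit_qX : orbit (stabilizer M24 (cw 863)) (qX 0) = rng 220 qX := cl_kD ▸ mQq.orbit_of_transChk (r := 40) (by decide +kernel)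
theorem card_Q : Nat.card ↥(stabilizer M24 (cw 863) ⊓ stabilizer M24 (qX 0)) = 432 :=
  card_child mQq cl_kD (k := 5) (r := 40) (n := 220) (by decide +kernel) (by norm_num) card_D
theorem le_Q : cl (dG mg wsQ) LQ.ws ≤ stabilizer M24 (cw 863) ⊓ stabilizer M24 (qX 0) :=
  le_inf (cl_dG_le (mC.cl_le_stab (by decide +kernel)) _) (mQq.cl_le_stab (by decide +kernel))
theorem cl_Q : cl (dG mg wsQ) LQ.ws = stabilizer M24 (cw 863) ⊓ stabilizer M24 (qX 0) :=
  mQ.cl_eq_of_chain (k := 2) (r := 40) (by decide +kernel) le_Q (card_Q.le.trans (by decide +kernel))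
theorem orbit_Q : orbit ↥(stabilizer M24 (cw 863) ⊓ stabilizer M24 (qX 0)) (pt 0) = (cw 863 : Set GolayPt) := by
  rw [← cl_Q, mQ.orbit_of_orbIs (r := 40) (M := 340831) (by decide +kernel), pts_pt, cw863]
noncomputable def nbQ : List Net := [(Net.cons (nat_lit 5) (nat_lit 8)
  (Net.cons (nat_lit 1) (nat_lit 8)
  (Net.cons (nat_lit 1) (nat_lit 160)
  (Net.cons (nat_lit 5) (nat_lit 8)
  Net.nil)))),
 (Net.cons (nat_lit 5) (nat_lit 18)
  (Net.cons (nat_lit 1) (nat_lit 64)
  (Net.cons (nat_lit 1) (nat_lit 160)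
  (Net.cons (nat_lit 1) (nat_lit 320)
  (Net.cons (nat_lit 1) (nat_lit 4)
  (Net.cons (nat_lit 5) (nat_lit 24)
  Net.nil)))))),
 (Net.cons (nat_lit 5) (nat_lit 28)
  (Net.cons (nat_lit 1) (nat_lit 64)
  (Net.cons (nat_lit 1) (nat_lit 132)
  (Net.cons (nat_lit 1) (nat_lit 258)
  (Net.cons (nat_lit 1) (nat_lit 132)
  (Net.cons (nat_lit 5) (nat_lit 20)
  Net.nil)))))),
 (Net.cons (nat_lit 5) (nat_lit 8)
  (Net.cons (nat_lit 1) (nat_lit 10)
  (Net.cons (nat_lit 1) (nat_lit 132)
  (Net.cons (nat_lit 1) (nat_lit 74)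
  (Net.cons (nat_lit 1) (nat_lit 132)
  (Net.cons (nat_lit 5) (nat_lit 8)
  Net.nil)))))),
 (Net.cons (nat_lit 5) (nat_lit 18)
  (Net.cons (nat_lit 1) (nat_lit 256)
  (Net.cons (nat_lit 1) (nat_lit 4)
  (Net.cons (nat_lit 5) (nat_lit 16)
  Net.nil))))]
theorem part_Q : OrbPart (stabilizer M24 (cw 863) ⊓ stabilizer M24 (qX 0)) (rng 220 qX) [(qX 0, 1), (qX 3, 12), (qX 9, 27), (qX 4, 72), (qX 1, 108)] := by
  have := mQq.orbPart (k := 5) (ws := LQ.ws) (r := 40) (l := [(0, 1), (3, 12), (9, 27), (4, 72), (1, 108)]) (A := 2 ^ 220 - 1) (by decide +kernel)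
  rwa [cl_Q, pts_full] at this
theorem homQ : ∃ φ : ↥(stabilizer M24 (cw 863) ⊓ stabilizer M24 (qX 0)) →* GL (Fin 2) (ZMod 3), Function.Surjective φ := by
  haveI := Fact.mk Nat.prime_three
  obtain ⟨g, hg⟩ := mrep_GL (semP (F := ZMod 3) 3 (by norm_num)) (ixFin 2) (ml := [[4,6],[3,5],[5,2],[1,7],[6,2]]) (inv := [[4,6],[7,1],[6,7],[1,7],[6,2]]) (by decide +kernel)
  have mB := vecModel (fun _ _ => rfl) hg (injP 3) (N := 9) (nl := nbQ) (by decide +kernel)
  obtain ⟨φ, h1, -⟩ := hom_of mQ faithP hg.eqv (SL := SLQ) (L := LQ) rfl (k := 5) (k' := 2) (r := 40) (by decide +kernel) (by decide +kernel) (by decide +kernel)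
    le_Q (card_Q.le.trans (by decide +kernel))
  refine ⟨φ, MonoidHom.range_eq_top.1 (h1.trans (top_of_card (B := 48) (by rw [card_GL]; decide +kernel)
    (lb_of mB (L := (Lev.cons 3 8 [[4,0,1,0]]
  (Lev.cons 1 6 [[0,2,0],[0,3,2,0]]
  Lev.nil))) (k := 1) (r := 40) (by decide +kernel) (kl := [0,1,2,3,4]) (by decide +kernel))))⟩

theorem smul_hex (g : M24) {d h : Finset GolayPt} (hh : h ∈ hexadsOn d) : g • h ∈ hexadsOn (g • d) := by
  obtain ⟨c, o, ho, rfl⟩ := hh
  exact ⟨by rwa [card_smul_finset], g • o, smul_mem_octads g ho, (smul_finset_inter ..).symm⟩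

theorem smul_quartet (g : M24) {d : Finset GolayPt} {Q : Finset (Finset GolayPt)} (h : Q ∈ quartets d) :
    g • Q ∈ quartets (g • d) := by
  refine ⟨by rw [card_smul_finset, h.1], fun t ht => ?_, fun t ht u hu e => ?_⟩
  · obtain ⟨t, a, rfl⟩ := mem_smul_finset.1 ht
    exact ⟨by rw [card_smul_finset, (h.2.1 t a).1], smul_finset_subset_smul_finset (h.2.1 t a).2⟩
  · obtain ⟨t, a, rfl⟩ := mem_smul_finset.1 ht
    obtain ⟨u, b, rfl⟩ := mem_smul_finset.1 hu
    rw [← smul_finset_union]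
    exact smul_hex g (h.2.2 t a u b fun c => e (by rw [c]))

theorem hex_of {a b m : ℕ} (h : band (isO m) (band (Nat.beq (Nat.land m 340831) (Nat.lor a b)) (Nat.beq (pc (Nat.lor a b)) 6)) = true) :
    fs a ∪ fs b ∈ hexadsOn (cw 863) := by
  simp only [band_eq, beq_eq] at h
  rw [← fs_or]
  exact ⟨(card_fs_pc _).trans h.2.2, fs m, fs_mem_octads h.1, by rw [cw863, ← fs_and]; exact congrArg fs h.2.1⟩

theorem qX_0_mem : qX 0 ∈ quartets (cw 863) := by
  rw [qX_0]
  refine ⟨card_ffs (by decide) (by decide), fun t ht => ?_, fun t ht u hu e => ?_⟩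
  · obtain ⟨m, hm, rfl⟩ := mem_ffs.1 ht
    rw [cw863, card_fs_pc]
    simp only [List.mem_cons, List.not_mem_nil, or_false] at hm
    rcases hm with rfl | rfl | rfl | rfl <;> exact ⟨by decide +kernel, fs_subset (by decide +kernel)⟩
  · obtain ⟨a, ha, rfl⟩ := mem_ffs.1 ht
    obtain ⟨b, hb, rfl⟩ := mem_ffs.1 hu
    simp only [List.mem_cons, List.not_mem_nil, or_false] at ha hb
    rcases ha with rfl | rfl | rfl | rfl <;> rcases hb with rfl | rfl | rfl | rfl
    · exact absurd rfl e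
    · exact hex_of (m := 5279) (by decide +kernel)
    · exact hex_of (m := 140167) (by decide +kernel)
    · exact hex_of (m := 459847) (by decide +kernel)
    · exact hex_of (m := 5279) (by decide +kernel)
    · exact absurd rfl e
    · exact hex_of (m := 145176) (by decide +kernel)
    · exact hex_of (m := 463064) (by decide +kernel)
    · exact hex_of (m := 140167) (by decide +kernel)
    · exact hex_of (m := 145176) (by decide +kernel)
    · exact absurd rfl e
    · exact hex_of (m := 337856) (by decide +kernel)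
    · exact hex_of (m := 459847) (by decide +kernel)
    · exact hex_of (m := 463064) (by decide +kernel)
    · exact hex_of (m := 337856) (by decide +kernel)
    · exact absurd rfl e

theorem hex0 {h : Finset GolayPt} (hh : h ∈ hexadsOn (cw 863)) (h1 : fs 7 ⊆ h) :
    (fs 31 ⊆ h → h = fs 4127) ∧ (Disjoint h (fs 4120) → h = fs 8967 ∨ h = fs 327751) := by
  obtain ⟨c, o, ho, rfl⟩ := hh
  have h8 := ho.2
  refine forall_cw (P := fun o => (o ∩ cw 863).card = 6 → fs 7 ⊆ o ∩ cw 863 → o.card = 8 →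
    (fs 31 ⊆ o ∩ cw 863 → o ∩ cw 863 = fs 4127) ∧ (Disjoint (o ∩ cw 863) (fs 4120) → o ∩ cw 863 = fs 8967 ∨ o ∩ cw 863 = fs 327751))
    (f := fun m => decide (pc (m &&& 340831) = 6 → 7 &&& m = 7 → pc m = 8 → (31 &&& m = 31 → m &&& 340831 = 4127) ∧
      (pc (m &&& 340831 &&& 4120) = 0 → m &&& 340831 = 8967 ∨ m &&& 340831 = 327751))) (fun m hm h => ?_) (by decide +kernel) o ho.1 c h1 h8
  have sub : ∀ a < 2 ^ 24, fs a ⊆ fs m ∩ cw 863 → a &&& m = a := fun a ha h => fs_inj (lt_of_le_of_lt Nat.and_le_left ha) ha (by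
    rw [fs_and, inter_eq_left.2 (h.trans inter_subset_left)])
  intro c h1 h8
  have := of_decide_eq_true h (by rwa [cw863, ← fs_and, card_fs_pc] at c) (sub _ (by norm_num) h1) (by rwa [card_fs_pc] at h8)
  refine ⟨fun h => ?_, fun h => ?_⟩
  · rw [cw863, ← fs_and, this.1 (sub _ (by norm_num) h)]
  · rw [cw863, ← fs_and, disjoint_iff_inter_eq_empty, ← fs_and, ← card_eq_zero, card_fs_pc] at h
    rw [cw863, ← fs_and]
    exact (this.2 h).imp (congrArg fs) (congrArg fs)

theorem eq_of_union {a b c : ℕ} {u : Finset GolayPt} (h : fs a ∪ u = fs c) (hd : Disjoint (fs a) u)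
    (e : band (Nat.beq (Nat.lor a b) c) (Nat.beq (pc (Nat.land a b)) 0) = true) : u = fs b := by
  simp only [band_eq, beq_eq] at e
  have h2 : Disjoint (fs a) (fs b) := by rw [disjoint_iff_inter_eq_empty, ← fs_and, ← card_eq_zero, card_fs_pc]; exact e.2
  rw [← union_sdiff_cancel_left hd, h, ← e.1, show a.lor b = a ||| b from rfl, fs_or, union_sdiff_cancel_left h2]

theorem norm_tu {d t u : Finset GolayPt} (hd : d ∈ dodecads) (ht : t.card = 3) (hu : u.card = 3) (htu : Disjoint t u)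
    (hh : t ∪ u ∈ hexadsOn d) : ∃ g : M24, g • cw 863 = d ∧ g • fs 7 = t ∧ g • fs 4120 = u := by
  obtain ⟨a, b, c, ab, ac, bc, rfl⟩ := card_eq_three.1 ht
  obtain ⟨x, hx, y, hy, xy⟩ := one_lt_card.1 (by omega : 1 < u.card)
  have sd : {a, b, c} ∪ u ⊆ d := by obtain ⟨-, o, -, e⟩ := hh; rw [← e]; exact inter_subset_right
  have n : ∀ z ∈ u, z ≠ a ∧ z ≠ b ∧ z ≠ c := fun z hz => by simpa using disjoint_right.1 htu hz
  obtain ⟨g, hg⟩ := orbit_dp5 hd ⟨![a, b, c, x, y], by
    have := n x hx; have := n y hy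
    intro i j; fin_cases i <;> fin_cases j <;> simp <;> tauto⟩ fun i => sd (by change ![a, b, c, x, y] i ∈ _; fin_cases i <;> simp [hx, hy])
  have h0 : g • cw 863 = d := congrArg (·.1.1.1.1.1) hg
  have h1 : g • pt 0 = a := congrArg (·.1.1.1.1.2) hg
  have h2 : g • pt 1 = b := congrArg (·.1.1.1.2) hg
  have h3 : g • pt 2 = c := congrArg (·.1.1.2) hg
  have h4 : g • pt 3 = x := congrArg (·.1.2) hg
  have h5 : g • pt 4 = y := congrArg (·.2) hg
  have e7 : fs 7 = {pt 0, pt 1, pt 2} := by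
    rw [show 7 = 2 ^ 0 ||| (2 ^ 1 ||| 2 ^ 2) from rfl, fs_or, fs_or, fs_pow, fs_pow, fs_pow] <;> first | rfl | norm_num
  have e31 : fs 31 = fs 7 ∪ {pt 3, pt 4} := by
    rw [show 31 = 7 ||| (2 ^ 3 ||| 2 ^ 4) from rfl, fs_or, fs_or, fs_pow, fs_pow] <;> first | rfl | norm_num
  have h7 : g • fs 7 = {a, b, c} := by simp only [e7, smul_finset_insert, smul_finset_singleton, h1, h2, h3]
  refine ⟨g, h0, h7, ?_⟩
  have := smul_hex g⁻¹ hh
  rw [← h0, ← h7, smul_finset_union, inv_smul_smul, inv_smul_smul] at this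
  rw [← eq_inv_smul_iff]
  refine (eq_of_union ((hex0 this subset_union_left).1 ?_) ?_ (by decide +kernel)).symm
  · rw [e31]
    refine union_subset_union subset_rfl fun z hz => ?_
    rw [mem_inv_smul_finset_iff]
    rcases mem_insert.1 hz with rfl | hz
    · rwa [h4]
    · rwa [mem_singleton.1 hz, h5]
  · rw [← h7] at htu
    exact disjoint_left.2 fun z a b => disjoint_left.1 htu (smul_mem_smul_finset a) (mem_inv_smul_finset_iff.1 b)

theorem quartet_disj {d t u : Finset GolayPt} {Q : Finset (Finset GolayPt)} (h : Q ∈ quartets d) (ht : t ∈ Q) (hu : u ∈ Q)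
    (e : t ≠ u) : Disjoint t u :=
  card_union_eq_card_add_card.1 (by rw [(h.2.2 t ht u hu e).1, (h.2.1 t ht).1, (h.2.1 u hu).1])

theorem quartet_uniq {Q : Finset (Finset GolayPt)} (h : Q ∈ quartets (cw 863)) (h1 : fs 7 ∈ Q) (h2 : fs 4120 ∈ Q) : Q = qX 0 := by
  refine eq_of_subset_of_card_le (fun t ht => ?_) (by rw [h.1, qX_0_mem.1])
  rw [qX_0, mem_ffs]
  by_cases a : fs 7 = t
  · exact ⟨_, by simp, a⟩
  by_cases b : t = fs 4120
  · exact ⟨_, by simp, b.symm⟩
  have d1 := quartet_disj h h1 ht a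
  rcases (hex0 (h.2.2 _ h1 _ ht a) subset_union_left).2 (disjoint_union_left.2 ⟨quartet_disj h h1 h2 fun e =>
    absurd (fs_inj (by norm_num) (by norm_num) e) (by norm_num), quartet_disj h ht h2 b⟩) with e | e
  · exact ⟨8960, by simp, (eq_of_union e d1 (by decide +kernel)).symm⟩
  · exact ⟨327744, by simp, (eq_of_union e d1 (by decide +kernel)).symm⟩

theorem orbit_dQ {d : Finset GolayPt} (hd : d ∈ dodecads) {Q : Finset (Finset GolayPt)} (h : Q ∈ quartets d) :
    (d, Q) ∈ orbit M24 (cw 863, qX 0) := by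
  obtain ⟨t, ht, u, hu, e⟩ := one_lt_card.1 (by rw [h.1]; norm_num : 1 < Q.card)
  obtain ⟨g, rfl, rfl, rfl⟩ := norm_tu hd (h.2.1 t ht).1 (h.2.1 u hu).1 (quartet_disj h ht hu e) (h.2.2 t ht u hu e)
  have := smul_quartet g⁻¹ h
  rw [inv_smul_smul] at this
  exact ⟨g, Prod.ext rfl (by
    rw [← quartet_uniq this (mem_inv_smul_finset_iff.2 ht) (mem_inv_smul_finset_iff.2 hu)]; exact smul_inv_smul g Q)⟩

theorem quartets_eq : quartets (cw 863) = rng 220 qX := by
  rw [← orbit_qX]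
  ext Q
  rw [mem_orbit_sub]
  refine ⟨fun h => ?_, ?_⟩
  · obtain ⟨g, hg⟩ := orbit_dQ (cw_mem_dodecads (by decide +kernel)) h
    exact ⟨g, congrArg Prod.fst hg, congrArg Prod.snd hg⟩
  · rintro ⟨g, hg, rfl⟩
    have := smul_quartet g qX_0_mem
    rwa [hg] at this

end Cfsg.Agent.St
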