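/-
Frobenius complements: the normal Z-subgroup with quotient `1`, `V₄`, `A₄`, `S₄`, `A₅` or `S₅`.
-/
import Cfsg.Agent.GS.Pres5

namespace Cfsg.Agent.GS

open Subgroup Cfsg.Agent.H1 Cfsg.Agent.BG
open Cfsg.Agent.H2 hiding card_lt_of_lt card_lt_of_ne_top isMulCommutative_of_le isPGroup_zpowers_iff mem_of_pow_mem_of_coprime inf_eq_bot_of_cop exists_maxElem_ge Sec
open Cfsg.Agent.H8 (Op Opp Fit SN Comp Lay)
open Cfsg.Agent.L (FPF QP)
open scoped commutatorElement Pointwise MatrixGroups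

universe u

variable {G : Type u} [Group G] [Finite G]
variable {p q r k n : ℕ} {A B C D E H K M N P Q R S T U V W X Y Z : Subgroup G} {a b c g t u v x y z : G}

/-- `G / N ≅ X`. -/
def Quo {G : Type*} [Group G] (N : Subgroup G) (X : Type*) [Group X] : Prop :=
  ∃ f : G →* X, Function.Surjective f ∧ f.ker = N

omit [Finite G] in
theorem quo_of_equiv [N.Normal] {X : Type*} [Group X] (e : Nonempty (G ⧸ N ≃* X)) : Quo N X := by
  obtain ⟨e⟩ := e
  exact ⟨e.toMonoidHom.comp (QuotientGroup.mk' N), e.surjective.comp (QuotientGroup.mk'_surjective N),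
    Subgroup.ext fun g => (map_eq_one_iff e e.injective).trans (QuotientGroup.eq_one_iff g)⟩

omit [Finite G] in
theorem Quo.comap {X G' : Type*} [Group X] [Group G'] (h : Quo N X) (f : G' →* G) (hf : Function.Surjective f) :
    Quo (N.comap f) X := by
  obtain ⟨g, s, rfl⟩ := h
  exact ⟨g.comp f, s.comp hf, rfl⟩

omit [Finite G] in
theorem Quo.index {X : Type*} [Group X] (h : Quo N X) : N.index = ♯X := by
  obtain ⟨g, s, rfl⟩ := h
  rw [index_ker, MonoidHom.range_eq_top.2 s, card_top]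

theorem equiv_S5_of (hG : ♯G = 120) [K.Normal] (e : K ≃* alternatingGroup (Fin 5)) (hC : 𝒞 K = ⊥) :
    Nonempty (G ≃* Equiv.Perm (Fin 5)) := by
  have hq : IsQuasisimple K := H8.qs_of_equiv e.symm (H8.qs_of_simple not_comm_A5)
  have hK : ♯K = 60 := (Nat.card_congr e.toEquiv).trans card_A5
  obtain ⟨H, hH, ⟨e'⟩⟩ := H4.exists_A4_le_A5 e
  obtain ⟨a, b, kp, ha, hb, hn, -⟩ := H4.exists_KP_of_A4 e'
  have hV : H4.V4 a b ≤ K := H4.V4_le (hH ha) (hH hb)
  have h4 := kp.card
  have hS : SylIn 2 (H4.V4 a b) K := sylIn_of_not_dvd hV (IsPGroup.of_card (n := 2) h4) (by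
    have := card_mul_relIndex hV
    rw [h4, hK] at this
    omega)
  have h1 := hS.frattini_sup (H := ⊤) le_top le_normalizer_of_normal
  rw [top_inf_eq] at h1
  have nK : ¬ K ≤ 𝒩 (H4.V4 a b) := fun h => by
    rcases H8.qs_norm hq hV h with e | e
    · rw [e] at h4; omega
    · have := commutator_eq_bot_iff_le_centralizer.1 e (H4.left_mem_V4 a b)
      rw [hC] at this
      exact kp.a1 this
  have h2 : (𝒩 (H4.V4 a b)).index = 5 := by
    rw [← relIndex_top_right, ← h1, sup_comm, H8.relIndex_sup_of_norm' le_normalizer_of_normal]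
    have h5 : H.relIndex K = 5 := by
      have := card_mul_relIndex hH
      rw [(Nat.card_congr e'.toEquiv).trans card_A4] at this
      omega
    exact ((Nat.dvd_prime Nat.prime_five).1 (h5 ▸ relIndex_dvd_of_le_left K hn)).resolve_left fun e => nK (relIndex_eq_one.1 e)
  obtain ⟨f, hf⟩ := H4.exists_hom_perm (𝒩 (H4.V4 a b)) (by
    rcases H8.qs_norm hq (N := K ⊓ (𝒩 (H4.V4 a b)).normalCore) inf_le_left le_normalizer_of_normal with e | e
    · exact absurd ((inf_eq_left.1 e).trans (normalCore_le _)) nK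
    · rw [commutator_eq_bot_iff_le_centralizer, hC, le_bot_iff] at e
      rw [eq_bot_iff, ← hC, ← commutator_eq_bot_iff_le_centralizer, eq_bot_iff, ← e, inf_comm]
      exact commutator_le_inf _ _) h2
  exact H4.equiv_perm_of_injective f hf hG

theorem CQ.quot (h : ∀ P : Subgroup G, IsPGroup 2 P → IsCyclic P ∨ ∃ n : ℕ, 1 ≤ n ∧ Nonempty (P ≃* QuaternionGroup (2 ^ n)))
    (N : Subgroup G) [N.Normal] (hN : (♯N).Coprime 2) : CQ (G ⧸ N) := fun P hP => by
  obtain ⟨R, hR, -, rfl⟩ := exists_lift_pgroup N hP (U := ⊥) IsPGroup.of_bot bot_le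
  obtain ⟨e⟩ := nonempty_equiv_map_of_disjoint (QuotientGroup.mk' N) (X := R) (by
    rw [QuotientGroup.ker_mk']
    exact H8.eq_bot_of_pgroup_coprime (hR.pgrp.to_le inf_le_left) (H8.coprime_of_le inf_le_right hN))
  rcases h R hR.pgrp with h | ⟨n, hn, ⟨e'⟩⟩
  · exact Or.inl (isCyclic_of_surjective e e.surjective)
  · obtain ⟨n, rfl⟩ := Nat.exists_eq_add_of_le' hn
    obtain ⟨a, b, h⟩ := L.exists_qP (by positivity) (e.symm.trans e')
    exact Or.inr ⟨n, a, b, h⟩

theorem quo_klein [N.Normal] (h4 : N.index = 4) (h : ∀ g, g * g ∈ N) : Quo N (DihedralGroup 2) := by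
  haveI : Nontrivial (G ⧸ N) := Finite.one_lt_card_iff_nontrivial.1 (by change 1 < N.index; omega)
  haveI : IsKleinFour (G ⧸ N) := ⟨h4, (Monoid.exponent_eq_prime_iff Nat.prime_two).2 fun g hg => by
    obtain ⟨g, rfl⟩ := QuotientGroup.mk'_surjective N g
    exact orderOf_eq_prime (by rw [pow_two, ← map_mul]; exact (QuotientGroup.eq_one_iff _).2 (h g)) hg⟩
  exact quo_of_equiv IsKleinFour.nonempty_mulEquiv

theorem CQ.core (h : CQ G) (hs : Group.IsSolvable G) (hO : Opp 2 (⊤ : Subgroup G) = ⊥) : ∃ N : Subgroup G, N.Normal ∧ IsCyclic N ∧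
    (N = ⊤ ∨ Quo N (DihedralGroup 2) ∨ Quo N (alternatingGroup (Fin 4)) ∨ Quo N (Equiv.Perm (Fin 4))) := by
  by_cases h2 : IsPGroup 2 (⊤ : Subgroup G)
  · rcases h ⊤ h2 with hc | ⟨n, a, b, q⟩
    · exact ⟨⊤, inferInstance, hc, Or.inl rfl⟩
    haveI : (zpowers (a ^ 2)).Normal := q.commutator_eq ▸ inferInstance
    refine ⟨zpowers (a ^ 2), this, inferInstance, Or.inr (Or.inl (quo_klein ?_ fun g => ?_))⟩
    · have := (zpowers (a ^ 2)).card_mul_index
      rw [Nat.card_zpowers, q.ord_sq, ← card_top, q.card, mul_comm] at this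
      exact Nat.eq_of_mul_eq_mul_right q.pos this
    · by_cases hg : g ∈ zpowers a
      · obtain ⟨i, rfl⟩ := hg
        exact ⟨i, by simp only; rw [pow_two, (Commute.refl a).mul_zpow]⟩
      · rw [q.mul_self_of_not_mem (mem_top g) hg, pow_succ' 2, pow_mul]
        exact pow_mem (mem_zpowers _) _
  have hC := cent_Op_le (p := 2) (X := (⊤ : Subgroup G)) (isSolvable_of_equiv topEquiv.symm hs) hO
  rw [top_inf_eq] at hC
  have hQ := H8.Op_isPGroup 2 (⊤ : Subgroup G)
  haveI : (Op 2 (⊤ : Subgroup G)).Normal := normalizer_eq_top_iff.1 (top_le_iff.1 (H8.le_normalizer_Op _ _))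
  have hmax : ∀ R : Subgroup G, R.Normal → IsPGroup 2 R → R ≤ Op 2 ⊤ := fun R _ hR => H8.le_Op le_top le_normalizer_of_normal hR
  generalize Op 2 (⊤ : Subgroup G) = Q at *
  obtain ⟨g, g1, go⟩ : ∃ g : G, g ≠ 1 ∧ (orderOf g).Coprime 2 := by
    by_contra hn
    push Not at hn
    refine h2 (isPGroup_of_resOf_eq_bot (eq_bot_iff.2 (resOf_le_iff.2 fun g _ hg => ?_)))
    by_contra h1
    exact hn g h1 hg
  have gC : g ∉ 𝒞 Q := fun e => g1 (eq_one_of_mem_pgroup_of_coprime hQ (hC e) go)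
  have gN : g ∈ 𝒩 Q := le_normalizer_of_normal (mem_top g)
  obtain ⟨a, ha, hA⟩ := h.exists_ix2 hQ
  obtain ⟨b, q⟩ : ∃ b, QP Q 2 a b := by
    obtain ⟨x, k | q⟩ := OddN.k4_or_qp ⟨g, gN, go, gC⟩ hQ ha hA
    · rcases h Q hQ with hc | ⟨n, a, b, q⟩
      · exact absurd hc (IsKleinFour.not_isCyclic' k.isKleinFour)
      · have := q.card
        rw [k.card, pow_succ] at this
        omega
    · exact ⟨_, q⟩
  have hZ : 𝒞 Q = zpowers (a ^ 2) := by
    refine le_antisymm (fun x hx => ?_) (zpowers_le.2 fun x hx => q.commute_t hx)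
    have := q.sq_of_cent le_rfl (hC hx) hx
    by_cases h1 : x = 1
    · rw [h1]; exact one_mem _
    · rw [q.eq_t (hC hx) (orderOf_eq_prime ((pow_two x).trans this) h1)]; exact mem_zpowers _
  have cZ : ♯(𝒞 Q) = 2 := by rw [hZ, Nat.card_zpowers, q.ord_t]
  have cQ : (Q : Set G).ncard = 8 := q.card
  have i1 : (𝒞 Q).index ≤ 24 := by
    have e : 𝒞 Q = 𝒞₁ a ⊓ 𝒞₁ b := le_antisymm
      (le_inf (centralizer_le (Set.singleton_subset_iff.2 q.a_mem)) (centralizer_le (Set.singleton_subset_iff.2 q.b_mem)))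
      fun x hx y hy => by
        have h1 : Commute a x := (mem_centralizer_singleton_iff.1 hx.1).symm
        have h2 : Commute b x := (mem_centralizer_singleton_iff.1 hx.2).symm
        obtain ⟨k, rfl | rfl⟩ := (q.mem y).1 hy
        exacts [h1.zpow_left k, h2.mul_left (h1.zpow_left k)]
    rw [e, ← relIndex_mul_index inf_le_left, inf_relIndex_left, ← relIndex_top_right]
    refine (Nat.mul_le_mul (?_ : _ ≤ 4) (?_ : _ ≤ 6)).trans le_rfl
    · refine (relIndex_cent1_le (S := (Q : Set G) \ zpowers a) fun x hx =>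
        ⟨Normal.conj_mem inferInstance _ q.b_mem _, fun hb => q.nmem ?_⟩).trans ?_
      · obtain ⟨i, hi⟩ := hb
        refine ⟨i, ?_⟩
        have hx' : Commute x a := mem_centralizer_singleton_iff.1 hx
        simp only at hi ⊢
        rw [eq_mul_inv_iff_mul_eq, ← (hx'.zpow_right i).eq] at hi
        exact mul_left_cancel hi
      · rw [Set.ncard_sdiff q.zpowers_le, cQ, show (zpowers a : Set G).ncard = ♯(zpowers a) from rfl, Nat.card_zpowers, q.ord]
    · refine (relIndex_cent1_le (S := (Q : Set G) \ 𝒞 Q) fun x _ =>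
        ⟨Normal.conj_mem inferInstance _ q.a_mem _, fun hb => ?_⟩).trans ?_
      · have := Normal.conj_mem' inferInstance _ hb x
        simp only [mul_assoc, inv_mul_cancel, mul_one, inv_mul_cancel_left] at this
        have := Nat.le_of_dvd two_pos (orderOf_dvd_of_pow_eq_one ((pow_two a).trans (q.sq_of_cent le_rfl q.a_mem this)))
        rw [q.ord] at this
        omega
      · rw [Set.ncard_sdiff hC, cQ, show (𝒞 Q : Set G).ncard = ♯(𝒞 Q) from rfl, cZ]
  have i2 : 12 ∣ (𝒞 Q).index := by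
    have e1 := card_mul_relIndex hC
    have e2 := relIndex_mul_index hC
    have e3 := (𝒞 Q).card_mul_index
    have e4 : 3 ∣ ♯G := by
      by_contra h3
      exact gC (h.mem_cent hQ gN go (Nat.prime_three.coprime_iff_not_dvd.2 fun e => h3 (e.trans (orderOf_dvd_natCard g))).symm)
    rw [cZ, q.card] at e1
    rw [show (𝒞 Q).relIndex Q = 4 by omega] at e2
    rw [cZ] at e3
    omega
  have cm : ∀ R : Subgroup (G ⧸ 𝒞 Q), ♯(R.comap (QuotientGroup.mk' _)) = 2 * ♯R := fun R => by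
    rw [card_comap_mk', cZ]
  have h3 : ∀ R : Subgroup (G ⧸ 𝒞 Q), R.Normal → ♯R ≠ 3 := fun R _ hR => by
    have h6 := cm R
    have hN : PNil 2 (R.comap (QuotientGroup.mk' _)) := L.pNil_of_isCyclic (P := 𝒞 Q) (sylIn_of_not_dvd
      (fun x hx => by rw [mem_comap, show QuotientGroup.mk' _ x = 1 from (QuotientGroup.eq_one_iff x).2 hx]; exact one_mem _)
      (hQ.to_le hC) (by rw [relIndex_comap_mk', hR]; decide)) (hZ ▸ inferInstance)
    have h7 : resOf 2 (R.comap (QuotientGroup.mk' _)) = ⊥ :=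
      eq_bot_iff.2 (hO ▸ H8.le_Opp le_top le_normalizer_of_normal (pNil_iff_card.1 hN))
    obtain ⟨k, hk⟩ := IsPGroup.iff_card.1 (isPGroup_of_resOf_eq_bot h7)
    rw [hk, hR] at h6
    exact absurd (Nat.prime_three.dvd_of_dvd_pow (h6 ▸ (by decide : 3 ∣ 2 * 3))) (by decide)
  refine ⟨𝒞 Q, inferInstance, hZ ▸ inferInstance, Or.inr (Or.inr ?_)⟩
  have h0 : (𝒞 Q).index ≠ 0 := index_ne_zero_of_finite
  obtain e | e : (𝒞 Q).index = 12 ∨ (𝒞 Q).index = 24 := by omega
  · exact Or.inl (quo_of_equiv (H4.equiv_A4_of e h3))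
  refine Or.inr (quo_of_equiv (H4.equiv_S4_of e h3 fun R _ hR => ?_))
  have h4 := cm R
  rw [hR] at h4
  have h5 := hmax _ inferInstance (IsPGroup.of_card (p := 2) (n := 2) h4)
  obtain ⟨x, hx⟩ := (Subgroup.isCyclic_iff_exists_zpowers_eq_top _).1 (q.isCyclic_of_lt8 (lt_of_le_of_ne h5 fun e => by
    rw [e, q.card] at h4; omega))
  have x4 : orderOf x = 4 := by rw [← Nat.card_zpowers, hx, h4]
  have xQ : x ∈ Q := h5 (hx ▸ mem_zpowers x)
  obtain ⟨y, hy, hy'⟩ : ∃ y ∈ Q, y ∉ zpowers x := exists_not_mem_of_card_lt (by rw [hx, h4, q.card]; decide)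
  refine (q.symm8 xQ x4 hy hy').not_mem_of_odd8 gN go hQ gC ?_
  rw [hx]
  exact Normal.conj_mem inferInstance _ (hx ▸ mem_zpowers x) g

theorem FC.exists_quo_solv (h : FC G) (hs : Group.IsSolvable G) : ∃ N : Subgroup G, N.Normal ∧ IsZGroup N ∧
    (N = ⊤ ∨ Quo N (DihedralGroup 2) ∨ Quo N (alternatingGroup (Fin 4)) ∨ Quo N (Equiv.Perm (Fin 4))) := by
  have hO := H8.Opp_coprime 2 (⊤ : Subgroup G)
  rw [H8.Opp_top] at hO
  obtain ⟨N, hN, hc, h4⟩ := (CQ.quot (fun P hP => (h.cyc_or_quat hP).imp id fun e => e.2) (pPrimeCore 2 G) hO).core inferInstance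
    (by rw [H8.Opp_top]; exact H1.pPrimeCore_quotient_eq_bot _ rfl)
  have s := QuotientGroup.mk'_surjective (pPrimeCore 2 G)
  refine ⟨N.comap (QuotientGroup.mk' _), inferInstance, h.zgroup_of_cyc fun P hP hp => ?_,
    h4.imp (fun e => by rw [e, comap_top]) (Or.imp (·.comap _ s) (Or.imp (·.comap _ s) (·.comap _ s)))⟩
  obtain ⟨e⟩ := nonempty_equiv_map_of_disjoint (QuotientGroup.mk' (pPrimeCore 2 G)) (X := P) (by
    rw [QuotientGroup.ker_mk']
    exact H8.eq_bot_of_pgroup_coprime (hp.to_le inf_le_left) (H8.coprime_of_le inf_le_right hO))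
  haveI := isCyclic_of_le (map_le_iff_le_comap.2 hP)
  exact isCyclic_of_surjective e.symm e.symm.surjective

theorem FC.exists_quo_ns (h : FC G) (hs : ¬ Group.IsSolvable G) : ∃ N : Subgroup G, N.Normal ∧ IsZGroup N ∧
    (Quo N (alternatingGroup (Fin 5)) ∨ Quo N (Equiv.Perm (Fin 5))) := by
  obtain ⟨K, M, z, s⟩ := h.exists_zasNS hs
  haveI := s.nK
  haveI := s.nM
  have hM : (♯M).Coprime 2 := s.cop.coprime_dvd_right (by decide)
  have hz : IsPGroup 2 (zpowers z) := H8.isPGroup_zpowers (k := 1) s.ord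
  have hZ : IsZGroup (𝒞 K) := h.zgroup_of_cyc fun P hP hp => by
    have hS : SylIn 2 (zpowers z) (𝒞 K) := by
      rw [s.cent]
      refine sylIn_of_not_dvd le_sup_right hz fun e => ?_
      rw [sup_comm, H8.relIndex_sup_of_norm' le_normalizer_of_normal] at e
      exact absurd (hM.coprime_dvd_left (e.trans (relIndex_dvd_card _ _))) (by decide)
    obtain ⟨g, -, hg⟩ := hS.exists_le_cj hp hP
    rw [H2.cj_zpowers] at hg
    exact isCyclic_of_le hg
  have h1 : K ⊔ M = K ⊔ 𝒞 K := by rw [s.cent, sup_comm M, ← sup_assoc, sup_eq_left.2 (zpowers_le.2 s.mem)]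
  obtain ⟨f, z', fs, -, -, fk⟩ := (h.subgroup K).qs_cover s.qs
  have h2 : (𝒞 K).subgroupOf K = center K := by
    ext x
    rw [mem_subgroupOf, mem_center_iff]
    exact ⟨fun a g => Subtype.ext (a g g.2), fun a g hg => congrArg Subtype.val (a ⟨g, hg⟩)⟩
  have e : K.map (QuotientGroup.mk' (𝒞 K)) ≃* alternatingGroup (Fin 5) :=
    (MulEquiv.subgroupCongr (by rw [MonoidHom.range_comp, range_subtype])).trans
      ((QuotientGroup.quotientKerEquivRange ((QuotientGroup.mk' (𝒞 K)).comp K.subtype)).symm.trans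
      ((QuotientGroup.quotientMulEquivOfEq (by rw [fk, ← h2, ← MonoidHom.comap_ker, QuotientGroup.ker_mk']; rfl)).trans
        (QuotientGroup.quotientKerEquivOfSurjective f fs)))
  have h4 : (𝒞 K).relIndex (K ⊔ 𝒞 K) = 60 := by
    rw [relIndex_sup_right, relIndex, h2, ← fk, index_ker, MonoidHom.range_eq_top.2 fs, card_top, card_A5]
  have h5 := relIndex_mul_index (le_sup_right : 𝒞 K ≤ K ⊔ 𝒞 K)
  rw [h4, ← h1] at h5
  refine ⟨𝒞 K, inferInstance, hZ, s.index.imp (fun i => quo_of_equiv (a5_of_not_solv (by change (𝒞 K).index < _; omega)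
    fun hq => hs (isSolvable_of_normal_of_quotient _ inferInstance hq))) fun i => quo_of_equiv ?_⟩
  haveI : (K.map (QuotientGroup.mk' (𝒞 K))).Normal := s.nK.map _ (QuotientGroup.mk'_surjective _)
  refine equiv_S5_of (by change (𝒞 K).index = _; omega) e (eq_bot_iff.2 fun x hx => ?_)
  obtain ⟨x, rfl⟩ := QuotientGroup.mk'_surjective _ x
  refine (QuotientGroup.eq_one_iff x).2 (zpowers_le.1 (commutator_eq_bot_iff_le_centralizer.1
    (H8.commutator_eq_bot_of_perfect (H8.qs_perfect s.qs) (commutator_eq_bot_iff_le_centralizer.2 ?_))))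
  refine le_trans ?_ (QuotientGroup.ker_mk' (𝒞 K)).le
  rw [ ← Subgroup.map_eq_bot_iff, map_commutator, MonoidHom.map_zpowers,
    commutator_eq_bot_iff_le_centralizer, zpowers_le]
  exact hx

/-- No non-trivial normal subgroup is a Z-group. -/
def NZ (X : Type*) [Group X] : Prop := ∀ N : Subgroup X, N.Normal → IsZGroup N → N = ⊥

theorem not_zgroup_of_KP (h : H4.KP a b) (ha : a ∈ N) (hb : b ∈ N) : ¬ IsZGroup N := fun hZ =>
  IsKleinFour.not_isCyclic' h.isKleinFour (isZGroup_iff_forall.1 hZ 2 Nat.prime_two _ (H4.V4_le ha hb) (IsPGroup.of_card (n := 2) h.card))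

theorem nz_of {X : Type*} [Group X] [Finite X] {a b : X} (h : H4.KP a b) (hc : ∃ g, b = g * a * g⁻¹)
    (h1 : ∀ x, x = 1 ∨ ∃ g k, a = g * x * g⁻¹ ∨ a = g * x * g⁻¹ * (k * x⁻¹ * k⁻¹)) : NZ X := fun N hN hZ => by
  rw [eq_bot_iff]
  intro x hx
  refine (h1 x).resolve_right fun ⟨g, k, e⟩ => ?_
  have ha : a ∈ N := by
    rcases e with e | e <;> rw [e]
    exacts [hN.conj_mem _ hx _, mul_mem (hN.conj_mem _ hx _) (hN.conj_mem _ (inv_mem hx) _)]
  obtain ⟨g, rfl⟩ := hc
  exact not_zgroup_of_KP h ha (hN.conj_mem _ ha _) hZ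

theorem nz_A4 : NZ (alternatingGroup (Fin 4)) :=
  nz_of (a := ⟨c[0, 1] * c[2, 3], Equiv.Perm.mem_alternatingGroup.2 (by decide)⟩)
    (b := ⟨c[0, 2] * c[1, 3], Equiv.Perm.mem_alternatingGroup.2 (by decide)⟩)
    ⟨by decide, by decide, by decide, by decide, by decide, by decide⟩ (by decide +kernel) (by decide +kernel)

theorem nz_S4 : NZ (Equiv.Perm (Fin 4)) :=
  nz_of (a := c[0, 1] * c[2, 3]) (b := c[0, 2] * c[1, 3])
    ⟨by decide, by decide, by decide, by decide, by decide, by decide⟩ (by decide +kernel) (by decide +kernel)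

theorem nz_A5 : NZ (alternatingGroup (Fin 5)) := fun N hN hZ => hN.eq_bot_or_eq_top.resolve_right fun e => by
  subst e
  exact H8.not_solvable_top_of_simple not_comm_A5 inferInstance

theorem nz_S5 : NZ (Equiv.Perm (Fin 5)) := fun N hN hZ => by
  have h1 := nz_A5 (N.subgroupOf _) (hN.subgroupOf _) (IsZGroup.of_injective
    (f := (alternatingGroup (Fin 5)).subtype.subgroupComap N) fun a b e => Subtype.ext (Subtype.ext (congrArg (fun x : N => x.1) e)))
  rw [subgroupOf_eq_bot, disjoint_iff] at h1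
  have h2 : N ≤ 𝒞 (alternatingGroup (Fin 5)) := commutator_eq_bot_iff_le_centralizer.1 (eq_bot_iff.2 (h1 ▸ commutator_le_inf _ _))
  have h3 : ∀ x : Equiv.Perm (Fin 5), c[0, 1, 2] * x = x * c[0, 1, 2] → c[2, 3, 4] * x = x * c[2, 3, 4] → x = 1 := by
    decide +kernel
  exact eq_bot_iff.2 fun x hx => h3 x (h2 hx _ (Equiv.Perm.mem_alternatingGroup.2 (by decide)))
    (h2 hx _ (Equiv.Perm.mem_alternatingGroup.2 (by decide)))

theorem Quo.le_of_nz {X : Type*} [Group X] (h : Quo N X) (hX : NZ X) [M.Normal] (hM : IsZGroup M) : M ≤ N := by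
  obtain ⟨f, s, rfl⟩ := h
  exact (Subgroup.map_eq_bot_iff M).1 (hX _ (Normal.map inferInstance f s) (IsZGroup.of_surjective (f.subgroupMap_surjective M)))

/-- The six possibilities for the quotient. -/
def Quo6 {G : Type*} [Group G] (N : Subgroup G) : Prop :=
  N = ⊤ ∨ Quo N (DihedralGroup 2) ∨ Quo N (alternatingGroup (Fin 4)) ∨ Quo N (Equiv.Perm (Fin 4)) ∨
    Quo N (alternatingGroup (Fin 5)) ∨ Quo N (Equiv.Perm (Fin 5))

theorem Quo6.cases (h : Quo6 N) : N = ⊤ ∨ Quo N (DihedralGroup 2) ∨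
    (4 < N.index ∧ ∀ M : Subgroup G, M.Normal → IsZGroup M → M ≤ N) := by
  refine h.imp id (Or.imp id ?_)
  rintro (h | h | h | h)
  · exact ⟨by rw [h.index, card_A4]; decide, fun M _ hM => h.le_of_nz nz_A4 hM⟩
  · exact ⟨by rw [h.index, H4.card_S4]; decide, fun M _ hM => h.le_of_nz nz_S4 hM⟩
  · exact ⟨by rw [h.index, card_A5]; decide, fun M _ hM => h.le_of_nz nz_A5 hM⟩
  · exact ⟨by rw [h.index, Nat.card_perm]; simp; decide, fun M _ hM => h.le_of_nz nz_S5 hM⟩

theorem FC.quo6_unique (h : FC G) [M.Normal] [N.Normal] (hM : IsZGroup M) (hN : IsZGroup N) (h1 : Quo6 M) (h2 : Quo6 N) : M = N := by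
  have i4 : ∀ {N : Subgroup G}, Quo N (DihedralGroup 2) → N.index = 4 := fun h => by rw [h.index, DihedralGroup.nat_card]
  have nt : ∀ {N : Subgroup G}, Quo N (DihedralGroup 2) → ¬ IsZGroup (⊤ : Subgroup G) := fun ⟨f, s, _⟩ hZ => by
    haveI := IsZGroup.of_surjective (f := f.comp (⊤ : Subgroup G).subtype) fun x => by
      obtain ⟨y, rfl⟩ := s x; exact ⟨⟨y, mem_top y⟩, rfl⟩
    haveI : IsCyclic (⊤ : Subgroup (DihedralGroup 2)) :=
      IsPGroup.isCyclic_of_isZGroup (p := 2) (IsPGroup.of_card (n := 2) (card_top.trans DihedralGroup.nat_card))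
    exact DihedralGroup.not_isCyclic (n := 2) (by decide) (isCyclic_of_surjective topEquiv topEquiv.surjective)
  have lt : ∀ {M N : Subgroup G}, M ≤ N → 4 < N.index → 4 < M.index := fun h1 h2 =>
    h2.trans_le (Nat.le_of_dvd (Nat.pos_of_ne_zero index_ne_zero_of_finite) (index_dvd_of_le h1))
  rcases h1.cases with rfl | a | ⟨a, a'⟩ <;> rcases h2.cases with rfl | b | ⟨b, b'⟩
  · rfl
  · exact absurd hM (nt b)
  · exact absurd (lt (b' _ inferInstance hM) b) (by simp)
  · exact absurd hN (nt a)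
  · obtain ⟨P, hP⟩ := exists_sylIn 2 (⊤ : Subgroup G)
    have sq : ∀ {N : Subgroup G}, Quo N (DihedralGroup 2) → ∀ g, g * g ∈ N := fun ⟨f, s, e⟩ g => by
      rw [← e, MonoidHom.mem_ker, map_mul]
      exact IsKleinFour.mul_self _
    have h3 : (M ⊓ N).index ∣ 4 * 4 := by
      rw [← relIndex_mul_index (inf_le_right : M ⊓ N ≤ N), inf_relIndex_right, i4 b]
      exact Nat.mul_dvd_mul_right (i4 a ▸ relIndex_dvd_index_of_normal M N) 4
    have h4 : P ⊔ M ⊓ N = ⊤ := by
      rw [← index_eq_one]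
      refine Nat.eq_one_of_dvd_coprimes (Nat.Coprime.pow_right 4 (Nat.prime_two.coprime_iff_not_dvd.2
        (not_dvd_index_of_sylIn hP le_rfl)).symm) (index_dvd_of_le le_sup_left) ((index_dvd_of_le le_sup_right).trans h3)
    obtain ⟨x, hx, hA⟩ := h.cq.exists_ix2 hP.pgrp
    have h5 : (M ⊓ N).index ≤ 4 := by
      rw [← relIndex_top_right, ← h4, relIndex_sup_right]
      have h6 : zpowers (x ^ 2) ≤ M ⊓ N := zpowers_le.2 (pow_two x ▸ ⟨sq a x, sq b x⟩)
      refine (Nat.le_of_dvd (Nat.pos_of_ne_zero index_ne_zero_of_finite) (relIndex_dvd_of_le_left P h6)).trans ?_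
      have e1 := hA.card_le
      have e2 := (ix2_zpowers_sq x).card_le
      rw [inf_eq_left.2 (zpowers_le.2 hx)] at e1
      rw [inf_eq_left.2 (zpowers_le.2 (pow_mem (mem_zpowers x) 2))] at e2
      have e3 := card_mul_relIndex (zpowers_le.2 (pow_mem hx 2))
      exact Nat.le_of_mul_le_mul_left (c := ♯(zpowers (x ^ 2))) (e3.le.trans (by omega)) Nat.card_pos
    have e : ∀ {K : Subgroup G}, M ⊓ N ≤ K → K.index = 4 → M ⊓ N = K := fun {K} h1 h2 => by
      have := relIndex_mul_index h1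
      have h0 : (M ⊓ N).relIndex K ≠ 0 := index_ne_zero_of_finite
      exact le_antisymm h1 (relIndex_eq_one.1 (by rw [h2] at this; omega))
    exact (e inf_le_left (i4 a)).symm.trans (e inf_le_right (i4 b))
  · exact absurd (lt (b' _ inferInstance hM) b) (by rw [i4 a]; decide)
  · exact absurd (lt (a' _ inferInstance hN) a) (by simp)
  · exact absurd (lt (a' _ inferInstance hN) a) (by rw [i4 b]; decide)
  · exact le_antisymm (b' _ inferInstance hM) (a' _ inferInstance hN)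

end Cfsg.Agent.GS
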