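/-
Linear groups transitive on non-zero vectors: the field generated by an abelian normal subgroup.
-/
import Cfsg.Agent.GS.Zas5

namespace Cfsg.Agent.GS

open Subgroup Cfsg.Agent.H1 Cfsg.Agent.BG
open scoped commutatorElement Pointwise MatrixGroups

universe u

theorem exists_field_equiv (R : Type*) [Ring R] [Finite R] [Nontrivial R] (hc : ∀ a b : R, a * b = b * a)
    (hz : ∀ a b : R, a * b = 0 → a = 0 ∨ b = 0) : ∃ (F : Type) (_ : Field F) (_ : Fintype F), Nonempty (F ≃+* R) := by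
  letI : CommRing R := { (inferInstance : Ring R) with mul_comm := hc }
  haveI : NoZeroDivisors R := ⟨fun {a b} => hz a b⟩
  haveI : IsDomain R := NoZeroDivisors.to_isDomain R
  letI : Field R := (Finite.isField_of_domain R).toField
  let e := (Finite.equivFin R).symm
  exact ⟨Fin (Nat.card R), e.field, inferInstance, ⟨e.ringEquiv⟩⟩

theorem ringAut_facts' {F : Type*} [Field F] [Fintype F] {p f : ℕ} [Fact p.Prime] [CharP F p] (hF : Fintype.card F = p ^ f) :
    IsCyclic (F ≃+* F) ∧ Nat.card (F ≃+* F) = f := by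
  letI := ZMod.algebra F p
  let e : (F ≃+* F) ≃* (F ≃ₐ[ZMod p] F) :=
    { toFun := fun σ => AlgEquiv.ofRingEquiv (f := σ) fun x =>
        RingHom.congr_fun (RingHom.ext_zmod ((σ : F →+* F).comp (algebraMap _ _)) (algebraMap _ _)) x
      invFun := fun σ => σ.toRingEquiv
      left_inv := fun _ => rfl
      right_inv := fun _ => rfl
      map_mul' := fun _ _ => rfl }
  refine ⟨isCyclic_of_surjective e.symm e.symm.surjective, ?_⟩
  rw [Nat.card_congr e.toEquiv, IsGalois.card_aut_eq_finrank]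
  have h := Module.card_eq_pow_finrank (K := ZMod p) (V := F)
  rw [ZMod.card, hF] at h
  exact (Nat.pow_right_injective (Fact.out : p.Prime).two_le h).symm

variable {p : ℕ} [Fact p.Prime] {V : Type*} [AddCommGroup V] [Module (ZMod p) V] [Finite V]
  {G : Type u} [Group G] {ρ : G →* (V ≃ₗ[ZMod p] V)} {A : Subgroup G}

/-- `V` can be identified with a finite field on which `G` acts semilinearly. -/
def Semi1 (ρ : G →* (V ≃ₗ[ZMod p] V)) : Prop :=
  ∃ (F : Type) (_ : Field F) (_ : Fintype F) (e : V ≃+ F), ∀ g : G, ∃ (a : F) (σ : F ≃+* F), ∀ v : V, e (ρ g v) = a * σ (e v)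

/-- `A` acts irreducibly. -/
def Irr (ρ : G →* (V ≃ₗ[ZMod p] V)) (A : Subgroup G) : Prop :=
  ∀ W : Submodule (ZMod p) V, (∀ a ∈ A, ∀ v ∈ W, ρ a v ∈ W) → W = ⊥ ∨ W = ⊤

/-- The field `F` generated by `A`, with the Galois action of `G`. -/
structure FStr (ρ : G →* (V ≃ₗ[ZMod p] V)) (A : Subgroup G) {F : Type} [Field F] (ι : F →+* Module.End (ZMod p) V)
    (σ : G →* (F ≃+* F)) : Prop where
  semi : ∀ g x v, ρ g (ι x v) = ι (σ g x) (ρ g v)
  mem : ∀ a ∈ A, ∃ x, ∀ v, ρ a v = ι x v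
  ker : σ.ker = 𝒞 A
  gen : ∀ W : Submodule (ZMod p) V, (∀ a ∈ A, ∀ v ∈ W, ρ a v ∈ W) → ∀ x, ∀ v ∈ W, ι x v ∈ W

theorem exists_fStr_of [Nontrivial V] (hρ : Function.Injective ρ) [A.Normal] (hA : IsMulCommutative A)
    (h : ∀ r ∈ Algebra.adjoin (ZMod p) ((fun a : G => (ρ a : Module.End (ZMod p) V)) '' A), ∀ v, v ≠ 0 → r v = 0 → r = 0) :
    ∃ (F : Type) (_ : Field F) (_ : Fintype F) (ι : F →+* Module.End (ZMod p) V) (σ : G →* (F ≃+* F)), FStr ρ A ι σ := by
  let ε : G →* Module.End (ZMod p) V := LinearEquiv.automorphismGroup.toLinearMapMonoidHom.comp ρ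
  change ∀ r ∈ Algebra.adjoin (ZMod p) (ε '' A), _ at h
  set R := Algebra.adjoin (ZMod p) (ε '' A) with hR
  have hc : ∀ r ∈ R, ∀ s ∈ R, r * s = s * r := fun r hr s hs =>
    Algebra.commute_of_mem_adjoin_of_forall_mem_commute hs fun b hb =>
      (Algebra.commute_of_mem_adjoin_of_forall_mem_commute hr fun a ha => by
        obtain ⟨a, ha, rfl⟩ := ha
        obtain ⟨b, hb, rfl⟩ := hb
        exact (show Commute b a from congrArg Subtype.val (hA.is_comm.comm ⟨b, hb⟩ ⟨a, ha⟩)).map ε).symm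
  have hj : ∀ g, ∀ r ∈ R, ε g * r * ε g⁻¹ ∈ R := fun g r hr => by
    induction hr using Algebra.adjoin_induction with
    | mem x hx =>
      obtain ⟨a, ha, rfl⟩ := hx
      rw [← map_mul, ← map_mul]
      exact Algebra.subset_adjoin ⟨_, Normal.conj_mem inferInstance a ha g, rfl⟩
    | algebraMap c => rw [← Algebra.commutes, mul_assoc, ← map_mul, mul_inv_cancel, map_one, mul_one]; exact R.algebraMap_mem c
    | add x y _ _ hx hy => rw [mul_add, add_mul]; exact add_mem hx hy
    | mul x y _ _ hx hy =>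
      have : ε g * (x * y) * ε g⁻¹ = ε g * x * ε g⁻¹ * (ε g * y * ε g⁻¹) := by
        simp only [mul_assoc]; rw [← mul_assoc (ε g⁻¹), ← map_mul, inv_mul_cancel, map_one, one_mul]
      rw [this]; exact mul_mem hx hy
  haveI : Finite (Module.End (ZMod p) V) := Finite.of_injective _ DFunLike.coe_injective
  obtain ⟨F, _, _, ⟨φ⟩⟩ := exists_field_equiv R (fun a b => Subtype.ext (hc _ a.2 _ b.2)) fun a b hab => by
    refine or_iff_not_imp_right.2 fun hb => Subtype.ext ?_
    obtain ⟨v, hv⟩ := exists_ne (0 : V)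
    exact h _ a.2 (b.1 v) (fun e => hb (Subtype.ext (h _ b.2 v hv e))) (LinearMap.congr_fun (congrArg Subtype.val hab) v)
  have ee : ∀ g, ε g * ε g⁻¹ = 1 := fun g => by rw [← map_mul, mul_inv_cancel, map_one]
  have ee' : ∀ g, ε g⁻¹ * ε g = 1 := fun g => by rw [← map_mul, inv_mul_cancel, map_one]
  let c : G → R ≃+* R := fun g =>
    { toFun := fun r => ⟨ε g * r * ε g⁻¹, hj g _ r.2⟩
      invFun := fun r => ⟨ε g⁻¹ * r * ε g⁻¹⁻¹, hj g⁻¹ _ r.2⟩
      left_inv := fun r => Subtype.ext (by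
        simp only [inv_inv, mul_assoc, ee', mul_one]; rw [← mul_assoc, ee', one_mul])
      right_inv := fun r => Subtype.ext (by
        simp only [inv_inv, mul_assoc, ee, mul_one]; rw [← mul_assoc, ee, one_mul])
      map_mul' := fun r s => Subtype.ext (by
        simp only [MulMemClass.coe_mul, mul_assoc]; rw [← mul_assoc (ε g⁻¹), ee', one_mul])
      map_add' := fun r s => Subtype.ext (by simp [mul_add, add_mul]) }
  let σ : G →* (F ≃+* F) :=
    { toFun := fun g => φ.trans ((c g).trans φ.symm)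
      map_one' := RingEquiv.ext fun x => φ.injective (Subtype.ext (by simp [c]))
      map_mul' := fun g k => RingEquiv.ext fun x => φ.injective (Subtype.ext (by simp [c, mul_assoc])) }
  let ι : F →+* Module.End (ZMod p) V := R.val.toRingHom.comp φ.toRingHom
  have hσ : ∀ g x, ι (σ g x) = ε g * ι x * ε g⁻¹ := fun g x => by simp [ι, σ, c]
  have hι : ∀ r ∈ R, ∃ x, ι x = r := fun r hr => ⟨φ.symm ⟨r, hr⟩, by simp [ι]⟩
  refine ⟨F, _, ‹_›, ι, σ, fun g x v => ?_, fun a ha => ?_, ?_, fun W hW x => ?_⟩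
  · rw [hσ]
    change _ = (ε g * ι x * ε g⁻¹ * ε g) v
    rw [mul_assoc, ee', mul_one]; rfl
  · obtain ⟨x, hx⟩ := hι (ε a) (Algebra.subset_adjoin ⟨a, ha, rfl⟩)
    exact ⟨x, fun v => by rw [hx]; rfl⟩
  · ext g
    refine ⟨fun hg a ha => ?_, fun hg => RingEquiv.ext fun x => ι.injective ?_⟩
    · obtain ⟨x, hx⟩ := hι (ε a) (Algebra.subset_adjoin ⟨a, ha, rfl⟩)
      have := hσ g x
      rw [show σ g = 1 from hg, show (1 : F ≃+* F) x = x from rfl, hx, ← map_mul, ← map_mul] at this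
      exact eq_mul_inv_iff_mul_eq.1 (hρ (LinearEquiv.toLinearMap_injective this))
    · have : Commute (ε g) (ι x) := Algebra.commute_of_mem_adjoin_of_forall_mem_commute (φ x).2 (by
        rintro _ ⟨a, ha, rfl⟩
        exact (show Commute g a from (hg a ha).symm).map ε)
      rw [hσ, this.eq, mul_assoc, ee, mul_one]; rfl
  · have : ∀ r ∈ R, ∀ v ∈ W, r v ∈ W := fun r hr => by
      induction hr using Algebra.adjoin_induction with
      | mem x hx => obtain ⟨a, ha, rfl⟩ := hx; exact hW a ha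
      | algebraMap c => exact fun v hv => W.smul_mem c hv
      | add x y _ _ hx hy => exact fun v hv => W.add_mem (hx v hv) (hy v hv)
      | mul x y _ _ hx hy => exact fun v hv => hx _ (hy v hv)
    exact this _ (φ x).2

theorem exists_fStr [Nontrivial V] (hρ : Function.Injective ρ) (ht : ∀ v w : V, v ≠ 0 → w ≠ 0 → ∃ g : G, ρ g v = w)
    [A.Normal] (hA : IsMulCommutative A) :
    ∃ (F : Type) (_ : Field F) (_ : Fintype F) (ι : F →+* Module.End (ZMod p) V) (σ : G →* (F ≃+* F)), FStr ρ A ι σ := by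
  refine exists_fStr_of hρ hA ?_
  let ε : G →* Module.End (ZMod p) V := LinearEquiv.automorphismGroup.toLinearMapMonoidHom.comp ρ
  change ∀ r ∈ Algebra.adjoin (ZMod p) (ε '' A), _
  set R := Algebra.adjoin (ZMod p) (ε '' A) with hR
  have hc : ∀ r ∈ R, ∀ s ∈ R, r * s = s * r := fun r hr s hs =>
    Algebra.commute_of_mem_adjoin_of_forall_mem_commute hs fun b hb =>
      (Algebra.commute_of_mem_adjoin_of_forall_mem_commute hr fun a ha => by
        obtain ⟨a, ha, rfl⟩ := ha
        obtain ⟨b, hb, rfl⟩ := hb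
        exact (show Commute b a from congrArg Subtype.val (hA.is_comm.comm ⟨b, hb⟩ ⟨a, ha⟩)).map ε).symm
  have hj : ∀ g, ∀ r ∈ R, ε g * r * ε g⁻¹ ∈ R := fun g r hr => by
    induction hr using Algebra.adjoin_induction with
    | mem x hx =>
      obtain ⟨a, ha, rfl⟩ := hx
      rw [← map_mul, ← map_mul]
      exact Algebra.subset_adjoin ⟨_, Normal.conj_mem inferInstance a ha g, rfl⟩
    | algebraMap c => rw [← Algebra.commutes, mul_assoc, ← map_mul, mul_inv_cancel, map_one, mul_one]; exact R.algebraMap_mem c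
    | add x y _ _ hx hy => rw [mul_add, add_mul]; exact add_mem hx hy
    | mul x y _ _ hx hy =>
      have : ε g * (x * y) * ε g⁻¹ = ε g * x * ε g⁻¹ * (ε g * y * ε g⁻¹) := by
        simp only [mul_assoc]; rw [← mul_assoc (ε g⁻¹), ← map_mul, inv_mul_cancel, map_one, one_mul]
      rw [this]; exact mul_mem hx hy
  haveI : Finite (Module.End (ZMod p) V) := Finite.of_injective _ DFunLike.coe_injective
  let an : V → Set (Module.End (ZMod p) V) := fun v => {r | r ∈ R ∧ r v = 0}
  have le : ∀ g v, (an v).ncard ≤ (an (ρ g v)).ncard := fun g v =>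
    Set.ncard_le_ncard_of_injOn (fun r => ε g * r * ε g⁻¹) (fun r hr => ⟨hj g r hr.1, by
      change (ε g * r * ε g⁻¹ * ε g) v = 0
      rw [mul_assoc, ← map_mul, inv_mul_cancel, map_one, mul_one]
      change ε g (r v) = 0
      rw [hr.2, map_zero]⟩) fun r _ s _ e => by
        have := congrArg (fun t => ε g⁻¹ * t * ε g) e
        simp only [mul_assoc, ← map_mul, inv_mul_cancel, map_one, mul_one] at this
        simpa only [← mul_assoc, ← map_mul, inv_mul_cancel, map_one, one_mul] using this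
  have eq : ∀ v w, v ≠ 0 → w ≠ 0 → an v ⊆ an w → an v = an w := fun v w hv hw h => by
    obtain ⟨g, rfl⟩ := ht w v hw hv
    exact Set.eq_of_subset_of_ncard_le h (le g w)
  have e1 : ∀ v, ∀ s ∈ R, s v ≠ 0 → an v = an (s v) := fun v s hs h => eq _ _ (fun e => h (by rw [e, map_zero])) h fun r hr =>
    ⟨hr.1, by
      change (r * s) v = 0
      rw [hc r hr.1 s hs]
      change s (r v) = 0
      rw [hr.2, map_zero]⟩
  have e2 : ∀ v w, v ≠ 0 → w ≠ 0 → an v = an w := fun v w hv hw => by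
    by_contra hne
    have hn : ∀ u, an (-u) = an u := fun u => Set.ext fun r => by simp [an]
    have h0 : v + w ≠ 0 := fun e => hne (by rw [eq_neg_of_add_eq_zero_left e, hn])
    have h1 : ∀ r ∈ an (v + w), r v = 0 := fun r hr => by
      by_contra h
      have e : r v = -r w := eq_neg_of_add_eq_zero_left (by rw [← map_add, hr.2])
      exact hne (by rw [e1 v r hr.1 h, e, hn, ← e1 w r hr.1 fun e' => h (by rw [e, e', neg_zero])])
    exact hne ((eq _ _ h0 hv fun r hr => ⟨hr.1, h1 r hr⟩).symm.trans (eq _ _ h0 hw fun r hr =>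
      ⟨hr.1, by simpa [h1 r hr] using hr.2⟩))
  intro r hr v hv h
  ext w
  by_cases hw : w = 0
  · simp [hw]
  · exact ((e2 v w hv hw).subset ⟨hr, h⟩).2

namespace FStr
variable {F : Type} [Field F] [Fintype F] {ι : F →+* Module.End (ZMod p) V} {σ : G →* (F ≃+* F)} (h : FStr ρ A ι σ)
include h

omit h [Finite V] [Fintype F] in
theorem _root_.Cfsg.Agent.GS.iota_eq_zero (ι : F →+* Module.End (ZMod p) V) {x : F} {v : V} (h : ι x v = 0) : x = 0 ∨ v = 0 := by
  refine or_iff_not_imp_left.2 fun hx => ?_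
  have : (ι x⁻¹ * ι x) v = 0 := by change ι x⁻¹ (ι x v) = 0; rw [h, map_zero]
  rwa [← map_mul, inv_mul_cancel₀ hx, map_one] at this

omit h in
theorem _root_.Cfsg.Agent.GS.exists_card_pow [Nontrivial V] (ι : F →+* Module.End (ZMod p) V) :
    CharP F p ∧ ∃ k m : ℕ, 0 < k ∧ 0 < m ∧ Fintype.card F = p ^ k ∧ ♯V = (p ^ k) ^ m := by
  haveI hp : CharP F p := by
    refine (CharP.charP_iff_prime_eq_zero Fact.out).2 (ι.injective ?_)
    rw [map_natCast, map_zero, ← map_natCast (algebraMap (ZMod p) _), ZMod.natCast_self, map_zero]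
  obtain ⟨k, -, hk⟩ := FiniteField.card F p
  letI : Module F V := Module.compHom V ι
  refine ⟨hp, k, Module.finrank F V, k.pos, Module.finrank_pos, hk, ?_⟩
  rw [Module.natCard_eq_pow_finrank (K := F), Nat.card_eq_fintype_card, hk]

omit [Finite V] in
theorem card_dvd [Nontrivial V] (hρ : Function.Injective ρ) : ♯A ∣ Fintype.card F - 1 := by
  classical
  choose x hx using h.mem
  have e : ∀ a ha, ι (x a ha) = (ρ a : Module.End (ZMod p) V) := fun a ha => LinearMap.ext fun v => (hx a ha v).symm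
  let f : A →* F :=
    { toFun := fun a => x a a.2
      map_one' := ι.injective (by rw [e, map_one]; simp; rfl)
      map_mul' := fun a b => ι.injective (by rw [map_mul, e, e, e]; simp) }
  rw [← Fintype.card_units, ← Nat.card_eq_fintype_card]
  refine card_dvd_of_injective f.toHomUnits fun a b hab => Subtype.ext (hρ (LinearEquiv.toLinearMap_injective ?_))
  rw [← e _ a.2, ← e _ b.2]
  exact congrArg ι (congrArg Units.val hab)

omit [Finite V] in
theorem index_dvd {k : ℕ} [CharP F p] (hk : Fintype.card F = p ^ k) : (𝒞 A).index ∣ k := by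
  rw [← h.ker, index_ker, ← (ringAut_facts' hk).2]
  exact card_subgroup_dvd_card _

theorem bij [Nontrivial V] (hc : ♯V = Fintype.card F) {v : V} (hv : v ≠ 0) : Function.Bijective fun x => ι x v :=
  Function.Injective.bijective_of_nat_card_le (fun x y e => sub_eq_zero.1 ((iota_eq_zero ι (by
    rw [map_sub, LinearMap.sub_apply, sub_eq_zero]; exact e)).resolve_right hv)) (by rw [hc, Nat.card_eq_fintype_card])

theorem semi1 [Nontrivial V] (hc : ♯V = Fintype.card F) : Semi1 ρ := by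
  obtain ⟨v, hv⟩ := exists_ne (0 : V)
  let f : F →+ V := ⟨⟨fun x => ι x v, by simp⟩, by simp⟩
  let e : F ≃+ V := AddEquiv.ofBijective f (h.bij hc hv)
  refine ⟨F, _, ‹_›, e.symm, fun g => ⟨e.symm (ρ g v), σ g, fun w => ?_⟩⟩
  obtain ⟨x, rfl⟩ := e.surjective w
  obtain ⟨a, ha⟩ := e.surjective (ρ g v)
  rw [e.symm_apply_eq, e.symm_apply_apply, ← ha, e.symm_apply_apply]
  change ρ g (ι x v) = ι (a * σ g x) v
  rw [h.semi, ← ha, mul_comm, map_mul]; rfl

theorem comm_cent [Nontrivial V] (hρ : Function.Injective ρ) (hc : ♯V = Fintype.card F) : IsMulCommutative (𝒞 A) := by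
  obtain ⟨v, hv⟩ := exists_ne (0 : V)
  have k : ∀ c ∈ 𝒞 A, ∃ a, ∀ w, ρ c w = ι a w := fun c hc' => by
    obtain ⟨a, ha⟩ := (h.bij hc hv).2 (ρ c v)
    refine ⟨a, fun w => ?_⟩
    obtain ⟨x, rfl⟩ := (h.bij hc hv).2 w
    simp only at ha ⊢
    rw [h.semi, show σ c = 1 from h.ker.ge hc', ← ha]
    change (ι x * ι a) v = (ι a * ι x) v
    rw [← map_mul, ← map_mul, mul_comm]
  refine ⟨⟨fun c d => Subtype.ext (hρ (LinearEquiv.ext fun w => ?_))⟩⟩
  obtain ⟨a, ha⟩ := k _ c.2
  obtain ⟨b, hb⟩ := k _ d.2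
  simp only [coe_mul, map_mul, LinearEquiv.mul_apply, ha, hb]
  change (ι a * ι b) w = (ι b * ι a) w
  rw [← map_mul, ← map_mul, mul_comm]

theorem irr [Nontrivial V] (hc : ♯V = Fintype.card F) : Irr ρ A := fun W hW => by
  refine or_iff_not_imp_left.2 fun h0 => eq_top_iff.2 fun w _ => ?_
  obtain ⟨v, hv, hv0⟩ := (Submodule.ne_bot_iff W).1 h0
  obtain ⟨x, rfl⟩ := (h.bij hc hv0).2 w
  exact h.gen W hW x v hv

omit [Finite V] in
theorem card_of_irr [Nontrivial V] (hi : Irr ρ A) : ♯V = Fintype.card F := by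
  obtain ⟨v, hv⟩ := exists_ne (0 : V)
  let W : Submodule (ZMod p) V :=
    { carrier := Set.range fun x => ι x v
      add_mem' := by rintro _ _ ⟨x, rfl⟩ ⟨y, rfl⟩; exact ⟨x + y, by simp⟩
      zero_mem' := ⟨0, by simp⟩
      smul_mem' := by
        rintro c _ ⟨x, rfl⟩
        refine ⟨c.val * x, ?_⟩
        simp only [map_mul, map_natCast, Module.End.mul_apply, Module.End.natCast_apply]
        rw [← Nat.cast_smul_eq_nsmul (ZMod p), ZMod.natCast_zmod_val] }
  have hW : W = ⊤ := (hi W (by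
    rintro a ha _ ⟨x, rfl⟩
    obtain ⟨y, hy⟩ := h.mem a ha
    exact ⟨y * x, by simp [hy]⟩)).resolve_left fun e => hv (by
      have : ι 1 v ∈ W := ⟨1, rfl⟩
      simpa [e] using this)
  rw [← Nat.card_eq_fintype_card]
  exact (Nat.card_eq_of_bijective (fun x => ι x v) ⟨fun x y e => sub_eq_zero.1 ((iota_eq_zero ι (by
    rw [map_sub, LinearMap.sub_apply, sub_eq_zero]; exact e)).resolve_right hv), fun w => (hW.ge trivial : w ∈ W)⟩).symm

end FStr

theorem exists_nums [Nontrivial V] (hρ : Function.Injective ρ) (ht : ∀ v w : V, v ≠ 0 → w ≠ 0 → ∃ g : G, ρ g v = w)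
    [A.Normal] (hA : IsMulCommutative A) : ∃ k m : ℕ, 0 < k ∧ 0 < m ∧ ♯V = (p ^ k) ^ m ∧ ♯A ∣ p ^ k - 1 ∧ (𝒞 A).index ∣ k ∧
      (m = 1 ↔ Irr ρ A) ∧ (m = 1 → Semi1 ρ ∧ IsMulCommutative (𝒞 A) ∧ IsCyclic (G ⧸ 𝒞 A)) := by
  obtain ⟨F, _, _, ι, σ, h⟩ := exists_fStr hρ ht hA
  obtain ⟨_, k, m, hk, hm, e, e'⟩ := exists_card_pow ι
  have k1 : m = 1 → ♯V = Fintype.card F := fun a => by rw [e', a, pow_one, e]
  refine ⟨k, m, hk, hm, e', e ▸ h.card_dvd hρ, h.index_dvd e, ⟨fun a => h.irr (k1 a), fun a => ?_⟩,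
    fun a => ⟨h.semi1 (k1 a), h.comm_cent hρ (k1 a), ?_⟩⟩
  · have := h.card_of_irr a
    rw [e', e] at this
    exact Nat.pow_right_injective (Nat.one_lt_pow hk.ne' (Fact.out : p.Prime).one_lt) (this.trans (pow_one _).symm)
  · haveI := (ringAut_facts' e).1
    exact isCyclic_of_injective (QuotientGroup.lift _ σ h.ker.ge) (QuotientGroup.injective_lift_iff _ _ _ |>.2 h.ker.symm)

end Cfsg.Agent.GS
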