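/-
Linear groups regular on non-zero vectors (Zassenhaus' classification of finite near-fields).
-/
import Cfsg.Agent.GS.Nf1
import Cfsg.Agent.H2.Invol2

namespace Cfsg.Agent.GS

open Subgroup Cfsg.Agent.H1 Cfsg.Agent.BG
open Cfsg.Agent.H2 hiding card_lt_of_lt card_lt_of_ne_top isMulCommutative_of_le isPGroup_zpowers_iff mem_of_pow_mem_of_coprime inf_eq_bot_of_cop exists_maxElem_ge Sec
open Cfsg.Agent.H8 (Op Opp Fit SN Comp Lay)
open Cfsg.Agent.L (FPF QP)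
open scoped commutatorElement Pointwise MatrixGroups

universe u

open QuaternionGroup in
theorem autQ8_ext {φ ψ : MulAut (QuaternionGroup 2)} (h1 : φ (a 1) = ψ (a 1)) (h2 : φ (xa 0) = ψ (xa 0)) : φ = ψ := by
  have : ∀ x : QuaternionGroup 2, ∃ k < 4, x = a 1 ^ k ∨ x = xa 0 * a 1 ^ k := by decide
  ext x
  obtain ⟨k, -, rfl | rfl⟩ := this x <;> simp only [map_mul, map_pow, h1, h2]

open QuaternionGroup in
theorem exists_autQ8 {x y : QuaternionGroup 2} (h : x * y ≠ y * x) : ∃ φ : MulAut (QuaternionGroup 2), φ (a 1) = x ∧ φ (xa 0) = y := by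
  have k : ∀ x y : QuaternionGroup 2, x * y ≠ y * x → x ^ 2 ≠ 1 ∧ x ^ 4 = 1 ∧ y ^ 2 = x ^ 2 ∧ y * x * y⁻¹ = x⁻¹ := by decide
  obtain ⟨k1, k2, k3, k4⟩ := k x y h
  obtain ⟨f, hf, f1, f2⟩ := H4.exists_quat_hom (n := 2) two_ne_zero (orderOf_eq_prime_pow (p := 2) (n := 1) k1 k2)
    (fun ⟨i, hi⟩ => h (by rw [← hi]; exact ((Commute.refl x).zpow_right i).eq)) k3 k4
  exact ⟨MulEquiv.ofBijective f (Finite.injective_iff_bijective.1 hf), (f1 1).trans (pow_one x), (f2 0).trans (mul_one y)⟩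

open QuaternionGroup in
theorem card_autQ8 : ♯(MulAut (QuaternionGroup 2)) = 24 := by
  have h0 : (a 1 : QuaternionGroup 2) * xa 0 ≠ xa 0 * a 1 := by decide
  rw [Nat.card_eq_of_bijective (fun φ : MulAut (QuaternionGroup 2) => (⟨(φ (a 1), φ (xa 0)), fun e => h0 (φ.injective (by
      rw [map_mul, map_mul]; exact e))⟩ : {p : QuaternionGroup 2 × QuaternionGroup 2 // p.1 * p.2 ≠ p.2 * p.1}))
    ⟨fun φ ψ e => autQ8_ext (congrArg (·.1.1) e) (congrArg (·.1.2) e), fun p => by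
      obtain ⟨φ, h1, h2⟩ := exists_autQ8 p.2
      exact ⟨φ, Subtype.ext (Prod.ext h1 h2)⟩⟩, Nat.card_eq_fintype_card]
  decide +kernel

theorem nonempty_prod_equiv {G : Type*} [Group G] {K M : Subgroup G} (h : K ⊔ M = ⊤) (hd : K ⊓ M = ⊥) (hc : M ≤ 𝒞 K) :
    Nonempty (G ≃* K × M) := by
  have hc' : ∀ (a : K) (b : M), Commute (K.subtype a) (M.subtype b) := fun a b => hc b.2 a a.2
  refine ⟨(MulEquiv.ofBijective (K.subtype.noncommCoprod M.subtype hc') ⟨(injective_iff_map_eq_one _).2 fun p hp => ?_,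
    MonoidHom.range_eq_top.1 ?_⟩).symm⟩
  · have h1 : (p.1 : G) * p.2 = 1 := hp
    have h2 : (p.1 : G) ∈ K ⊓ M := ⟨p.1.2, eq_inv_of_mul_eq_one_left h1 ▸ M.inv_mem p.2.2⟩
    rw [hd, mem_bot] at h2
    rw [h2, one_mul] at h1
    exact Prod.ext (Subtype.ext h2) (Subtype.ext h1)
  · rw [MonoidHom.noncommCoprod_range, range_subtype, range_subtype, h]

variable {G : Type u} [Group G] [Finite G]
variable {q r k n : ℕ} {A B C D E H K M N P Q R S T U W X Y Z : Subgroup G} {a b c g t u v x y z : G}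

theorem index_cent_dvd [N.Normal] : (𝒞 N).index ∣ ♯(MulAut N) := by
  have : (MulAut.conjNormal (H := N)).ker = 𝒞 N := by
    ext g
    rw [MonoidHom.mem_ker]
    exact ⟨fun h x hx => (mul_inv_eq_iff_eq_mul.1 (congrArg (fun φ : MulAut N => (φ ⟨x, hx⟩).1) h)).symm,
      fun h => MulEquiv.ext fun x => Subtype.ext (mul_inv_eq_iff_eq_mul.2 (h x x.2).symm)⟩
  rw [← this, index_ker]
  exact card_subgroup_dvd_card _

theorem exists_index_two_of_quot (N : Subgroup G) [N.Normal] (h2 : 2 ∣ N.index)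
    (h : ∀ P : Subgroup (G ⧸ N), IsPGroup 2 P → IsCyclic P) : ∃ H : Subgroup G, H.Normal ∧ H.index = 2 := by
  obtain ⟨P⟩ : Nonempty (Sylow 2 (G ⧸ N)) := inferInstance
  obtain ⟨H, hH⟩ := index_two_of_cyclic (G := G ⧸ N) (even_iff_two_dvd.2 h2) P (h _ P.2)
  have := (H1.index_comap_mk' N H).trans hH
  exact ⟨_, normal_of_index_eq_two this, this⟩

/-- `A` is a maximal abelian normal subgroup. -/
structure MaxAb (A : Subgroup G) : Prop where
  nrm : A.Normal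
  comm : IsMulCommutative A
  max : ∀ B : Subgroup G, B.Normal → IsMulCommutative B → A ≤ B → B = A

/-- `N` is minimal among non-abelian normal subgroups, and centralizes `A`. -/
structure MinNA (A N : Subgroup G) : Prop where
  nrm : N.Normal
  le : N ≤ 𝒞 A
  ncomm : ¬ IsMulCommutative N
  min : ∀ M : Subgroup G, M.Normal → M ≤ N → ¬ IsMulCommutative M → M = N

/-- `N` has an element of order four, but its centre has none. -/
def Q4 (N : Subgroup G) : Prop := (∃ y ∈ N, orderOf y = 4) ∧ ∀ x ∈ N, x ∈ 𝒞 N → x * x = 1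

theorem exists_maxAb (G : Type u) [Group G] [Finite G] : ∃ A : Subgroup G, MaxAb A := by
  obtain ⟨A, a, b, -, c⟩ := L.exists_maximal_abelian_normal_ge (⊥ : Subgroup G)
  exact ⟨A, a, b, c⟩

theorem exists_minNA [B.Normal] (h : B ≤ 𝒞 A) (hB : ¬ IsMulCommutative B) : ∃ N ≤ B, MinNA A N := by
  obtain ⟨N, a, ⟨b, c⟩, d⟩ := exists_minimal_le (fun N : Subgroup G => N.Normal ∧ ¬ IsMulCommutative N) (N := B) ⟨‹_›, hB⟩
  exact ⟨N, a, b, a.trans h, c, fun M h1 h2 h3 => d M ⟨h1, h3⟩ h2⟩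

omit [Finite G] in
theorem MaxAb.le (h : MaxAb A) [B.Normal] (hB : IsMulCommutative B) (hc : B ≤ 𝒞 A) : B ≤ A := by
  haveI := h.nrm
  haveI := h.comm
  refine le_sup_right.trans (h.max (A ⊔ B) inferInstance ?_ le_sup_left).le
  rw [← le_centralizer_iff_isMulCommutative]
  refine sup_le (le_centralizer_iff.1 (sup_le (le_centralizer A) hc)) (le_centralizer_iff.1 (sup_le (le_centralizer_iff.1 hc) ?_))
  exact le_centralizer B

theorem q4_of_Q8 (e : N ≃* QuaternionGroup 2) : Q4 N := by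
  obtain ⟨a, b, q⟩ := L.exists_qP two_pos e
  exact ⟨⟨a, q.a_mem, q.ord⟩, fun x hx hc => q.sq_of_cent le_rfl hx hc⟩

theorem perfect_of_SL25 (e : N ≃* SL(2, ZMod 5)) : ⁅N, N⁆ = N := by
  have h := Matrix.SL2.commutator_eq_top (a := (2 : ZMod 5)) (by decide) (by decide)
  have h2 := congrArg (Subgroup.map (N.subtype.comp e.symm.toMonoidHom)) h
  have h3 : Subgroup.map (N.subtype.comp e.symm.toMonoidHom) ⊤ = N := by
    rw [← map_map, map_top_of_surjective _ e.symm.surjective, ← MonoidHom.range_eq_map, range_subtype]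
  rwa [_root_.commutator_def, map_commutator, h3] at h2

theorem FC.q4_of_SL25 (h : FC G) (e : N ≃* SL(2, ZMod 5)) : Q4 N := by
  obtain ⟨w, hw⟩ : ∃ w : SL(2, ZMod 5), orderOf w = 4 :=
    ⟨⟨!![2, 0; 0, 3], by decide⟩, orderOf_eq_prime_pow (p := 2) (n := 1) (by decide) (by decide)⟩
  exact ⟨⟨e.symm w, SetLike.coe_mem _, by rw [orderOf_coe, MulEquiv.orderOf_eq, hw]⟩,
    fun x hx hc => h.sq_of_cent (perfect_of_SL25 e) hx hc⟩

theorem FC.minNA (h : FC G) (hA : MaxAb A) (hN : MinNA A N) :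
    Nonempty (N ≃* QuaternionGroup 2) ∨ Nonempty (N ≃* SL(2, ZMod 5)) := by
  haveI := hN.nrm
  by_cases hs : Group.IsSolvable N
  · left
    have h1 : IsMulCommutative ↥⁅N, N⁆ := by
      by_contra hn
      exact hN.ncomm (by
        rw [H8.perfect_eq_bot_of_solvable (hN.min _ inferInstance (commutator_le_self N) hn) hs]; infer_instance)
    have h2 : ⁅N, N⁆ ≤ 𝒞 N := (hA.le h1 ((commutator_le_self N).trans hN.le)).trans (le_centralizer_iff.1 hN.le)
    have h3 := H8.nilpotent_of_comm3 (commutator_eq_bot_iff_le_centralizer.2 h2)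
    haveI : (Op 2 N).Normal := normalizer_eq_top_iff.1 (top_le_iff.1 (H8.le_normalizer_Op_of 2 le_normalizer_of_normal))
    have h4 : Op 2 N = N := hN.min _ this (H8.Op_le _ _) fun hc => hN.ncomm (by
      have h0 : ∀ q : ℕ, q.Prime → IsMulCommutative (Op q N) := fun q hq => by
        haveI := Fact.mk hq
        by_cases h2 : q = 2
        · exact h2 ▸ hc
        · exact (h.cyc_of_odd h2 (H8.Op_isPGroup q N)).isMulCommutative
      rw [← le_centralizer_iff_isMulCommutative]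
      refine H8.le_of_nilpotent_of_Op_le h3 fun q hq => le_centralizer_iff.1 (H8.le_of_nilpotent_of_Op_le h3 fun r hr => ?_)
      haveI := Fact.mk hq
      by_cases e : r = q
      · subst e; haveI := h0 r hr; exact le_centralizer _
      · haveI := Fact.mk hr
        refine commutator_eq_bot_iff_le_centralizer.1 (eq_bot_iff.2 ((commutator_mono ?_ le_rfl).trans (by
          rw [commutator_comm, H8.commutator_Op_Opp])))
        obtain ⟨k, hk⟩ := IsPGroup.iff_card.1 (H8.Op_isPGroup r N)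
        exact H8.le_Opp (H8.Op_le _ _) (H8.le_normalizer_Op _ _) (hk ▸ ((Nat.coprime_primes hr hq).2 e).pow_left k))
    rcases h.cyc_or_quat (h4 ▸ H8.Op_isPGroup 2 N) with hc | ⟨-, n, hn, ⟨e⟩⟩
    · exact absurd hc.isMulCommutative hN.ncomm
    obtain ⟨a, b, q⟩ := L.exists_qP (by positivity) e
    have h5 := q.sq_of_cent (Nat.le_self_pow (by omega) 2) (pow_mem q.a_mem 2) (h2 (q.commutator_eq ▸ mem_zpowers _))
    have h6 := Nat.le_of_dvd two_pos (q.ord_sq ▸ orderOf_dvd_of_pow_eq_one ((pow_two _).trans h5))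
    obtain rfl : n = 1 := le_antisymm ((Nat.pow_le_pow_iff_right one_lt_two).1 (by simpa using h6)) hn
    exact ⟨e⟩
  · right
    obtain ⟨K, M, z, s⟩ := h.exists_zasNS fun hG => hs inferInstance
    haveI := s.nK
    rcases H8.qs_norm s.qs (N := K ⊓ N) inf_le_left le_normalizer_of_normal with e | e
    · rw [← hN.min K s.nK (inf_eq_left.1 e) (H8.qs_not_comm s.qs)]
      exact s.equiv
    · refine absurd (isSolvable_of_le (K := 𝒞 K) (commutator_eq_bot_iff_le_centralizer.1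
        (H8.commutator_eq_bot_of_perfect (H8.qs_perfect s.qs) (eq_bot_iff.2 ((commutator_mono ?_ le_rfl).trans e.le)))) ?_) hs
      · rw [inf_comm]; exact commutator_le_inf _ _
      · haveI := s.nM
        haveI := h.zgroup_of_odd (X := M) (s.cop.coprime_dvd_right (by decide))
        rw [s.cent, sup_comm]
        exact H8.solvable_sup le_normalizer_of_normal (isSolvable_of_isCyclic inferInstance) inferInstance

theorem FC.inf_cent_eq (h : FC G) (hA : MaxAb A) [N.Normal] (hN : N ≤ 𝒞 A) (h4 : Q4 N) : 𝒞 A ⊓ 𝒞 N = A := by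
  haveI := hA.nrm
  haveI := hA.comm
  refine hA.max _ inferInstance ?_ (le_inf (le_centralizer A) (le_centralizer_iff.1 hN))
  by_contra hn
  obtain ⟨M, h1, hM⟩ := exists_minNA (inf_le_left : 𝒞 A ⊓ 𝒞 N ≤ _) hn
  obtain ⟨⟨x, hx, x4⟩, -⟩ : Q4 M := by
    rcases h.minNA hA hM with ⟨⟨e⟩⟩ | ⟨⟨e⟩⟩
    exacts [q4_of_Q8 e, h.q4_of_SL25 e]
  obtain ⟨⟨y, hy, y4⟩, h5⟩ := h4
  have := h5 x (zpowers_le.2 hy (h.mem_zpowers_of_commute ((h1 hx).2 y hy).symm (by rw [x4, y4]))) (h1 hx).2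
  have := Nat.le_of_dvd two_pos (x4 ▸ orderOf_dvd_of_pow_eq_one ((pow_two x).trans this))
  omega

theorem num_bound {p k m E : ℕ} (hp : 3 ≤ p) (hk : 0 < k) (hm : 2 ≤ m) (hE : 0 < E) (hE' : E ≤ 120)
    (h : (p ^ k) ^ m - 1 ∣ E * k * (p ^ k - 1)) : p < 120 ∧ k < 7 ∧ m < 7 := by
  have h1 : k < p ^ k := Nat.lt_pow_self (by omega)
  have h2 := Nat.le_of_dvd (Nat.mul_pos (Nat.mul_pos hE hk) (by omega)) h
  have h3 : (p ^ k) ^ (m - 1) * p ^ k = (p ^ k) ^ m := by rw [← pow_succ, Nat.sub_add_cancel (by omega)]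
  have h4 : (p ^ k) ^ (m - 1) < E * k := by
    by_contra h4
    push Not at h4
    obtain ⟨s, hs⟩ : ∃ s, p ^ k = s + 1 := ⟨p ^ k - 1, by omega⟩
    have h5 : s + 1 ≤ (p ^ k) ^ (m - 1) := hs ▸ Nat.le_self_pow (by omega) _
    rw [← h3] at h2
    generalize (p ^ k) ^ (m - 1) = t at *
    rw [hs] at h2
    simp only [Nat.add_sub_cancel] at h2
    have : E * k * s ≤ t * s := Nat.mul_le_mul_right s h4
    have : t * (s + 1) = t * s + t := by ring
    omega
  have h5 : p ^ k ≤ (p ^ k) ^ (m - 1) := Nat.le_self_pow (by omega) _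
  have hk7 : k < 7 := by
    by_contra h7
    push Not at h7
    have h8 : 3 ^ k ≤ p ^ k := Nat.pow_le_pow_left hp k
    have h9 : ∀ j, 120 * (j + 7) < 3 ^ (j + 7) := fun j => by
      induction j with
      | zero => decide
      | succ j ih => rw [show j + 1 + 7 = j + 7 + 1 by ring, pow_succ]; omega
    have := h9 (k - 7)
    rw [Nat.sub_add_cancel h7] at this
    nlinarith
  refine ⟨?_, hk7, ?_⟩
  · by_contra h120
    push Not at h120
    have h8 : 120 ^ k ≤ p ^ k := Nat.pow_le_pow_left h120 k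
    have : E * k ≤ 120 * k := Nat.mul_le_mul_right k hE'
    interval_cases k <;> omega
  · by_contra h7
    push Not at h7
    have h8 : (3 ^ k) ^ 6 ≤ (p ^ k) ^ (m - 1) :=
      (Nat.pow_le_pow_left (Nat.pow_le_pow_left hp k) 6).trans (Nat.pow_le_pow_right (by omega) (by omega))
    have : E * k ≤ 120 * k := Nat.mul_le_mul_right k hE'
    interval_cases k <;> omega

theorem num24 {p k m : ℕ} (hp : 3 ≤ p) (ho : p % 2 = 1) (hk : 0 < k) (hm : 2 ≤ m)
    (h : (p ^ k) ^ m - 1 ∣ 24 * k * (p ^ k - 1)) : k = 1 ∧ m = 2 ∧ (p = 3 ∨ p = 5 ∨ p = 7 ∨ p = 11 ∨ p = 23) := by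
  obtain ⟨a, b, c⟩ := num_bound hp hk hm (by decide) (by decide) h
  have : ∀ p < 120, ∀ k < 7, ∀ m < 7, 3 ≤ p ∧ p % 2 = 1 ∧ 0 < k ∧ 2 ≤ m ∧ (p ^ k) ^ m - 1 ∣ 24 * k * (p ^ k - 1) →
    k = 1 ∧ m = 2 ∧ (p = 3 ∨ p = 5 ∨ p = 7 ∨ p = 11 ∨ p = 23) := by
    set_option synthInstance.maxSize 1000 in decide +kernel
  exact this p a k b m c ⟨hp, ho, hk, hm, h⟩

theorem num120 {p k m : ℕ} (hp : p.Prime) (h0 : 120 ∣ (p ^ k) ^ m - 1) (hk : 0 < k) (hm : 2 ≤ m)
    (h : (p ^ k) ^ m - 1 ∣ 120 * k * (p ^ k - 1)) : k = 1 ∧ m = 2 ∧ (p = 11 ∨ p = 19 ∨ p = 29 ∨ p = 59) := by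
  have h2 : p ≠ 2 := by
    rintro rfl
    have h1 : 2 ∣ (2 ^ k) ^ m := dvd_pow (dvd_pow_self 2 hk.ne') (by omega)
    have h3 : 0 < (2 ^ k) ^ m := by positivity
    omega
  have h3 : 3 ≤ p := by have := hp.two_le; omega
  obtain ⟨a, b, c⟩ := num_bound h3 hk hm (by decide) (by decide) h
  have : ∀ p < 120, ∀ k < 7, ∀ m < 7, 3 ≤ p ∧ p ≠ 119 ∧ 120 ∣ (p ^ k) ^ m - 1 ∧ 0 < k ∧ 2 ≤ m ∧
    (p ^ k) ^ m - 1 ∣ 120 * k * (p ^ k - 1) → k = 1 ∧ m = 2 ∧ (p = 11 ∨ p = 19 ∨ p = 29 ∨ p = 59) := by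
    set_option synthInstance.maxSize 1000 in decide +kernel
  exact this p a k b m c ⟨h3, by rintro rfl; norm_num at hp, h0, hk, hm, h⟩

variable {p : ℕ} [Fact p.Prime] {V : Type*} [AddCommGroup V] [Module (ZMod p) V] [Finite V] {ρ : G →* (V ≃ₗ[ZMod p] V)}

/-- `G` acts regularly on the non-zero vectors. -/
structure Reg (ρ : G →* (V ≃ₗ[ZMod p] V)) : Prop where
  inj : Function.Injective ρ
  tr : ∀ v w : V, v ≠ 0 → w ≠ 0 → ∃ g : G, ρ g v = w
  fix : ∀ v : V, v ≠ 0 → ∀ g : G, ρ g v = v → g = 1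

omit [Finite G] [Finite V] in
theorem reg_of_unique (H : Subgroup (V ≃ₗ[ZMod p] V)) (h : ∀ v w : V, v ≠ 0 → w ≠ 0 → ∃! h : H, (h : V ≃ₗ[ZMod p] V) v = w) :
    Reg H.subtype :=
  ⟨H.subtype_injective, fun v w hv hw => (h v w hv hw).exists, fun v hv g hg => (h v v hv hv).unique hg rfl⟩

omit [Finite G] in
theorem finite_linearEquiv : Finite (V ≃ₗ[ZMod p] V) := Finite.of_injective _ DFunLike.coe_injective

omit [Finite G] [Finite V] in
theorem comm_of_line (h : ∀ v : V, v ≠ 0 → ∀ g ∈ N, ρ g v = v → g = 1) {W : Submodule (ZMod p) V} (h1 : Module.finrank (ZMod p) W = 1)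
    (hW : ∀ a ∈ N, ∀ v ∈ W, ρ a v ∈ W) : IsMulCommutative N := by
  obtain ⟨⟨v, hv⟩, h0, h2⟩ := finrank_eq_one_iff'.1 h1
  refine ⟨⟨fun a b => Subtype.ext (inv_mul_eq_one.1 (h v (fun e => h0 (Subtype.ext e)) _
    (mul_mem (inv_mem (mul_mem a.2 b.2)) (mul_mem b.2 a.2)) ?_))⟩⟩
  obtain ⟨c, hc⟩ := h2 ⟨_, hW a a.2 v hv⟩
  obtain ⟨d, hd⟩ := h2 ⟨_, hW b b.2 v hv⟩
  have hc' : c • v = ρ a v := congrArg Subtype.val hc
  have hd' : d • v = ρ b v := congrArg Subtype.val hd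
  rw [map_mul, map_inv, LinearEquiv.mul_apply, LinearEquiv.coe_inv, LinearEquiv.symm_apply_eq]
  rw [Subgroup.coe_mul, Subgroup.coe_mul, map_mul, map_mul, LinearEquiv.mul_apply, LinearEquiv.mul_apply, ← hc', ← hd', map_smul, map_smul, ← hc', ← hd']
  exact smul_comm _ _ _

namespace Reg
variable (h : Reg ρ) [Nontrivial V]
include h

theorem fc : FC G := by
  let ψ : G →* AddMonoid.End V :=
    { toFun := fun g => (ρ g).toLinearMap.toAddMonoidHom
      map_one' := AddMonoidHom.ext fun v => by simp; rfl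
      map_mul' := fun g k => AddMonoidHom.ext fun v => by simp; rfl }
  refine FC.of_end ψ fun g hg v hv => ?_
  by_contra h0
  exact hg (h.fix v h0 g hv)

omit [Finite G] in
theorem card : ♯G = ♯V - 1 := by
  classical
  obtain ⟨v, hv⟩ := exists_ne (0 : V)
  haveI := Fintype.ofFinite V
  rw [Nat.card_eq_of_bijective (fun g : G => (⟨ρ g v, by simpa using hv⟩ : {w : V // w ≠ 0})) ⟨fun a b e => ?_, fun w => ?_⟩]
  · simp [Nat.card_eq_fintype_card, Fintype.card_subtype_compl]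
  · refine inv_mul_eq_one.1 (h.fix v hv _ ?_)
    rw [map_mul, map_inv, LinearEquiv.mul_apply, LinearEquiv.coe_inv, LinearEquiv.symm_apply_eq]
    exact (congrArg Subtype.val e).symm
  · obtain ⟨g, hg⟩ := h.tr v w hv w.2
    exact ⟨g, Subtype.ext hg⟩

theorem lt_cent (hA : MaxAb A) (hi : ¬ Irr ρ A) : A < 𝒞 A ∧ ¬ IsMulCommutative (𝒞 A) := by
  haveI := hA.nrm
  haveI := hA.comm
  have h1 : A ≠ 𝒞 A := fun e => by
    obtain ⟨k, m, hk, hm, e1, e2, e3, e4, -⟩ := exists_nums h.inj h.tr hA.comm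
    have hm2 : 2 ≤ m := by have := mt e4.1 hi; omega
    have h2 := A.card_mul_index
    rw [← e] at e3
    have h3 : k < p ^ k := Nat.lt_pow_self (Fact.out : p.Prime).one_lt
    have h4 := Nat.mul_le_mul (Nat.le_of_dvd (by omega) e2) (Nat.le_of_dvd hk e3)
    have h5 : (p ^ k) ^ 2 ≤ (p ^ k) ^ m := Nat.pow_le_pow_right (by omega) hm2
    rw [h2, h.card, e1] at h4
    obtain ⟨s, hs⟩ : ∃ s, p ^ k = s + 1 := ⟨p ^ k - 1, by omega⟩
    generalize (p ^ k) ^ m = t at *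
    rw [hs] at h3 h4 h5
    simp only [Nat.add_sub_cancel] at h4
    have : s * k ≤ s * s := Nat.mul_le_mul_left s (by omega)
    have : (s + 1) ^ 2 = s * s + 2 * s + 1 := by ring
    omega
  exact ⟨lt_of_le_of_ne (le_centralizer A) h1, fun hc => h1 (hA.max _ inferInstance hc (le_centralizer A)).symm⟩

/-- The numerical data in the exceptional case. -/
theorem nums (hA : MaxAb A) (hi : ¬ Irr ρ A) [N.Normal] (hN : N ≤ 𝒞 A) (h4 : Q4 N) {E : ℕ} (hE : (𝒞 N).index ∣ E) :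
    ∃ k m, 0 < k ∧ 2 ≤ m ∧ ♯G = (p ^ k) ^ m - 1 ∧ (p ^ k) ^ m - 1 ∣ E * k * (p ^ k - 1) ∧
      (k = 1 → m = 2 → ♯V = p ^ 2 ∧ ♯A ∣ p - 1 ∧ 𝒞 A = ⊤ ∧ 𝒞 N = A ∧ (¬ IsMulCommutative N → Irr ρ N)) := by
  haveI := hA.nrm
  haveI := hA.comm
  obtain ⟨k, m, hk, hm, e1, e2, e3, e4, -⟩ := exists_nums h.inj h.tr hA.comm
  have h1 := h.fc.inf_cent_eq hA hN h4
  refine ⟨k, m, hk, by have := mt e4.1 hi; omega, by rw [h.card, e1], ?_, fun k1 m2 => ?_⟩
  · rw [← e1, ← h.card, ← A.card_mul_index, ← relIndex_mul_index (le_centralizer A), mul_comm]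
    refine Nat.mul_dvd_mul (Nat.mul_dvd_mul (Dvd.dvd.trans ?_ hE) e3) e2
    conv_lhs => congr; rw [← h1]
    rw [inf_relIndex_left]
    exact relIndex_dvd_index_of_normal _ _
  subst k1 m2
  rw [pow_one] at e1 e2
  have h2 : 𝒞 A = ⊤ := index_eq_one.1 (Nat.dvd_one.1 e3)
  refine ⟨e1, e2, h2, by rwa [h2, top_inf_eq] at h1, fun hn W hW => ?_⟩
  by_contra h3
  push Not at h3
  have h5 : Module.finrank (ZMod p) V = 2 := by
    rw [Module.natCard_eq_pow_finrank (K := ZMod p), Nat.card_zmod] at e1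
    exact Nat.pow_right_injective (Fact.out : p.Prime).two_le e1
  have h6 := Submodule.finrank_lt h3.2
  have h7 : Module.finrank (ZMod p) W ≠ 0 := fun e => h3.1 (Submodule.finrank_eq_zero.1 e)
  exact hn (comm_of_line (fun v hv g _ => h.fix v hv g) (by omega) hW)

theorem q8 (hA : MaxAb A) (hi : ¬ Irr ρ A) [N.Normal] (hN : N ≤ 𝒞 A) (e : N ≃* QuaternionGroup 2) :
    (p = 5 ∨ p = 7 ∨ p = 11 ∨ p = 23) ∧ ♯V = p ^ 2 ∧ ♯A ∣ p - 1 ∧ 𝒞 A = ⊤ ∧ 𝒞 N = A ∧ Irr ρ N ∧ A.index ∣ 24 := by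
  have hE : (𝒞 N).index ∣ 24 := by
    rw [← card_autQ8, ← Nat.card_congr (MulAut.congr e).toEquiv]; exact index_cent_dvd
  obtain ⟨k, m, hk, hm, e1, e2, e3⟩ := h.nums hA hi hN (q4_of_Q8 e) hE
  obtain ⟨a, b, q⟩ := L.exists_qP two_pos e
  have h8 := card_subgroup_dvd_card N
  rw [q.card, e1] at h8
  have h2 : p ≠ 2 := by
    rintro rfl
    have h1 : 2 ∣ (2 ^ k) ^ m := dvd_pow (dvd_pow_self 2 hk.ne') (by omega)
    have h3 : 0 < (2 ^ k) ^ m := by positivity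
    omega
  obtain ⟨rfl, rfl, h3⟩ := num24 (by have := (Fact.out : p.Prime).two_le; omega) ((Fact.out : p.Prime).eq_two_or_odd.resolve_left h2) hk hm e2
  obtain ⟨a1, a2, a3, a4, a5⟩ := e3 rfl rfl
  have a4' : orderOf a = 4 := q.ord
  have nc : a ∉ 𝒞 N := fun hc => by
    have := Nat.le_of_dvd two_pos (a4' ▸ orderOf_dvd_of_pow_eq_one ((pow_two a).trans (q.sq_of_cent le_rfl q.a_mem hc)))
    omega
  refine ⟨h3.resolve_left ?_, a1, a2, a3, a4, a5 fun hc => nc (le_centralizer N q.a_mem), a4 ▸ hE⟩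
  rintro rfl
  have h4 : (zpowers a).index = 2 := by
    have := (zpowers a).card_mul_index
    rw [Nat.card_zpowers, a4', e1] at this
    omega
  haveI := normal_of_index_eq_two h4
  exact nc (a4.ge (hA.le inferInstance (a3 ▸ le_top) (mem_zpowers a)))

theorem sl25 (hA : MaxAb A) (hi : ¬ Irr ρ A) (s : ZasNS K M z) :
    ♯V = p ^ 2 ∧ 𝒞 K = A ∧ Irr ρ K ∧ K ⊔ M = ⊤ ∧ ((p = 11 ∧ ♯M = 1) ∨ (p = 29 ∧ ♯M = 7) ∨ (p = 59 ∧ ♯M = 29)) := by
  haveI := hA.nrm
  haveI := s.nK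
  haveI := s.nM
  have hd : K ⊓ M = ⊥ := disjoint_iff.1 (disjoint_of_coprime_natCard (by
    rw [s.card]
    exact (Nat.Coprime.coprime_dvd_right (show 120 ∣ 30 ^ 3 by decide) (s.cop.pow_right 3)).symm))
  have hz : zpowers z ⊓ M = ⊥ := eq_bot_iff.2 (hd ▸ inf_le_inf_right _ (zpowers_le.2 s.mem))
  have c1 := card_sup_of_disjoint le_normalizer_of_normal hd
  have c2 := card_sup_of_disjoint le_normalizer_of_normal hz
  rw [sup_comm, ← s.cent, Nat.card_zpowers, s.ord] at c2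
  have c3 := (K ⊔ M).card_mul_index
  have c4 := (𝒞 K).card_mul_index
  rw [c1, s.card] at c3
  have c5 : (𝒞 K).index = 60 * (K ⊔ M).index := Nat.eq_of_mul_eq_mul_left (Nat.card_pos (α := 𝒞 K)) (by rw [c4, c2, ← c3]; ring)
  have hK : K ≤ 𝒞 A := by
    rcases H8.qs_norm s.qs (N := K ⊓ A) inf_le_left le_normalizer_of_normal with e | e
    · exact absurd (inf_eq_left.1 e) (H8.qs_not_le_solvable s.qs (isSolvable_of_isMulCommutative hA.comm))
    · refine le_centralizer_iff.1 (commutator_eq_bot_iff_le_centralizer.1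
        (H8.commutator_eq_bot_of_perfect (H8.qs_perfect s.qs) (eq_bot_iff.2 ((commutator_mono ?_ le_rfl).trans e.le))))
      rw [inf_comm]; exact commutator_le_inf _ _
  obtain ⟨e⟩ := s.equiv
  obtain ⟨k, m, hk, hm, e1, e2, e3⟩ := h.nums hA hi hK (h.fc.q4_of_SL25 e) (E := 120) (by
    rw [c5]; rcases s.index with i | i <;> rw [i] <;> decide)
  obtain ⟨rfl, rfl, h3⟩ := num120 Fact.out (by rw [← e1, ← c3, mul_assoc]; exact dvd_mul_right _ _) hk hm e2
  obtain ⟨a1, a2, a3, a4, a5⟩ := e3 rfl rfl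
  have h4 : ¬ 3 ∣ ♯M := fun d => absurd (s.cop.coprime_dvd_left d) (by decide)
  rw [← c3] at e1
  have : (K ⊔ M).index = 1 ∧ ((p = 11 ∧ ♯M = 1) ∨ (p = 29 ∧ ♯M = 7) ∨ (p = 59 ∧ ♯M = 29)) := by
    rcases s.index with i | i <;> rw [i] at e1 ⊢ <;> rcases h3 with rfl | rfl | rfl | rfl <;> omega
  exact ⟨a1, a4, a5 (H8.qs_not_comm s.qs), index_eq_one.1 this.1, this.2⟩

end Reg

end Cfsg.Agent.GS
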