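/-
Table certificates for linear groups acting regularly on the non-zero vectors of a plane.
-/
import Mathlib

namespace Cfsg.Agent.GS

open Matrix

/-- Table lookup: entry `(x, y)` of the table `N` (six bits per entry). -/
def dig (N p x y : ℕ) : ℕ := (N >>> (6 * (x * p + y))) % 64

/-- The table check. -/
def regChk (p : ℕ) (L : List (ℕ × ℕ × ℕ × ℕ)) (T₀ T₁ D : ℕ) : Bool :=
  (List.range p).all fun x => (List.range p).all fun y => (x == 0 && y == 0) ||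
    ((L.all fun q =>
      dig T₀ p ((q.1 * x + q.2.1 * y) % p) ((q.2.2.1 * x + q.2.2.2 * y) % p) == (q.1 * dig T₀ p x y + q.2.1 * dig T₁ p x y) % p &&
      dig T₁ p ((q.1 * x + q.2.1 * y) % p) ((q.2.2.1 * x + q.2.2.2 * y) % p) ==
        (q.2.2.1 * dig T₀ p x y + q.2.2.2 * dig T₁ p x y) % p) &&
    ((x == 1 && y == 0) || L.any fun q =>
      Nat.blt (dig D p ((q.1 * x + q.2.1 * y) % p) ((q.2.2.1 * x + q.2.2.2 * y) % p)) (dig D p x y)))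

theorem reg_of_tables {p : ℕ} [NeZero p] [Nontrivial (ZMod p)] (S : Set (GL (Fin 2) (ZMod p)))
    (L : List (ZMod p × ZMod p × ZMod p × ZMod p)) (t₀ t₁ : ZMod p → ZMod p → ZMod p) (d : ZMod p → ZMod p → ℕ)
    (hS : ∀ X ∈ S, ∃ q ∈ L, (X : Matrix (Fin 2) (Fin 2) (ZMod p)) = !![q.1, q.2.1; q.2.2.1, q.2.2.2])
    (hL : ∀ q ∈ L, ∃ X ∈ S, (X : Matrix (Fin 2) (Fin 2) (ZMod p)) = !![q.1, q.2.1; q.2.2.1, q.2.2.2])
    (h0 : t₀ 1 0 = 0 ∧ t₁ 1 0 = 1)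
    (h1 : ∀ x y, (x = 0 ∧ y = 0) ∨ ∀ q ∈ L,
      t₀ (q.1 * x + q.2.1 * y) (q.2.2.1 * x + q.2.2.2 * y) = q.1 * t₀ x y + q.2.1 * t₁ x y ∧
      t₁ (q.1 * x + q.2.1 * y) (q.2.2.1 * x + q.2.2.2 * y) = q.2.2.1 * t₀ x y + q.2.2.2 * t₁ x y)
    (h2 : ∀ x y, (x = 0 ∧ y = 0) ∨ (x = 1 ∧ y = 0) ∨
      ∃ q ∈ L, d (q.1 * x + q.2.1 * y) (q.2.2.1 * x + q.2.2.2 * y) < d x y) :
    Nat.card (Subgroup.closure S) = p ^ 2 - 1 ∧ ∀ v w : Fin 2 → ZMod p, v ≠ 0 → w ≠ 0 →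
      ∃! h : Subgroup.closure S, ((h : GL (Fin 2) (ZMod p)) : Matrix (Fin 2) (Fin 2) (ZMod p)) *ᵥ v = w := by
  let t : (Fin 2 → ZMod p) → Fin 2 → ZMod p := fun w => ![t₀ (w 0) (w 1), t₁ (w 0) (w 1)]
  let e : Fin 2 → ZMod p := ![1, 0]
  let e' : Fin 2 → ZMod p := ![0, 1]
  have he : e ≠ 0 := fun h => one_ne_zero (congrFun h 0)
  have inj : ∀ (X : GL (Fin 2) (ZMod p)) (v w : Fin 2 → ZMod p), X.1 *ᵥ v = X.1 *ᵥ w → v = w := fun X v w h => by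
    have := congrArg (fun u => X⁻¹.1 *ᵥ u) h
    simpa only [mulVec_mulVec, Units.inv_mul, one_mulVec] using this
  have nz : ∀ (X : GL (Fin 2) (ZMod p)) (v : Fin 2 → ZMod p), v ≠ 0 → X.1 *ᵥ v ≠ 0 := fun X v hv h =>
    hv (inj X _ _ (h.trans (mulVec_zero _).symm))
  have z : ∀ w : Fin 2 → ZMod p, w 0 = 0 ∧ w 1 = 0 → w = 0 := fun w h => by
    ext i; fin_cases i; exacts [h.1, h.2]
  have k1 : ∀ X ∈ S, ∀ w, w ≠ 0 → t (X.1 *ᵥ w) = X.1 *ᵥ t w := fun X hX w hw => by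
    obtain ⟨q, hq, e⟩ := hS X hX
    obtain ⟨a, b⟩ := (h1 (w 0) (w 1)).resolve_left (fun h => hw (z w h)) q hq
    ext i
    fin_cases i
    · simpa [e, t, mulVec, dotProduct, Fin.sum_univ_two] using a
    · simpa [e, t, mulVec, dotProduct, Fin.sum_univ_two] using b
  have k2 : ∀ h ∈ Subgroup.closure S, h.1 *ᵥ e' = t (h.1 *ᵥ e) := by
    intro h hh
    induction hh using Subgroup.closure_induction_left with
    | one => ext i; fin_cases i <;> simp [t, e, e', h0.1, h0.2]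
    | mul_left x hx y _ ih => rw [Units.val_mul, ← mulVec_mulVec, ← mulVec_mulVec, k1 x hx _ (nz _ _ he), ih]
    | inv_mul_cancel x hx y _ ih =>
      refine inj x _ _ ?_
      rw [← k1 x hx _ (nz _ _ he), mulVec_mulVec, mulVec_mulVec, ← Units.val_mul, mul_inv_cancel_left, ih]
  have k3 : ∀ h ∈ Subgroup.closure S, ∀ h' ∈ Subgroup.closure S, h.1 *ᵥ e = h'.1 *ᵥ e → h = h' := fun h hh h' hh' a => by
    have b := k2 h hh
    rw [a, ← k2 h' hh'] at b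
    ext i j
    fin_cases j
    · simpa [e, mulVec, dotProduct, Fin.sum_univ_two] using congrFun a i
    · simpa [e', mulVec, dotProduct, Fin.sum_univ_two] using congrFun b i
  have k4 : ∀ n, ∀ w : Fin 2 → ZMod p, d (w 0) (w 1) = n → w ≠ 0 → ∃ h ∈ Subgroup.closure S, h.1 *ᵥ e = w := by
    intro n
    induction n using Nat.strong_induction_on with
    | _ n ih =>
    intro w hd hw
    rcases (h2 (w 0) (w 1)).resolve_left (fun h => hw (z w h)) with h | ⟨q, hq, h⟩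
    · refine ⟨1, one_mem _, ?_⟩
      ext i; fin_cases i <;> simp [e, h.1, h.2]
    · obtain ⟨X, hX, a⟩ := hL q hq
      obtain ⟨h', b, c⟩ := ih _ (hd ▸ h) (X.1 *ᵥ w) (by simp [a, mulVec, dotProduct, Fin.sum_univ_two]) (nz _ _ hw)
      refine ⟨X⁻¹ * h', mul_mem (inv_mem (Subgroup.subset_closure hX)) b, inj X _ _ ?_⟩
      rw [mulVec_mulVec, ← Units.val_mul, mul_inv_cancel_left, c]
  refine ⟨?_, fun v w hv hw => ?_⟩
  · rw [Nat.card_eq_of_bijective (fun h : Subgroup.closure S => (⟨h.1.1 *ᵥ e, nz _ _ he⟩ : {w : Fin 2 → ZMod p // w ≠ 0}))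
      ⟨fun a b h => Subtype.ext (k3 _ a.2 _ b.2 (congrArg Subtype.val h)), fun w => by
        obtain ⟨h, a, b⟩ := k4 _ w.1 rfl w.2
        exact ⟨⟨h, a⟩, Subtype.ext b⟩⟩]
    simp [Nat.card_eq_fintype_card, Fintype.card_subtype_compl]
  · obtain ⟨a, ha, rfl⟩ := k4 _ v rfl hv
    obtain ⟨b, hb, rfl⟩ := k4 _ w rfl hw
    refine ⟨⟨b * a⁻¹, mul_mem hb (inv_mem ha)⟩, ?_, fun h hh => Subtype.ext ?_⟩
    · simp only; rw [mulVec_mulVec, ← Units.val_mul, inv_mul_cancel_right]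
    · simp only at hh
      rw [mulVec_mulVec, ← Units.val_mul] at hh
      exact eq_mul_inv_of_mul_eq (k3 _ (mul_mem h.2 ha) _ hb hh)

theorem reg_of_chk {p : ℕ} [NeZero p] [Fact (1 < p)] (S : Set (GL (Fin 2) (ZMod p)))
    (L : List (ℕ × ℕ × ℕ × ℕ)) (T₀ T₁ D : ℕ)
    (hS : ∀ X ∈ S, ∃ q ∈ L, (X : Matrix (Fin 2) (Fin 2) (ZMod p)) = !![(q.1 : ZMod p), q.2.1; q.2.2.1, q.2.2.2])
    (hL : ∀ q ∈ L, ∃ X ∈ S, (X : Matrix (Fin 2) (Fin 2) (ZMod p)) = !![(q.1 : ZMod p), q.2.1; q.2.2.1, q.2.2.2])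
    (h0 : dig T₀ p 1 0 = 0 ∧ dig T₁ p 1 0 = 1) (h : regChk p L T₀ T₁ D = true) :
    Nat.card (Subgroup.closure S) = p ^ 2 - 1 ∧ ∀ v w : Fin 2 → ZMod p, v ≠ 0 → w ≠ 0 →
      ∃! h : Subgroup.closure S, ((h : GL (Fin 2) (ZMod p)) : Matrix (Fin 2) (Fin 2) (ZMod p)) *ᵥ v = w := by
  simp only [regChk, List.all_eq_true, List.mem_range, Bool.or_eq_true, Bool.and_eq_true, beq_iff_eq, List.any_eq_true,
    Nat.blt_eq] at h
  have hv : ∀ (a b : ℕ) (x y : ZMod p), ((a : ZMod p) * x + b * y).val = (a * x.val + b * y.val) % p := fun a b x y => by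
    rw [← ZMod.val_natCast]; push_cast; simp
  refine reg_of_tables S (L.map fun q => ((q.1 : ZMod p), (q.2.1 : ZMod p), (q.2.2.1 : ZMod p), (q.2.2.2 : ZMod p)))
    (fun x y => dig T₀ p x.val y.val) (fun x y => dig T₁ p x.val y.val) (fun x y => dig D p x.val y.val)
    (fun X hX => ?_) (fun q hq => ?_) (by simp [ZMod.val_one, h0.1, h0.2]) (fun x y => ?_) (fun x y => ?_)
  · obtain ⟨q, a, b⟩ := hS X hX
    exact ⟨_, List.mem_map_of_mem a, b⟩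
  · obtain ⟨q, a, rfl⟩ := List.mem_map.1 hq
    exact hL q a
  · refine (h _ x.val_lt _ y.val_lt).imp (by simp) fun h q hq => ?_
    obtain ⟨q, a, rfl⟩ := List.mem_map.1 hq
    obtain ⟨b, c⟩ := h.1 q a
    simp only [hv, b, c]
    simp
  · refine (h _ x.val_lt _ y.val_lt).imp (by simp) fun h => h.2.imp (fun a => ⟨?_, by simpa using a.2⟩) fun ⟨q, a, b⟩ =>
      ⟨_, List.mem_map_of_mem a, by simpa only [hv] using b⟩
    rw [← ZMod.natCast_zmod_val x, a.1, Nat.cast_one]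

end Cfsg.Agent.GS
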