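/- Monomial groups of codes; the ternary Golay code. -/
import Cfsg.Agent.GS.Mk1

set_option linter.unusedSectionVars false
set_option maxRecDepth 100000
namespace Cfsg.Agent.St
open Finset H6 MulAction
open scoped Pointwise

section mono
variable {α F : Type*} [Field F] {C : Submodule F (α → F)}

theorem mono_mono (σ τ : Equiv.Perm α) (c d : α → Fˣ) (x : α → F) :
    monomialMap σ c (monomialMap τ d x) = monomialMap (σ * τ) (fun i => c i * d (σ.symm i)) x := by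
  funext i; simp [monomialMap, mul_assoc, Equiv.Perm.mul_def]

theorem mono_one (c : α → Fˣ) (x : α → F) (p : α) : monomialMap 1 c x p = c p * x p := rfl

theorem mono_inj (σ : Equiv.Perm α) (c : α → Fˣ) : Function.Injective (monomialMap σ c) := fun x y h => by
  funext i
  simpa [monomialMap] using congrFun h (σ i)

theorem mono_span {k : ℕ} {B : Fin k → α → F} (hC : C = Submodule.span F (Set.range B)) {σ : Equiv.Perm α} {c : α → Fˣ}
    (h : ∀ i, monomialMap σ c (B i) ∈ C) : ∀ x ∈ C, monomialMap σ c x ∈ C := by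
  intro x hx
  obtain ⟨a, rfl⟩ := (Submodule.mem_span_range_iff_exists_fun _).1 (hC ▸ hx)
  rw [show monomialMap σ c (∑ i, a i • B i) = ∑ i, a i • monomialMap σ c (B i) by
    funext p; simp [monomialMap, mul_sum, mul_left_comm]]
  exact C.sum_mem fun i _ => C.smul_mem _ (h i)

theorem mono_const (C : Submodule F (α → F)) (u : Fˣ) : ∀ x ∈ C, monomialMap 1 (fun _ => u) x ∈ C :=
  fun _ hx => C.smul_mem (u : F) hx

def MonS (C : Submodule F (α → F)) : Submonoid (Equiv.Perm α) where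
  carrier := {σ | ∃ c : α → Fˣ, ∀ x ∈ C, monomialMap σ c x ∈ C}
  one_mem' := ⟨_, mono_const C 1⟩
  mul_mem' := fun ⟨c, hc⟩ ⟨d, hd⟩ => ⟨_, fun x hx => mono_mono _ _ c d x ▸ hc _ (hd x hx)⟩

def Mon [Finite α] (C : Submodule F (α → F)) : Subgroup (Equiv.Perm α) :=
  { MonS C with
    inv_mem' := fun {x} h => (Submonoid.powers_le (P := MonS C)).2 h
      (mem_powers_iff_mem_zpowers.2 (inv_mem (Subgroup.mem_zpowers x))) }

theorem card_mono [Finite α] [Finite F] (C : Submodule F (α → F)) :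
    Nat.card {f : Equiv.Perm α × (α → Fˣ) // ∀ x ∈ C, monomialMap f.1 f.2 x ∈ C} =
      Nat.card (Mon C) * Nat.card {c : α → Fˣ // ∀ x ∈ C, monomialMap 1 c x ∈ C} := by
  rw [← Nat.card_prod]
  choose c0 h0 using fun σ : Mon C => σ.2
  refine (Nat.card_congr (Equiv.ofBijective (fun a : Mon C × {c : α → Fˣ // ∀ x ∈ C, monomialMap 1 c x ∈ C} =>
    (⟨(a.1, fun i => a.2.1 i * c0 a.1 i), fun x hx => ?_⟩ : {f : Equiv.Perm α × (α → Fˣ) // ∀ x ∈ C, monomialMap f.1 f.2 x ∈ C})) ⟨?_, ?_⟩)).symm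
  · have := a.2.2 _ (h0 a.1 x hx)
    rwa [mono_mono, one_mul] at this
  · rintro ⟨σ, c⟩ ⟨τ, d⟩ h
    replace h := Prod.mk.inj (congrArg Subtype.val h)
    obtain rfl : σ = τ := Subtype.ext h.1
    exact Prod.ext rfl (Subtype.ext (funext fun i => mul_right_cancel (congrFun h.2 i)))
  · rintro ⟨⟨σ, c⟩, h⟩
    refine ⟨(⟨σ, c, h⟩, ⟨fun i => c i / c0 ⟨σ, c, h⟩ i, fun y hy => ?_⟩), Subtype.ext (Prod.ext rfl (funext fun i => div_mul_cancel _ _))⟩
    obtain ⟨x, hx⟩ := Finite.injective_iff_surjective.1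
      (fun a b e => Subtype.ext (mono_inj _ _ (congrArg Subtype.val e)) :
        Function.Injective fun x : C => (⟨_, h0 ⟨σ, c, h⟩ x x.2⟩ : C)) ⟨y, hy⟩
    obtain rfl := congrArg Subtype.val hx
    have := h x x.2
    simp only [mono_mono, one_mul]
    convert this using 3
    exact div_mul_cancel _ _

theorem card_scal [Nonempty α] (h : ∀ c : α → Fˣ, (∀ x ∈ C, monomialMap 1 c x ∈ C) → ∀ i j, c i = c j) :
    Nat.card {c : α → Fˣ // ∀ x ∈ C, monomialMap 1 c x ∈ C} = Nat.card Fˣ :=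
  (Nat.card_congr (Equiv.ofBijective (fun u : Fˣ => (⟨fun _ => u, mono_const C u⟩ : {c : α → Fˣ // ∀ x ∈ C, monomialMap 1 c x ∈ C}))
    ⟨fun _ _ e => congrFun (congrArg Subtype.val e) (Classical.arbitrary α),
      fun c => ⟨c.1 (Classical.arbitrary α), Subtype.ext (funext fun _ => h c.1 c.2 _ _)⟩⟩)).symm

variable {c : Cd} {val : ℕ → F} {k : ℕ} {col : α → ℕ}
noncomputable def gw (c : Cd) (val : ℕ → F) (k : ℕ) (col : α → ℕ) (n : ℕ) (p : α) : F := val (dotC c n (col p) k)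
def gB (q : ℕ) (val : ℕ → F) (k : ℕ) (col : α → ℕ) (i : Fin k) (p : α) : F := val (dg q (col p) i)

theorem gw_eq (h : c.Sem val) (n : ℕ) : gw c val k col n = ∑ i : Fin k, val (dg c.q n i) • gB c.q val k col i := by
  funext p
  rw [gw, (dotC_spec h _ _ _).2, Finset.sum_apply, ← Fin.sum_univ_eq_sum_range (fun i => val (dg c.q n i) * val (dg c.q (col p) i))]
  rfl

theorem mem_gw (h : c.Sem val) (hs : ∀ a, ∃ i < c.q, val i = a) (hC : C = Submodule.span F (Set.range (gB c.q val k col)))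
    {x : α → F} : x ∈ C ↔ ∃ n < c.q ^ k, gw c val k col n = x := by
  rw [hC, Submodule.mem_span_range_iff_exists_fun]
  refine ⟨?_, fun ⟨n, _, e⟩ => ⟨_, (gw_eq h n).symm.trans e⟩⟩
  rintro ⟨a, rfl⟩
  choose f hf hf' using hs
  refine ⟨finFunctionFinEquiv fun i => (⟨f (a i), hf _⟩ : Fin c.q), Fin.is_lt _, (gw_eq h _).trans (sum_congr rfl fun i _ => ?_)⟩
  rw [← hf' (a i), dg_eq, ← finFunctionFinEquiv_symm_apply_val, Equiv.symm_apply_apply]

theorem ncard_gw {N : ℕ} {W : ℕ → α → F} (h : ∀ x, x ∈ C ↔ ∃ n < N, W n = x) (hi : ∀ n < N, ∀ m < N, W n = W m → n = m)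
    {P : (α → F) → Prop} {f : ℕ → Bool} (hf : ∀ n < N, P (W n) ↔ f n = true) :
    {x | x ∈ C ∧ P x}.ncard = ((range N).filter fun n => f n = true).card := by
  rw [← Set.ncard_coe_finset, ← Set.InjOn.ncard_image (f := W) fun a ha b hb =>
    hi a (mem_range.1 (mem_filter.1 ha).1) b (mem_range.1 (mem_filter.1 hb).1)]
  congr 1
  ext x
  simp only [Set.mem_ofPred_eq, h, Set.mem_image, coe_filter, mem_range]
  exact ⟨fun ⟨⟨n, a, e⟩, b⟩ => ⟨n, ⟨a, (hf n a).1 (e ▸ b)⟩, e⟩, fun ⟨n, a, e⟩ => ⟨⟨n, a.1, e⟩, e ▸ (hf n a.1).2 a.2⟩⟩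

theorem gw_inj (h : c.Sem val) (hv : ∀ a < c.q, ∀ b < c.q, val a = val b → a = b) {l : List α} {N : ℕ} {g : List ℕ → ℕ}
    (hc : nall (fun n => Nat.beq (g (l.map fun p => dotC c n (col p) k)) n) N = true) :
    ∀ n < N, ∀ m < N, gw c val k col n = gw c val k col m → n = m := fun n hn m hm e => by
  simp only [nall_eq, beq_eq] at hc
  rw [← hc n hn, ← hc m hm, List.map_congr_left fun p _ => hv _ (dotC_spec h _ _ _).1 _ (dotC_spec h _ _ _).1 (congrFun e p)]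

theorem gw_ne (h : c.Sem val) (hv : ∀ a < c.q, ∀ b < c.q, val a = val b → a = b) {n : ℕ} {p : α} :
    gw c val k col n p ≠ 0 ↔ dotC c n (col p) k ≠ 0 :=
  not_congr ⟨fun e => hv _ (dotC_spec h _ _ _).1 _ h.pos (e.trans h.v0.symm), fun e => by rw [gw, e, h.v0]⟩
end mono

def tE : Fin 12 ≃ ArrayPt := ⟨![(0, 0), (0, 1), (0, 2), (1, 0), (1, 1), (3, 1), (2, 1), (2, 2), (1, 2), (2, 0), (3, 2), (3, 0)],
  fun p => (![![0, 1, 2], ![3, 4, 8], ![9, 6, 7], ![11, 5, 10]] : Fin 4 → Fin 3 → Fin 12) p.1 p.2, by decide, by decide⟩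
noncomputable def tC : ℕ → ℕ := lk 0 [1,3,9,27,81,243,673,557,229,604,385,447]
noncomputable def tcol (p : ArrayPt) : ℕ := tC (tE.symm p)
noncomputable abbrev tB : Fin 6 → ArrayPt → ZMod 3 := gB 3 Nat.cast 6 tcol
noncomputable abbrev tw : ℕ → ArrayPt → ZMod 3 := gw (cdP 3) Nat.cast 6 tcol
def tP : Fin 6 → ArrayPt := ![(0, 0), (0, 1), (0, 2), (1, 0), (1, 1), (3, 1)]

theorem mem_tern {x : ArrayPt → ZMod 3} (h : (∀ i : Fin 4, ∑ r : ZMod 3, x (i, r) = ∑ r : ZMod 3, x (0, r)) ∧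
    ∀ a b : ZMod 3, ∑ i : Fin 4, x (i, (a • ![0, 1, 1, 1] + b • ![1, 0, 1, 2] : Fin 4 → ZMod 3) i) = -∑ r : ZMod 3, x (0, r)) :
    x ∈ ternaryGolayCode :=
  ⟨-∑ r : ZMod 3, x (0, r), fun i => by rw [h.1, neg_neg], fun t ht => by
    obtain ⟨a, b, rfl⟩ := Submodule.mem_span_pair.1 ht
    exact h.2 a b⟩

theorem tern_par {x : ArrayPt → ZMod 3} (h : x ∈ ternaryGolayCode) : ∑ i, x (tP i) • tB i = x := by
  obtain ⟨s, hs, ht⟩ := h
  have h3' : (3 : ZMod 3) = 0 := rfl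
  have hc : ∀ i, x (i, 0) + x (i, 1) + x (i, 2) = -s := fun i => (Fin.sum_univ_three fun r => x (i, r)).symm.trans (hs i)
  have hd : ∀ a b : ZMod 3, _ = s := fun a b => (Fin.sum_univ_four _).symm.trans (ht _ (Submodule.mem_span_pair.2 ⟨a, b, rfl⟩))
  have h0 := hc 0
  have h1 := hc 1
  have h2 := hc 2
  have h3 := hc 3
  have h4 : x (0, 0) + x (1, 0) + x (2, 0) + x (3, 0) = s := hd 0 0
  have h5 : x (0, 1) + x (1, 0) + x (2, 1) + x (3, 2) = s := hd 0 1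
  have h6 : x (0, 2) + x (1, 0) + x (2, 2) + x (3, 1) = s := hd 0 2
  have h7 : x (0, 0) + x (1, 1) + x (2, 1) + x (3, 1) = s := hd 1 0
  have h8 : x (0, 1) + x (1, 1) + x (2, 2) + x (3, 0) = s := hd 1 1
  have h9 : x (0, 2) + x (1, 1) + x (2, 0) + x (3, 2) = s := hd 1 2
  have h10 : x (0, 0) + x (1, 2) + x (2, 2) + x (3, 2) = s := hd 2 0
  have h11 : x (0, 1) + x (1, 2) + x (2, 0) + x (3, 1) = s := hd 2 1
  have h12 : x (0, 2) + x (1, 2) + x (2, 1) + x (3, 0) = s := hd 2 2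
  funext p
  rw [Finset.sum_apply, Fin.sum_univ_six, eq_comm]
  rcases (by decide : ∀ p : ArrayPt, p = (0, 0) ∨ p = (0, 1) ∨ p = (0, 2) ∨ p = (1, 0) ∨ p = (1, 1) ∨ p = (1, 2) ∨ p = (2, 0) ∨ p = (2, 1) ∨ p = (2, 2) ∨ p = (3, 0) ∨ p = (3, 1) ∨ p = (3, 2)) p with rfl | rfl | rfl | rfl | rfl | rfl | rfl | rfl | rfl | rfl | rfl | rfl
  · change x (0, 0) = x (0, 0) * 1 + x (0, 1) * 0 + x (0, 2) * 0 + x (1, 0) * 0 + x (1, 1) * 0 + x (3, 1) * 0
    ring
  · change x (0, 1) = x (0, 0) * 0 + x (0, 1) * 1 + x (0, 2) * 0 + x (1, 0) * 0 + x (1, 1) * 0 + x (3, 1) * 0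
    ring
  · change x (0, 2) = x (0, 0) * 0 + x (0, 1) * 0 + x (0, 2) * 1 + x (1, 0) * 0 + x (1, 1) * 0 + x (3, 1) * 0
    ring
  · change x (1, 0) = x (0, 0) * 0 + x (0, 1) * 0 + x (0, 2) * 0 + x (1, 0) * 1 + x (1, 1) * 0 + x (3, 1) * 0
    ring
  · change x (1, 1) = x (0, 0) * 0 + x (0, 1) * 0 + x (0, 2) * 0 + x (1, 0) * 0 + x (1, 1) * 1 + x (3, 1) * 0
    ring
  · change x (1, 2) = x (0, 0) * 1 + x (0, 1) * 1 + x (0, 2) * 1 + x (1, 0) * 2 + x (1, 1) * 2 + x (3, 1) * 0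
    linear_combination 2 * h0 + 1 * h1 + (-1) * x (0, 0) * h3' + (-1) * x (0, 1) * h3' + (-1) * x (0, 2) * h3' + (-1) * x (1, 0) * h3' + (-1) * x (1, 1) * h3' + (-1) * s * h3'
  · change x (2, 0) = x (0, 0) * 1 + x (0, 1) * 0 + x (0, 2) * 1 + x (1, 0) * 1 + x (1, 1) * 1 + x (3, 1) * 2
    linear_combination 2 * h0 + 2 * h3 + 1 * h4 + 1 * h5 + 2 * h7 + (-2) * x (0, 0) * h3' + (-1) * x (0, 1) * h3' + (-1) * x (0, 2) * h3' + (-1) * x (1, 0) * h3' + (-1) * x (1, 1) * h3' + (-1) * x (2, 1) * h3' + (-1) * x (3, 0) * h3' + (-2) * x (3, 1) * h3' + (-1) * x (3, 2) * h3'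
  · change x (2, 1) = x (0, 0) * 1 + x (0, 1) * 2 + x (0, 2) * 2 + x (1, 0) * 0 + x (1, 1) * 2 + x (3, 1) * 2
    linear_combination 1 * h0 + 1 * h7 + (-1) * x (0, 0) * h3' + (-1) * x (0, 1) * h3' + (-1) * x (0, 2) * h3' + (-1) * x (1, 1) * h3' + (-1) * x (3, 1) * h3'
  · change x (2, 2) = x (0, 0) * 2 + x (0, 1) * 2 + x (0, 2) * 1 + x (1, 0) * 2 + x (1, 1) * 0 + x (3, 1) * 2
    linear_combination 2 * h0 + 1 * h2 + 1 * h3 + 2 * h4 + 2 * h5 + (-2) * x (0, 0) * h3' + (-2) * x (0, 1) * h3' + (-1) * x (0, 2) * h3' + (-2) * x (1, 0) * h3' + (-1) * x (2, 0) * h3' + (-1) * x (2, 1) * h3' + (-1) * x (3, 0) * h3' + (-1) * x (3, 1) * h3' + (-1) * x (3, 2) * h3'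
  · change x (3, 0) = x (0, 0) * 0 + x (0, 1) * 2 + x (0, 2) * 1 + x (1, 0) * 1 + x (1, 1) * 2 + x (3, 1) * 1
    linear_combination 2 * h0 + 1 * h3 + 2 * h5 + 1 * h7 + (-1) * x (0, 0) * h3' + (-2) * x (0, 1) * h3' + (-1) * x (0, 2) * h3' + (-1) * x (1, 0) * h3' + (-1) * x (1, 1) * h3' + (-1) * x (2, 1) * h3' + (-1) * x (3, 1) * h3' + (-1) * x (3, 2) * h3'
  · change x (3, 1) = x (0, 0) * 0 + x (0, 1) * 0 + x (0, 2) * 0 + x (1, 0) * 0 + x (1, 1) * 0 + x (3, 1) * 1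
    ring
  · change x (3, 2) = x (0, 0) * 1 + x (0, 1) * 2 + x (0, 2) * 0 + x (1, 0) * 2 + x (1, 1) * 1 + x (3, 1) * 1
    linear_combination 1 * h5 + 2 * h7 + (-1) * x (0, 0) * h3' + (-1) * x (0, 1) * h3' + (-1) * x (1, 0) * h3' + (-1) * x (1, 1) * h3' + (-1) * x (2, 1) * h3' + (-1) * x (3, 1) * h3' + (1) * s * h3'

theorem tern_span : ternaryGolayCode = Submodule.span (ZMod 3) (Set.range tB) :=
  le_antisymm (fun _ h => (Submodule.mem_span_range_iff_exists_fun _).2 ⟨_, tern_par h⟩)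
    (Submodule.span_le.2 (Set.range_subset_iff.2 fun i => mem_tern (by revert i; decide +kernel)))

theorem sem3 : (cdP 3).Sem (Nat.cast : ℕ → ZMod 3) := semP 3 (by norm_num)
theorem mem_tw (x : ArrayPt → ZMod 3) : x ∈ ternaryGolayCode ↔ ∃ n < 729, tw n = x :=
  mem_gw sem3 (fun a => ⟨a.val, a.val_lt, ZMod.natCast_zmod_val a⟩) tern_span
theorem tw_inj : ∀ n < 729, ∀ m < 729, tw n = tw m → n = m :=
  gw_inj sem3 (injP 3) (l := List.ofFn tP) (g := fun l => mkrow 3 (lk 0 l) 6 0) (by decide +kernel)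

noncomputable def mkT (n : ℕ) : ℕ := mkrow 2 (fun j => cnd (Nat.beq (dotC (cdP 3) n (tC j) 6) 0) 0 1) 12 0
theorem mkT_chk : nall (fun n => band (Nat.ble (Nat.succ (mkT n)) 4096)
    (nall (fun j => beqb (tb (mkT n) j) (Nat.ble 1 (dotC (cdP 3) n (tC j) 6))) 12)) 729 = true := by decide +kernel
theorem supp_tw {n : ℕ} (h : n < 729) : ternarySupport (tw n) = (fN 12 (mkT n)).image tE := by
  have := mkT_chk
  simp only [nall_eq, band_eq, beqb_eq, tb_eq] at this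
  ext p
  obtain ⟨j, rfl⟩ := tE.surjective p
  rw [ternarySupport, mem_filter, gw_ne sem3 (injP 3), tE.injective.mem_finset_image, mem_fN, (this n h).2 j j.2, ble_eq, tcol,
    Equiv.symm_apply_apply, Nat.one_le_iff_ne_zero]
  simp
theorem card_tw {n : ℕ} (h : n < 729) : (ternarySupport (tw n)).card = pc (mkT n) := by
  have := mkT_chk
  simp only [nall_eq, band_eq, ble_eq] at this
  rw [supp_tw h, card_im, card_fN_pc (by norm_num) (this n h).1]
theorem ncard_tw (k : ℕ) : {x | x ∈ ternaryGolayCode ∧ (ternarySupport x).card = k}.ncard =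
    ((range 729).filter fun n => Nat.beq (pc (mkT n)) k = true).card :=
  ncard_gw mem_tw tw_inj fun n hn => by rw [card_tw hn, beq_eq]

abbrev tH : Set (Finset ArrayPt) := {h | ∃ x ∈ ternaryGolayCode, ternarySupport x = h ∧ h.card = 6}
theorem tH_eq : tH = im tE B12 := by
  have h1 : nall (fun n => bor (beqb (Nat.beq (pc (mkT n)) 6) false) (lmem (mkT n) L12)) 729 = true := by decide +kernel
  have h2 : lall (fun m => lany (fun n => band (Nat.ble (Nat.succ n) 729) (band (Nat.beq (mkT n) m) (Nat.beq (pc m) 6))) [lk 0 [338,292,154,462,134,321,433,413,387,32,102,263,479,150,278,140,348,13,279,325,259,354,46,88,414,42,92,298,108,246,385,43,369,120,415,89,258,299,281,426,91,138,247,14,109,276,45,324,103,309,110,262,411,47,248,432,30,90,31,153,326,12,297,87,261,1,447,112,307,97,353,51,250,423,302,343,17,117,330,37,141,255,83,270,41,409,101,264,378,126,254,303,28,84,93,136,288,33,245,4,405,9,146,269,105,273,407,35,315,327,11,135,48,86,459,29,252,99,244,3,114,271,333,5,36,15,82,243,10,249,81,27]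 (L12.idxOf m)]) L12 = true := by
    decide +kernel
  simp only [nall_eq, lall_eq, lany_eq, band_eq, bor_eq, beqb_eq, beq_eq, ble_eq, lmem_eq] at h1 h2
  ext s
  rw [mem_im]
  constructor
  · rintro ⟨x, hx, rfl, c⟩
    obtain ⟨n, hn, rfl⟩ := (mem_tw x).1 hx
    rw [card_tw hn] at c
    rw [supp_tw hn, image_symm]
    exact ⟨_, (h1 n hn).resolve_left (by rw [c]; decide), rfl⟩
  · rintro ⟨m, hm, e⟩
    obtain ⟨n, -, hn, rfl, c⟩ := h2 m hm
    have : ternarySupport (tw n) = s := by rw [supp_tw hn, e, image_symm']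
    exact ⟨_, (mem_tw _).2 ⟨n, hn, rfl⟩, this, by rw [← this, card_tw hn, c]⟩
theorem steiner_B12 : IsSteinerSystem 5 6 B12 := by
  obtain ⟨e, he⟩ := model12 ((card_sub _).trans d0_mem.2) (steiner_d d0_mem)
  exact he ▸ steiner_im (steiner_d d0_mem) e
theorem steiner_tH : IsSteinerSystem 5 6 tH := tH_eq ▸ steiner_im steiner_B12 tE

theorem tern_scal (c : ArrayPt → (ZMod 3)ˣ) (h : ∀ x ∈ ternaryGolayCode, monomialMap 1 c x ∈ ternaryGolayCode) (p q : ArrayPt) :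
    c p = c q := by
  have h1 : ∀ i p, tB i p ≠ 0 → c p = c (tP i) := fun i p hp => by
    have a := congrFun (tern_par (h (tB i) (tern_span.ge (Submodule.subset_span ⟨i, rfl⟩)))) p
    rw [Finset.sum_apply, sum_eq_single i (fun j _ e => by
      simp [mono_one, (by decide +kernel : ∀ i j, j ≠ i → tB i (tP j) = 0) i j e]) (by simp)] at a
    simp only [mono_one, Pi.smul_apply, smul_eq_mul, (by decide +kernel : ∀ i, tB i (tP i) = 1) i, mul_one] at a
    exact Units.ext (mul_right_cancel₀ hp a).symm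
  obtain ⟨i, j, r, a, b, d, e⟩ := (by decide +kernel : ∀ p q, ∃ i j r, tB i p ≠ 0 ∧ tB i r ≠ 0 ∧ tB j r ≠ 0 ∧ tB j q ≠ 0) p q
  rw [h1 i p a, ← h1 i r b, h1 j r d, h1 j q e]

theorem supp_mono (σ : Equiv.Perm ArrayPt) (c : ArrayPt → (ZMod 3)ˣ) (x : ArrayPt → ZMod 3) :
    ternarySupport (monomialMap σ c x) = (ternarySupport x).image σ := by
  ext p
  obtain ⟨p, rfl⟩ := σ.surjective p
  rw [σ.injective.mem_finset_image]
  simp [ternarySupport, monomialMap]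

noncomputable def pT (a b : List ℕ) (h : (∀ i : Fin 12, finX 12 (lk 0 b (finX 12 (lk 0 a i))) = i) ∧
    ∀ i : Fin 12, finX 12 (lk 0 a (finX 12 (lk 0 b i))) = i) : Equiv.Perm ArrayPt :=
  tE.permCongr ⟨fun i => finX 12 (lk 0 a i), fun i => finX 12 (lk 0 b i), h.1, h.2⟩
noncomputable def sgT (m : ℕ) (p : ArrayPt) : (ZMod 3)ˣ := if m.testBit (tE.symm p) then -1 else 1
noncomputable def nTG : List Net := [(Net.cons (nat_lit 6) (nat_lit 26)
  (Net.cons (nat_lit 3) (nat_lit 257)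
  (Net.cons (nat_lit 1) (nat_lit 8)
  (Net.cons (nat_lit 1) (nat_lit 146)
  (Net.cons (nat_lit 1) (nat_lit 521)
  (Net.cons (nat_lit 3) (nat_lit 4)
  (Net.cons (nat_lit 6) (nat_lit 44)
  Net.nil))))))),
 (Net.cons (nat_lit 6) (nat_lit 55)
  (Net.cons (nat_lit 3) (nat_lit 449)
  (Net.cons (nat_lit 1) (nat_lit 512)
  (Net.cons (nat_lit 1) (nat_lit 1168)
  (Net.cons (nat_lit 1) (nat_lit 513)
  (Net.cons (nat_lit 3) (nat_lit 134)
  Net.nil))))))]
noncomputable def gT0 : Equiv.Perm ArrayPt := pT [2,9,1,4,10,8,6,11,0,5,3,7] [8,2,0,10,3,9,6,11,5,1,4,7] (by decide +kernel)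
noncomputable def gT1 : Equiv.Perm ArrayPt := pT [7,11,10,6,3,8,9,1,4,2,5,0] [11,7,9,4,8,10,3,0,5,6,2,1] (by decide +kernel)

theorem Mon_tern : Mon ternaryGolayCode = setSystemAut tH ∧ Nat.card (setSystemAut tH) = 95040 := by
  have mT : IsModel 12 (fun i => tE (finX 12 i)) (lk 1 [gT0, gT1]) (lk Net.nil nTG) vT :=
    ⟨IsPre.ofLists (.cons (rep_of (by decide +kernel) (by decide +kernel)) (.cons (rep_of (by decide +kernel) (by decide +kernel)) .nil)), by decide +kernel⟩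
  have h1 : Mon ternaryGolayCode ≤ setSystemAut tH := by
    rintro σ ⟨c, hc⟩
    refine mem_aut.2 (im_eq_of_le ?_)
    rintro _ ⟨x, hx, rfl, e⟩
    exact ⟨_, hc x hx, supp_mono .., by rwa [card_im]⟩
  have h2 : 95040 ≤ Nat.card (Mon ternaryGolayCode) := by
    refine (mT.ord_le_card (L := (Lev.cons 0 12 [[1,1,0,0,0,1,0,1,1,0,1,1,1,0,1,0]]
  (Lev.cons 1 11 [[1,0,0,1,1,1,0,1,0,0,0,1,0,1,1]]
  (Lev.cons 2 10 [[1,1,0,1,1,0,1,0,1,0,0,0,1,1,0]]
  (Lev.cons 3 9 [[1,1,0,0,0,0,0,1,1,0,0,1,0,1,1,0]]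
  (Lev.cons 4 8 [[1,0,0,0,0,0,1,1,0,0,1,1,1],[1,1,0,0,1,0,0,1,0,1,0,0,1,0,1,0,0,1]]
  Lev.nil)))))) (k := 1) (r := 40) (by decide +kernel)).trans (Subgroup.card_le_of_le (cl_le.2 fun w _ => wp_mem fun l _ => ?_))
    rcases l with _ | _ | l
    · exact ⟨sgT 2762, mono_span tern_span fun i => mem_tern (by revert i; decide +kernel)⟩
    · exact ⟨sgT 2764, mono_span tern_span fun i => mem_tern (by revert i; decide +kernel)⟩
    · exact one_mem _
  have h3 := card_aut_le steiner_tH (model12 (by simp) steiner_tH) card_aut12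
  have := eq_of_le_of_ord h1 h2 h3
  exact ⟨this, le_antisymm h3 (this ▸ h2)⟩

end Cfsg.Agent.St
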