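/- The hexacode. -/
import Cfsg.Agent.GS.Tg1

set_option linter.unusedSectionVars false
set_option maxRecDepth 100000
namespace Cfsg.Agent.St
open Finset H6 MulAction
open scoped Pointwise

noncomputable def hC : ℕ → ℕ := lk 0 [62,43,59,46,47,58]
noncomputable def hcol (p : Fin 6) : ℕ := hC p
noncomputable def hT (n j : ℕ) : ℕ := dg 4 (dg 4096 931334448703469086357141812452919389233796475405638781431753429765852337075522134595207909986398092106847714107553937951437790377289206341074763843918106731241917253516810328197125638734345547132325658369875415844271938929033994240 n) j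
theorem hT_chk : ∀ n < 64, ∀ j < 6, dotC (cd2 2 1 1) n (hC j) 3 = hT n j := by decide +kernel
noncomputable def monOk (s : ℕ → ℕ) (c : ℕ) : Bool :=
  nall (fun k => nany (fun m => nall (fun j => Nat.beq (mulC (cd2 2 1 1) (dg 4 c j) (dg 4 (hC (s j)) k)) (hT m j)) 6) 64) 3
noncomputable def wtH (n : ℕ) : ℕ := (univ.filter fun j : Fin 6 => hT n j ≠ 0).card

variable {F : Type*} [Field F] [Fintype F] {ω : F}

theorem char4 (hF : Fintype.card F = 4) : CharP F 2 := charP_of_card (p := 2) (k := 2) Nat.prime_two hF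

theorem surj4 (hF : Fintype.card F = 4) (hω : ω ^ 2 + ω + 1 = 0) (a : F) : ∃ i < 4, val2 2 ω i = a := by
  haveI := char4 hF
  obtain ⟨i, h⟩ := ((Fintype.bijective_iff_injective_and_card fun i : Fin 4 => val2 2 ω i).2
    ⟨fun a b e => Fin.ext (inj4 hω _ a.2 _ b.2 e), by simp [hF]⟩).2 a
  exact ⟨i, i.2, h⟩

theorem hex_span (hF : Fintype.card F = 4) (hω : ω ^ 2 + ω + 1 = 0) :
    hexacode F ω = Submodule.span F (Set.range (gB 4 (val2 2 ω) 3 hcol)) := by
  haveI := char4 hF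
  have h2 : val2 2 ω 2 = ω := by simp [val2]
  have h3 : val2 2 ω 3 = ω ^ 2 := by
    have : (2 : F) = 0 := CharP.cast_eq_zero F 2
    simp only [val2]; norm_num; linear_combination (-1) * hω + (1 + ω) * this
  have e : gB 4 (val2 2 ω) 3 hcol = ![![ω, ω ^ 2, ω ^ 2, ω, ω ^ 2, ω], ![ω ^ 2, ω, ω, ω ^ 2, ω ^ 2, ω], ![ω ^ 2, ω, ω ^ 2, ω, ω, ω ^ 2]] := by
    funext i j
    fin_cases i <;> fin_cases j <;> first | exact h2 | exact h3
  rw [e, hexacode, Matrix.range_cons, Matrix.range_cons, Matrix.range_cons, Matrix.range_empty, Set.union_empty]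
  rfl

noncomputable abbrev hw (ω : F) : ℕ → Fin 6 → F := gw (cd2 2 1 1) (val2 2 ω) 3 hcol

theorem mem_hw (hF : Fintype.card F = 4) (hω : ω ^ 2 + ω + 1 = 0) (x : Fin 6 → F) : x ∈ hexacode F ω ↔ ∃ n < 64, hw ω n = x :=
  haveI := char4 hF
  mem_gw (sem4 hω) (surj4 hF hω) (hex_span hF hω)

theorem hw_inj (hF : Fintype.card F = 4) (hω : ω ^ 2 + ω + 1 = 0) : ∀ n < 64, ∀ m < 64, hw ω n = hw ω m → n = m :=
  haveI := char4 hF
  gw_inj (sem4 hω) (inj4 hω) (l := [0, 1, 2]) (g := fun l => lk 0 [0,14,7,9,31,17,24,22,37,43,34,44,58,52,61,51,20,26,19,29,11,5,12,2,49,63,54,56,46,32,41,39,40,38,47,33,55,57,48,62,13,3,10,4,18,28,21,27,60,50,59,53,35,45,36,42,25,23,30,16,6,8,1,15] (mkrow 4 (lk 0 l) 3 0)) (by decide +kernel)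

theorem card_hw [DecidableEq F] (hF : Fintype.card F = 4) (hω : ω ^ 2 + ω + 1 = 0) {n : ℕ} (h : n < 64) :
    (univ.filter fun j => hw ω n j ≠ 0).card = wtH n := by
  haveI := char4 hF
  rw [wtH, filter_congr fun j _ => gw_ne (sem4 hω) (inj4 hω), filter_congr fun j _ => by rw [hcol, hT_chk n h j j.2]]

theorem mon_iff (hF : Fintype.card F = 4) (hω : ω ^ 2 + ω + 1 = 0) {σ : Equiv.Perm (Fin 6)} {s : ℕ → ℕ}
    (hs : ∀ j : Fin 6, s j = σ.symm j) {c : Fin 6 → Fˣ} {n : ℕ} (hc : ∀ j : Fin 6, (c j : F) = val2 2 ω (dg 4 n j)) :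
    (∀ x ∈ hexacode F ω, monomialMap σ c x ∈ hexacode F ω) ↔ monOk s n = true := by
  haveI := char4 hF
  have key : ∀ (k : Fin 3), ∀ m < 64, hw ω m = monomialMap σ c (gB 4 (val2 2 ω) 3 hcol k) ↔
      ∀ j < 6, mulC (cd2 2 1 1) (dg 4 n j) (dg 4 (hC (s j)) k) = hT m j := fun k m hm => by
    have a : ∀ j : Fin 6, monomialMap σ c (gB 4 (val2 2 ω) 3 hcol k) j = val2 2 ω (mulC (cd2 2 1 1) (dg 4 n j) (dg 4 (hC (s j)) k)) :=
      fun j => by rw [val_mulC (sem4 hω) (dg_lt (q := 4) (by norm_num) _ _) (dg_lt (q := 4) (by norm_num) _ _), ← hc, hs]; rfl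
    refine ⟨fun e j hj => inj4 hω _ (Nat.mod_lt _ (by decide)) _ (dg_lt (q := 4) (by norm_num) _ _) ?_, fun e => funext fun j => ?_⟩
    · exact (a ⟨j, hj⟩).symm.trans (by rw [← e, ← hT_chk m hm j hj]; rfl)
    · rw [a, e j j.2, ← hT_chk m hm j j.2]; rfl
  simp only [monOk, nall_eq, nany_eq, beq_eq]
  refine ⟨fun h k hk => ?_, fun h => mono_span (hex_span hF hω) fun k => ?_⟩
  · obtain ⟨m, hm, e⟩ := (mem_hw hF hω _).1 (h _ ((hex_span hF hω).ge (Submodule.subset_span ⟨⟨k, hk⟩, rfl⟩)))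
    exact ⟨m, hm, (key _ m hm).1 e⟩
  · obtain ⟨m, hm, e⟩ := h k k.2
    exact (mem_hw hF hω _).2 ⟨m, hm, (key _ m hm).2 e⟩

theorem exists_code (hF : Fintype.card F = 4) (hω : ω ^ 2 + ω + 1 = 0) (c : Fin 6 → Fˣ) :
    ∃ n < 4096, (∀ j < 6, dg 4 n j ≠ 0) ∧ ∀ j : Fin 6, (c j : F) = val2 2 ω (dg 4 n j) := by
  choose f hf hf' using surj4 hF hω
  have : ∀ j : Fin 6, (c j : F) = val2 2 ω (dg 4 (finFunctionFinEquiv fun i => (⟨f (c i), hf _⟩ : Fin 4)) j) := fun j => by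
    rw [dg_eq, ← finFunctionFinEquiv_symm_apply_val, Equiv.symm_apply_apply, hf']
  exact ⟨_, Fin.is_lt _, fun j hj e => (c ⟨j, hj⟩).ne_zero (by rw [this, e]; simp [val2]), this⟩

theorem hex_scal (hF : Fintype.card F = 4) (hω : ω ^ 2 + ω + 1 = 0) (c : Fin 6 → Fˣ)
    (h : ∀ x ∈ hexacode F ω, monomialMap 1 c x ∈ hexacode F ω) (i j : Fin 6) : c i = c j := by
  obtain ⟨n, hn, h0, hc⟩ := exists_code hF hω c
  have := nall2_eq _ _ _ (by decide +kernel : nall2 (fun n => bor (nany (fun j => Nat.beq (dg 4 n j) 0) 6)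
    (bor (beqb (monOk id n) false) (nall (fun j => Nat.beq (dg 4 n j) (dg 4 n 0)) 6))) 64 64 = true) n hn
  simp only [bor_eq, nany_eq, nall_eq, beq_eq, beqb_eq, (mon_iff hF hω (σ := 1) (s := id) (fun _ => rfl) hc).1 h] at this
  rcases this with ⟨j, a, b⟩ | a | a
  · exact absurd b (h0 j a)
  · cases a
  · exact Units.ext (by rw [hc, hc, a i i.2, a j j.2])

noncomputable def nHG : List Net := [(Net.cons (nat_lit 1) (nat_lit 1)
  (Net.cons (nat_lit 1) (nat_lit 2)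
  Net.nil)),
 (Net.cons (nat_lit 1) (nat_lit 8)
  (Net.cons (nat_lit 1) (nat_lit 18)
  (Net.cons (nat_lit 3) (nat_lit 4)
  Net.nil)))]

theorem okHG : NetsOk 6 (lk Net.nil nHG) vT := netsOk_of (by decide +kernel)

theorem Mon_hex (hF : Fintype.card F = 4) (hω : ω ^ 2 + ω + 1 = 0) : Mon (hexacode F ω) = alternatingGroup (Fin 6) := by
  haveI := char4 hF
  have key : ∀ (σ : Equiv.Perm (Fin 6)) (s : ℕ → ℕ) (n : ℕ), (∀ j : Fin 6, s j = σ.symm j) → (∀ j < 6, dg 4 n j ≠ 0) → monOk s n = true →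
      σ ∈ Mon (hexacode F ω) := fun σ s n hs h0 h =>
    ⟨fun j => Units.mk0 (val2 2 ω (dg 4 n j)) fun e => h0 j j.2 (inj4 hω _ (dg_lt (q := 4) (by norm_num) _ _) 0 (by decide) (e.trans (sem4 hω).v0.symm)),
      (mon_iff hF hω hs fun _ => rfl).2 h⟩
  have h2 : 360 ≤ Nat.card (Mon (hexacode F ω)) := by
    refine ((finModel okHG).ord_le_card (L := (Lev.cons 0 6 [[1,0,1,1,1,0]]
  (Lev.cons 1 5 [[1,0,1,0]]
  (Lev.cons 2 4 [[0,0,1,1,1,0,1,1,0]]
  (Lev.cons 3 3 [[1,0,0,1,1,0,1,1,0,0,1]]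
  Lev.nil))))) (k := 0) (r := 40) (by decide +kernel)).trans
      (Subgroup.card_le_of_le (cl_le.2 fun w _ => wp_mem fun l _ => ?_))
    rcases l with _ | _ | l
    · exact key _ (lk 0 [2,0,1,3,4,5]) 2901 (by decide +kernel) (by decide +kernel) (by decide +kernel)
    · exact key _ (lk 0 [0,5,1,2,3,4]) 2541 (by decide +kernel) (by decide +kernel) (by decide +kernel)
    · exact (show finG okHG (l + 2) = 1 from Equiv.ext fun _ => rfl) ▸ one_mem _
  have h3 : Mon (hexacode F ω) ≠ ⊤ := fun e => by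
    obtain ⟨c, h⟩ : Equiv.swap 0 1 ∈ Mon (hexacode F ω) := e ▸ trivial
    obtain ⟨n, hn, h0, hc⟩ := exists_code hF hω c
    have := nall2_eq _ _ _ (by decide +kernel : nall2 (fun n => bor (nany (fun j => Nat.beq (dg 4 n j) 0) 6)
      (beqb (monOk (lk 0 [1, 0, 2, 3, 4, 5]) n) false)) 64 64 = true) n hn
    simp only [bor_eq, nany_eq, beq_eq, beqb_eq, (mon_iff hF hω (s := lk 0 [1, 0, 2, 3, 4, 5]) (by decide +kernel) hc).1 h] at this
    rcases this with ⟨j, a, b⟩ | a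
    · exact absurd b (h0 j a)
    · cases a
  have h4 := (Mon (hexacode F ω)).index_mul_card
  rw [Nat.card_perm, Nat.card_fin, show Nat.factorial 6 = 720 from rfl] at h4
  refine Equiv.Perm.eq_alternatingGroup_of_index_eq_two ?_
  have h5 := mt Subgroup.index_eq_one.1 h3
  have h6 := Subgroup.index_ne_zero_of_finite (H := Mon (hexacode F ω))
  by_contra h7
  nlinarith [show 3 ≤ (Mon (hexacode F ω)).index by omega]

end Cfsg.Agent.St
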